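import Mathlib

/-!
# S1299-DER (helper18, for helper1): the derived subgroup of a join of subgroups
-/

set_option autoImplicit false

namespace Cfsg.Agent.H18.KBal

open scoped commutatorElement

/-- S1299-DER. -/
theorem commutator_le_iSup {G : Type*} [Group G] {ι : Type*} (X : ι → Subgroup G) (T : Subgroup G)
    (hT : T = ⨆ i, X i)
    (hpair : ∀ i j, ∃ M : Subgroup G, X i ≤ M ∧ X j ≤ M ∧ ⁅T, T⁆ ⊓ M ≤ ⨆ l, ⁅T, T⁆ ⊓ X l) :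
    ⁅T, T⁆ ≤ ⨆ l, ⁅T, T⁆ ⊓ X l := by
  have hXT : ∀ i, X i ≤ T := fun i => by rw [hT]; exact le_iSup X i
  have hDT : ⁅T, T⁆ ≤ T := Subgroup.commutator_le_self T
  -- (a) every `X j` normalizes `S`
  have ha : ∀ j, ∀ w ∈ X j, ∀ s ∈ ⨆ l, ⁅T, T⁆ ⊓ X l, w * s * w⁻¹ ∈ ⨆ l, ⁅T, T⁆ ⊓ X l := by
    intro j w hw s hs
    refine Subgroup.iSup_induction (fun l => ⁅T, T⁆ ⊓ X l)
      (C := fun s => w * s * w⁻¹ ∈ ⨆ l, ⁅T, T⁆ ⊓ X l) hs ?_ ?_ ?_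
    · intro i z hz
      obtain ⟨M, hiM, hjM, hM⟩ := hpair i j
      apply hM
      refine ⟨?_, M.mul_mem (M.mul_mem (hjM hw) (hiM hz.2)) (M.inv_mem (hjM hw))⟩
      have h1 : ⁅w, z⁆ ∈ ⁅T, T⁆ := Subgroup.commutator_mem_commutator (hXT j hw) (hDT hz.1)
      have h2 : w * z * w⁻¹ = ⁅w, z⁆ * z := by
        rw [commutatorElement_def]; group
      rw [h2]
      exact Subgroup.mul_mem _ h1 hz.1
    · simp
    · intro a b hA hB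
      have h2 : w * (a * b) * w⁻¹ = (w * a * w⁻¹) * (w * b * w⁻¹) := by group
      rw [h2]
      exact Subgroup.mul_mem _ hA hB
  -- hence `T` normalizes `S`
  have hN : ∀ g ∈ T, ∀ s ∈ ⨆ l, ⁅T, T⁆ ⊓ X l, g * s * g⁻¹ ∈ ⨆ l, ⁅T, T⁆ ⊓ X l := by
    intro g hg
    rw [hT] at hg
    refine Subgroup.iSup_induction X
      (C := fun g => ∀ s ∈ ⨆ l, ⁅T, T⁆ ⊓ X l, g * s * g⁻¹ ∈ ⨆ l, ⁅T, T⁆ ⊓ X l) hg ?_ ?_ ?_
    · intro j w hw s hs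
      exact ha j w hw s hs
    · intro s hs
      simpa using hs
    · intro a b hA hB s hs
      have h2 : a * b * s * (a * b)⁻¹ = a * (b * s * b⁻¹) * a⁻¹ := by group
      rw [h2]
      exact hA _ (hB s hs)
  -- (b) commutators of generators
  have hb : ∀ i j, ∀ x ∈ X i, ∀ y ∈ X j, ⁅x, y⁆ ∈ ⨆ l, ⁅T, T⁆ ⊓ X l := by
    intro i j x hx y hy
    obtain ⟨M, hiM, hjM, hM⟩ := hpair i j
    apply hM
    refine ⟨Subgroup.commutator_mem_commutator (hXT i hx) (hXT j hy), ?_⟩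
    rw [commutatorElement_def]
    exact M.mul_mem (M.mul_mem (M.mul_mem (hiM hx) (hjM hy)) (M.inv_mem (hiM hx)))
      (M.inv_mem (hjM hy))
  -- (c1) `g ∈ T`, `h` a generator
  have hc1 : ∀ j, ∀ h ∈ X j, ∀ g ∈ T, ⁅g, h⁆ ∈ ⨆ l, ⁅T, T⁆ ⊓ X l := by
    intro j h hh g hg
    have key : g ∈ T ∧ ⁅g, h⁆ ∈ ⨆ l, ⁅T, T⁆ ⊓ X l := by
      rw [hT] at hg
      refine Subgroup.iSup_induction X
        (C := fun g => g ∈ T ∧ ⁅g, h⁆ ∈ ⨆ l, ⁅T, T⁆ ⊓ X l) hg ?_ ?_ ?_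
      · intro i x hx
        exact ⟨hXT i hx, hb i j x hx h hh⟩
      · refine ⟨T.one_mem, ?_⟩
        rw [commutatorElement_one_left]
        exact Subgroup.one_mem _
      · rintro a b ⟨haT, hA⟩ ⟨hbT, hB⟩
        refine ⟨T.mul_mem haT hbT, ?_⟩
        have h2 : ⁅a * b, h⁆ = a * ⁅b, h⁆ * a⁻¹ * ⁅a, h⁆ := by
          simp only [commutatorElement_def]; group
        rw [h2]
        exact Subgroup.mul_mem _ (hN a haT _ hB) hA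
    exact key.2
  -- (c2) `g, h ∈ T`
  rw [Subgroup.commutator_le]
  intro g hg h hh
  have key : h ∈ T ∧ ⁅g, h⁆ ∈ ⨆ l, ⁅T, T⁆ ⊓ X l := by
    rw [hT] at hh
    refine Subgroup.iSup_induction X
      (C := fun h => h ∈ T ∧ ⁅g, h⁆ ∈ ⨆ l, ⁅T, T⁆ ⊓ X l) hh ?_ ?_ ?_
    · intro j y hy
      exact ⟨hXT j hy, hc1 j y hy g hg⟩
    · refine ⟨T.one_mem, ?_⟩
      rw [commutatorElement_one_right]
      exact Subgroup.one_mem _
    · rintro a b ⟨haT, hA⟩ ⟨hbT, hB⟩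
      refine ⟨T.mul_mem haT hbT, ?_⟩
      have h2 : ⁅g, a * b⁆ = ⁅g, a⁆ * (a * ⁅g, b⁆ * a⁻¹) := by
        simp only [commutatorElement_def]; group
      rw [h2]
      exact Subgroup.mul_mem _ hA (hN a haT _ hB)
  exact key.2

example {G : Type*} [Group G] {ι : Type*} (X : ι → Subgroup G) (T : Subgroup G)
    (hT : T = ⨆ i, X i)
    (hpair : ∀ i j, ∃ M : Subgroup G, X i ≤ M ∧ X j ≤ M ∧ ⁅T, T⁆ ⊓ M ≤ ⨆ l, ⁅T, T⁆ ⊓ X l) :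
    ⁅T, T⁆ ≤ ⨆ l, ⁅T, T⁆ ⊓ X l := commutator_le_iSup X T hT hpair

end Cfsg.Agent.H18.KBal
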