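import Cfsg.Agent.H19.SxDefs

/-!
# SX-COMPA (helper18, for helper19's EXIST project, S2948 / S2949)

From `k` of order 3 modulo `C`, inverted modulo `C` by the involution `a ∈ J`, to an element `x`
of odd order with `x ^ 3 ∈ Q`, inverted by `a`, with `⟨x⟩Q` normalized by `J`.
-/

set_option autoImplicit false
open Cfsg

namespace Cfsg.Agent.H18.Sx

open Cfsg.Agent.H19.Sx

universe u

/-- iterated conjugation: if `h k h⁻¹ = c k` and `h` commutes with `c`, then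
`h^m k h^{-m} = c^m k`. -/
theorem conj_pow_shift {G : Type*} [Group G] (h k c : G) (hc : h * k * h⁻¹ = c * k)
    (hcomm : h * c = c * h) (m : ℕ) : h ^ m * k * (h ^ m)⁻¹ = c ^ m * k := by
  induction m with
  | zero => simp
  | succ m ih =>
    have h1 : h ^ (m + 1) * k * (h ^ (m + 1))⁻¹ = h * (h ^ m * k * (h ^ m)⁻¹) * h⁻¹ := by
      rw [pow_succ']
      group
    have hcm : h * c ^ m = c ^ m * h := by
      have : Commute h c := hcomm
      exact (this.pow_right m).eq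
    rw [h1, ih]
    calc h * (c ^ m * k) * h⁻¹ = (h * c ^ m) * k * h⁻¹ := by group
      _ = c ^ m * h * k * h⁻¹ := by rw [hcm]
      _ = c ^ m * (h * k * h⁻¹) := by group
      _ = c ^ m * (c * k) := by rw [hc]
      _ = c ^ (m + 1) * k := by rw [pow_succ]; group

/-- a 2-element of the normal subgroup `C` lies in `Q` when `T ⊓ C ≤ Q` for a Sylow
2-subgroup `T`; hence `c ^ 2 ^ n ∈ Q` forces `c ∈ Q` for `c ∈ C`. -/
theorem mem_of_two_pow_mem {X : Type*} [Group X] [Finite X] (T C Q : Subgroup X)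
    (hT : IsPGroup 2 ↥T) (hTodd : Odd T.index) [C.Normal] [Q.Normal] (hTCQ : T ⊓ C ≤ Q)
    (c : X) (hc : c ∈ C) (n : ℕ) (h : c ^ 2 ^ n ∈ Q) : c ∈ Q := by
  have : Fact (Nat.Prime 2) := ⟨Nat.prime_two⟩
  have hnd : ¬ 2 ∣ T.index := by
    intro hd
    exact (Nat.not_even_iff_odd.mpr hTodd) (even_iff_two_dvd.mpr hd)
  have ho : 0 < orderOf c := orderOf_pos c
  obtain ⟨e, r, hr, hor⟩ := Nat.exists_eq_two_pow_mul_odd ho.ne'
  -- y := c ^ r is a 2-element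
  have hy2 : (c ^ r) ^ 2 ^ e = 1 := by
    rw [← pow_mul, mul_comm, ← hor, pow_orderOf_eq_one]
  have hyC : c ^ r ∈ C := pow_mem hc r
  have hP : IsPGroup 2 ↥(Subgroup.zpowers (c ^ r)) := by
    intro ⟨g, hg⟩
    obtain ⟨i, rfl⟩ := Subgroup.mem_zpowers_iff.mp hg
    refine ⟨e, Subtype.ext ?_⟩
    simp only [SubmonoidClass.mk_pow, Subgroup.coe_one]
    rw [← zpow_natCast, ← zpow_mul, mul_comm, zpow_mul, zpow_natCast, hy2, one_zpow]
  obtain ⟨S, hS⟩ := hP.exists_le_sylow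
  obtain ⟨g, hg⟩ := MulAction.exists_smul_eq X S (hT.toSylow hnd)
  have h1 : c ^ r ∈ (S : Subgroup X) := hS (Subgroup.mem_zpowers _)
  have h2 : g * c ^ r * g⁻¹ ∈ T := by
    have h3 : g * c ^ r * g⁻¹ ∈ ((g • S : Sylow 2 X) : Subgroup X) := by
      rw [Sylow.coe_subgroup_smul, Subgroup.mem_pointwise_smul_iff_inv_smul_mem, MulAut.smul_def,
        ← map_inv, MulAut.conj_apply, inv_inv]
      have : g⁻¹ * (g * c ^ r * g⁻¹) * g = c ^ r := by group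
      rw [this]
      exact h1
    rw [hg] at h3
    exact (IsPGroup.mem_toSylow hT hnd).mp h3
  have h4 : g * c ^ r * g⁻¹ ∈ Q :=
    hTCQ (Subgroup.mem_inf.mpr ⟨h2, ‹C.Normal›.conj_mem _ hyC g⟩)
  have h5 : c ^ r ∈ Q := by
    have := ‹Q.Normal›.conj_mem _ h4 g⁻¹
    have e2 : g⁻¹ * (g * c ^ r * g⁻¹) * g⁻¹⁻¹ = c ^ r := by group
    rwa [e2] at this
  -- now in the quotient
  have q1 : ((c : X) : X ⧸ Q) ^ r = 1 := by
    rw [← QuotientGroup.mk_pow]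
    exact (QuotientGroup.eq_one_iff _).mpr h5
  have q2 : ((c : X) : X ⧸ Q) ^ 2 ^ n = 1 := by
    rw [← QuotientGroup.mk_pow]
    exact (QuotientGroup.eq_one_iff _).mpr h
  have d1 : orderOf ((c : X) : X ⧸ Q) ∣ r := orderOf_dvd_of_pow_eq_one q1
  have d2 : orderOf ((c : X) : X ⧸ Q) ∣ 2 ^ n := orderOf_dvd_of_pow_eq_one q2
  have hcop : Nat.Coprime r (2 ^ n) := by
    apply Nat.Coprime.pow_right
    exact Nat.coprime_two_right.mpr hr
  have d3 : orderOf ((c : X) : X ⧸ Q) = 1 := Nat.eq_one_of_dvd_coprimes hcop d1 d2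
  exact (QuotientGroup.eq_one_iff _).mp (orderOf_eq_one_iff.mp d3)

/-- `(q y)^N ∈ Q y^N` for `q` in the normal subgroup `Q`. -/
theorem mul_pow_mem_normal {X : Type*} [Group X] (Q : Subgroup X) [Q.Normal] (q y : X)
    (hq : q ∈ Q) (N : ℕ) : (q * y) ^ N * (y ^ N)⁻¹ ∈ Q := by
  apply (QuotientGroup.eq_one_iff _).mp
  have hq1 : ((q : X) : X ⧸ Q) = 1 := (QuotientGroup.eq_one_iff _).mpr hq
  rw [QuotientGroup.mk_mul, QuotientGroup.mk_inv, QuotientGroup.mk_pow, QuotientGroup.mk_pow,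
    QuotientGroup.mk_mul, hq1, one_mul, mul_inv_cancel]

theorem compA : StCompA.{u} := by
  intro X _ _ T C Q J a k hT hTodd hCn hQn hQC hTCQ hCT hJT haJ haa hkC hk3 hak hJk
  have := hCn
  have := hQn
  have hainv : a⁻¹ = a := inv_eq_of_mul_eq_one_left haa
  -- commutators of T with C lie in Q
  have hcomm : ∀ h ∈ T, ∀ c ∈ C, h * c * h⁻¹ * c⁻¹ ∈ Q := by
    intro h hh c hc
    refine hTCQ (Subgroup.mem_inf.mpr ⟨?_, ?_⟩)
    · have h1 : c * h⁻¹ * c⁻¹ ∈ T :=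
        (Subgroup.mem_normalizer_iff.mp (hCT hc) h⁻¹).mp (T.inv_mem hh)
      have : h * c * h⁻¹ * c⁻¹ = h * (c * h⁻¹ * c⁻¹) := by group
      rw [this]
      exact mul_mem hh h1
    · exact mul_mem (hCn.conj_mem c hc h) (inv_mem hc)
  -- the quotient by C
  let π : X →* X ⧸ C := QuotientGroup.mk' C
  have hπ : ∀ y : X, π y = 1 ↔ y ∈ C := fun y => QuotientGroup.eq_one_iff y
  have hK1 : π k ≠ 1 := fun h => hkC ((hπ k).mp h)
  have hK3 : π k ^ 3 = 1 := by rw [← map_pow]; exact (hπ _).mpr hk3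
  have hKa : π a * π k * (π a)⁻¹ = (π k)⁻¹ := by
    have := (hπ _).mpr hak
    rw [map_mul, map_mul, map_mul, map_inv] at this
    exact eq_inv_of_mul_eq_one_left this
  -- k₁
  obtain ⟨k₁, hk₁⟩ : ∃ k₁ : X, k₁ = k * a * k⁻¹ * a⁻¹ := ⟨_, rfl⟩
  have hak₁ : a * k₁ * a⁻¹ = k₁⁻¹ := by
    rw [hk₁, hainv]
    have : (k * a * k⁻¹ * a)⁻¹ = a⁻¹ * k * a⁻¹ * k⁻¹ := by group
    rw [this, hainv]
    have e1 : a * (k * a * k⁻¹ * a) * a = a * k * a * k⁻¹ * (a * a) := by group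
    rw [e1, haa, mul_one]
  have hπk₁ : π k₁ = π k ^ 2 := by
    have e1 : π k₁ = π k * (π a * π k * (π a)⁻¹)⁻¹ := by
      rw [hk₁]; simp only [map_mul, map_inv]; group
    rw [e1, hKa, inv_inv, pow_two]
  have hk₁C : k₁ ∉ C := by
    intro h
    have h2 : π k ^ 2 = 1 := by rw [← hπk₁]; exact (hπ _).mpr h
    apply hK1
    have : π k = π k ^ 3 * (π k ^ 2)⁻¹ := by group
    rw [this, hK3, h2]; simp
  have hk₁3C : k₁ ^ 3 ∈ C := by
    apply (hπ _).mp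
    rw [map_pow, hπk₁, ← pow_mul]
    have : π k ^ (2 * 3) = (π k ^ 3) ^ 2 := by rw [← pow_mul]
    rw [this, hK3, one_pow]
  have hk₁mem : k₁ ∈ Subgroup.zpowers k ⊔ C := by
    have hkz : k ∈ Subgroup.zpowers k ⊔ C := Subgroup.mem_sup_left (Subgroup.mem_zpowers k)
    have e1 : k₁ = k * k * (a * k * a⁻¹ * k)⁻¹ := by rw [hk₁]; group
    rw [e1]
    exact mul_mem (mul_mem hkz hkz) (inv_mem (Subgroup.mem_sup_right hak))
  -- k₁ ^ 3 ∈ Q
  have hk₁3Q : k₁ ^ 3 ∈ Q := by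
    apply mem_of_two_pow_mem T C Q hT hTodd hTCQ (k₁ ^ 3) hk₁3C 1
    have h1 := hcomm a (hJT haJ) (k₁ ^ 3) hk₁3C
    have e1 : a * k₁ ^ 3 * a⁻¹ = (k₁ ^ 3)⁻¹ := by
      rw [← conj_pow, hak₁, inv_pow]
    rw [e1] at h1
    have e2 : (k₁ ^ 3) ^ 2 ^ 1 = ((k₁ ^ 3)⁻¹ * (k₁ ^ 3)⁻¹)⁻¹ := by
      rw [pow_one, pow_two]; group
    rw [e2]
    exact inv_mem h1
  -- key: a 2-element of T centralizing k₁ modulo C centralizes it modulo Q
  have key : ∀ h ∈ T, h * k₁ * h⁻¹ * k₁⁻¹ ∈ C → h * k₁ * h⁻¹ * k₁⁻¹ ∈ Q := by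
    intro h hh hcC
    obtain ⟨n, hn⟩ := hT ⟨h, hh⟩
    have hn' : h ^ 2 ^ n = 1 := by
      have := congrArg Subtype.val hn
      simpa using this
    set c := h * k₁ * h⁻¹ * k₁⁻¹ with hcdef
    let ρ : X →* X ⧸ Q := QuotientGroup.mk' Q
    have hρ : ∀ y : X, ρ y = 1 ↔ y ∈ Q := fun y => QuotientGroup.eq_one_iff y
    have h1 : ρ h * ρ k₁ * (ρ h)⁻¹ = ρ c * ρ k₁ := by
      rw [hcdef]; simp only [map_mul, map_inv]; group
    have h2 : ρ h * ρ c = ρ c * ρ h := by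
      have := (hρ _).mpr (hcomm h hh c hcC)
      rw [map_mul, map_mul, map_mul, map_inv, map_inv] at this
      have e : ρ h * ρ c = (ρ h * ρ c * (ρ h)⁻¹ * (ρ c)⁻¹) * (ρ c * ρ h) := by group
      rw [e, this, one_mul]
    have h3 := conj_pow_shift (ρ h) (ρ k₁) (ρ c) h1 h2 (2 ^ n)
    rw [← map_pow, hn', map_one, one_mul, inv_one, mul_one] at h3
    have h4 : ρ c ^ 2 ^ n = 1 := by
      have : ρ c ^ 2 ^ n = (ρ c ^ 2 ^ n * ρ k₁) * (ρ k₁)⁻¹ := by group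
      rw [this, ← h3, mul_inv_cancel]
    apply mem_of_two_pow_mem T C Q hT hTodd hTCQ c hcC n
    apply (hρ _).mp
    rw [map_pow, h4]
  -- x
  have ho : 0 < orderOf k₁ := orderOf_pos k₁
  obtain ⟨e, r, hr, hor⟩ := Nat.exists_eq_two_pow_mul_odd ho.ne'
  refine ⟨k₁ ^ 2 ^ e, ?_, ?_, ?_, ?_, ?_, ?_⟩
  · -- odd order
    have h1 : (k₁ ^ 2 ^ e) ^ r = 1 := by
      rw [← pow_mul, ← hor, pow_orderOf_eq_one]
    exact Odd.of_dvd_nat hr (orderOf_dvd_of_pow_eq_one h1)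
  · -- not in C
    intro h
    have h1 : π k ^ (2 * 2 ^ e) = 1 := by
      rw [pow_mul, ← hπk₁, ← map_pow]; exact (hπ _).mpr h
    have d1 : orderOf (π k) ∣ 2 * 2 ^ e := orderOf_dvd_of_pow_eq_one h1
    have d2 : orderOf (π k) ∣ 3 := orderOf_dvd_of_pow_eq_one hK3
    have hcop : Nat.Coprime (2 * 2 ^ e) 3 := by
      rw [← pow_succ']
      apply Nat.Coprime.pow_left
      decide
    have d3 : orderOf (π k) = 1 := Nat.eq_one_of_dvd_coprimes hcop d1 d2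
    exact hK1 (orderOf_eq_one_iff.mp d3)
  · -- cube in Q
    have : (k₁ ^ 2 ^ e) ^ 3 = (k₁ ^ 3) ^ 2 ^ e := by rw [← pow_mul, ← pow_mul, mul_comm]
    rw [this]
    exact pow_mem hk₁3Q _
  · -- inverted by a
    rw [← conj_pow, hak₁, inv_pow]
  · exact pow_mem hk₁mem _
  · -- normalized by J modulo Q
    intro g hg
    have hxz : k₁ ^ 2 ^ e ∈ Subgroup.zpowers (k₁ ^ 2 ^ e) ⊔ Q :=
      Subgroup.mem_sup_left (Subgroup.mem_zpowers _)
    have hgT : g ∈ T := hJT hg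
    have hGk : π g * π k * (π g)⁻¹ = π k ∨ π g * π k * (π g)⁻¹ = (π k)⁻¹ := by
      rcases hJk g hg with h | h
      · left
        have := (hπ _).mpr h
        rw [map_mul, map_mul, map_mul, map_inv, map_inv] at this
        exact mul_inv_eq_one.mp this
      · right
        have := (hπ _).mpr h
        rw [map_mul, map_mul, map_mul, map_inv] at this
        exact eq_inv_of_mul_eq_one_left this
    rcases hGk with hG | hG
    · -- g centralizes k₁ modulo C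
      have hc : g * k₁ * g⁻¹ * k₁⁻¹ ∈ C := by
        apply (hπ _).mp
        rw [map_mul, map_mul, map_mul, map_inv, map_inv, hπk₁]
        have : π g * π k ^ 2 * (π g)⁻¹ = (π g * π k * (π g)⁻¹) ^ 2 := by rw [conj_pow]
        rw [this, hG, mul_inv_cancel]
      have hq := key g hgT hc
      have e1 : g * k₁ ^ 2 ^ e * g⁻¹ =
          ((g * k₁ * g⁻¹ * k₁⁻¹ * k₁) ^ 2 ^ e * (k₁ ^ 2 ^ e)⁻¹) * k₁ ^ 2 ^ e := by
        rw [← conj_pow]
        have : g * k₁ * g⁻¹ * k₁⁻¹ * k₁ = g * k₁ * g⁻¹ := by group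
        rw [this]; group
      rw [e1]
      exact mul_mem (Subgroup.mem_sup_right (mul_pow_mem_normal Q _ k₁ hq _)) hxz
    · -- g inverts k₁ modulo C: use h = g * a
      have hgaT : g * a ∈ T := mul_mem hgT (hJT haJ)
      have e0 : g * a * k₁ * (g * a)⁻¹ = g * k₁⁻¹ * g⁻¹ := by
        have : g * a * k₁ * (g * a)⁻¹ = g * (a * k₁ * a⁻¹) * g⁻¹ := by group
        rw [this, hak₁]
      have hc : g * a * k₁ * (g * a)⁻¹ * k₁⁻¹ ∈ C := by
        rw [e0]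
        apply (hπ _).mp
        rw [map_mul, map_mul, map_mul, map_inv, map_inv, hπk₁]
        have : π g * (π k ^ 2)⁻¹ * (π g)⁻¹ = ((π g * π k * (π g)⁻¹) ^ 2)⁻¹ := by
          rw [conj_pow]; group
        rw [this, hG]
        group
      have hq := key (g * a) hgaT hc
      rw [e0] at hq
      -- g k₁⁻¹ g⁻¹ = q k₁
      have e1 : g * k₁ ^ 2 ^ e * g⁻¹ =
          (((g * k₁⁻¹ * g⁻¹ * k₁⁻¹ * k₁) ^ 2 ^ e * (k₁ ^ 2 ^ e)⁻¹) * k₁ ^ 2 ^ e)⁻¹ := by
        have e2 : g * k₁⁻¹ * g⁻¹ * k₁⁻¹ * k₁ = (g * k₁ * g⁻¹)⁻¹ := by group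
        rw [e2, inv_mul_cancel_right, inv_pow, inv_inv, conj_pow]
      rw [e1]
      exact inv_mem (mul_mem (Subgroup.mem_sup_right (mul_pow_mem_normal Q _ k₁ hq _)) hxz)

example : Cfsg.Agent.H19.Sx.StCompA.{u} := Cfsg.Agent.H18.Sx.compA.{u}

end Cfsg.Agent.H18.Sx
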