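import Mathlib
import Cfsg.Agent.H23.StbDefs

/-!
# S2125-W0 (helper18, for helper23)

`n₀ U n₀⁻¹ = V` and `n₀ V n₀⁻¹ = U` for the longest element `n₀ = nWU hS w0`.
-/

set_option autoImplicit false

namespace Cfsg.Agent.H18.Stb

open Cfsg.Lie Cfsg.Agent.H23 Cfsg.Agent.H23.Stb

universe u

theorem w0 : StW0.{u} := by
  intro D F _ z η rT w0 hC
  have hS := hC.hP.sem
  have hN := hC.hP.semN
  have hT := hC.hP.tab
  have hW := hC.hW
  have hwr : ∀ i ∈ w0.reverse, i < D.rank := fun i hi => hW.lt i (List.mem_reverse.mp hi)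
  -- (a) `n U n⁻¹ ≤ V`
  have ha : D.posUnipotent F ≤
      (D.negUnipotent F).comap (MulAut.conj (nWU hS w0)).toMonoidHom := by
    rw [posUnipotent_eq]
    apply rootGen_le hS
    intro r hr t
    rw [Subgroup.mem_comap]
    show nWU hS w0 * xU hS r t * (nWU hS w0)⁻¹ ∈ D.negUnipotent F
    obtain ⟨c, -, hc⟩ := nWU_conj hS hN hT w0 hW.lt r hr.1
    rw [hc t, negUnipotent_eq]
    exact xU_mem_rootGen hS D.IsNegRoot _ (hW.neg r hr.1 hr) _
  -- (b) `n V n⁻¹ ≤ U`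
  have hb : D.negUnipotent F ≤
      (D.posUnipotent F).comap (MulAut.conj (nWU hS w0)).toMonoidHom := by
    rw [negUnipotent_eq]
    apply rootGen_le hS
    intro r hr t
    rw [Subgroup.mem_comap]
    show nWU hS w0 * xU hS r t * (nWU hS w0)⁻¹ ∈ D.posUnipotent F
    obtain ⟨c, -, hc⟩ := nWU_conj hS hN hT w0 hW.lt r hr.1
    rw [hc t, posUnipotent_eq]
    apply xU_mem_rootGen hS D.IsPosRoot
    have h1 : D.IsPosRoot (D.neg r) := (hT.pos_neg r hr.1).2.1 hr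
    have h2 := hW.neg (D.neg r) (hT.neg_lt r hr.1) h1
    rw [reflW_neg hT w0 hW.lt r hr.1] at h2
    have h3 := (hT.pos_neg _ (hT.neg_lt _ (reflW_lt hT w0 hW.lt r hr.1))).2.1 h2
    rwa [hT.neg_neg _ (reflW_lt hT w0 hW.lt r hr.1)] at h3
  -- (c) `n⁻¹ V n ≤ U`
  have hc : D.negUnipotent F ≤
      (D.posUnipotent F).comap (MulAut.conj (nWU hS w0)⁻¹).toMonoidHom := by
    rw [negUnipotent_eq]
    apply rootGen_le hS
    intro r hr t
    rw [Subgroup.mem_comap]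
    show (nWU hS w0)⁻¹ * xU hS r t * ((nWU hS w0)⁻¹)⁻¹ ∈ D.posUnipotent F
    rw [inv_inv]
    obtain ⟨c, -, hc⟩ := nWU_conj' hS hN hT w0 hW.lt r hr.1
    rw [hc t, posUnipotent_eq]
    exact xU_mem_rootGen hS D.IsPosRoot _ (hW.pos r hr.1 hr) _
  -- (d) `n⁻¹ U n ≤ V`
  have hd : D.posUnipotent F ≤
      (D.negUnipotent F).comap (MulAut.conj (nWU hS w0)⁻¹).toMonoidHom := by
    rw [posUnipotent_eq]
    apply rootGen_le hS
    intro r hr t
    rw [Subgroup.mem_comap]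
    show (nWU hS w0)⁻¹ * xU hS r t * ((nWU hS w0)⁻¹)⁻¹ ∈ D.negUnipotent F
    rw [inv_inv]
    obtain ⟨c, -, hc⟩ := nWU_conj' hS hN hT w0 hW.lt r hr.1
    rw [hc t, negUnipotent_eq]
    apply xU_mem_rootGen hS D.IsNegRoot
    have h1 : D.IsNegRoot (D.neg r) := (hT.pos_neg r hr.1).1 hr
    have h2 := hW.pos (D.neg r) (hT.neg_lt r hr.1) h1
    rw [reflW_neg hT w0.reverse hwr r hr.1] at h2
    have h3 := (hT.pos_neg _ (hT.neg_lt _ (reflW_lt hT w0.reverse hwr r hr.1))).1 h2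
    rwa [hT.neg_neg _ (reflW_lt hT w0.reverse hwr r hr.1)] at h3
  intro g
  have e : (nWU hS w0)⁻¹ * (nWU hS w0 * g * (nWU hS w0)⁻¹) * ((nWU hS w0)⁻¹)⁻¹ = g := by
    group
  constructor
  · constructor
    · intro hg
      exact ha hg
    · intro hg
      have h1 := hc hg
      rw [Subgroup.mem_comap] at h1
      have h2 : (nWU hS w0)⁻¹ * (nWU hS w0 * g * (nWU hS w0)⁻¹) * ((nWU hS w0)⁻¹)⁻¹ ∈
          D.posUnipotent F := h1
      rwa [e] at h2
  · constructor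
    · intro hg
      exact hb hg
    · intro hg
      have h1 := hd hg
      rw [Subgroup.mem_comap] at h1
      have h2 : (nWU hS w0)⁻¹ * (nWU hS w0 * g * (nWU hS w0)⁻¹) * ((nWU hS w0)⁻¹)⁻¹ ∈
          D.negUnipotent F := h1
      rwa [e] at h2

example : StW0.{u} := w0

end Cfsg.Agent.H18.Stb
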