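import Mathlib

/-!
`S5965-SYM` (helper99's team project): the eigenvalue multiplicities of a matrix conjugate to a
scalar multiple of a matrix over a subfield are symmetric under `ν ↦ l * (l⁻¹ * ν) ^ q₀`.
-/

set_option autoImplicit false

open scoped MatrixGroups

namespace Cfsg.Agent.H18.Sub

variable {F : Type*} [Field F] [Fintype F]

/-- The `q₀`-power map of a finite field, `q₀` the order of a subfield, is a ring hom. -/
theorem exists_frob (F₀ : Subfield F) : ∃ σ : F →+* F, ∀ a, σ a = a ^ Nat.card ↥F₀ := by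
  classical
  obtain ⟨p, hp⟩ := CharP.exists F
  have : Fact p.Prime := ⟨CharP.char_is_prime F p⟩
  let _ : Fintype ↥F₀ := Fintype.ofFinite _
  have : CharP ↥F₀ p := inferInstance
  obtain ⟨e, -, he⟩ := FiniteField.card ↥F₀ p
  refine ⟨iterateFrobenius F p e, fun a => ?_⟩
  rw [iterateFrobenius_def, Nat.card_eq_fintype_card, he]

theorem pow_card_subfield (F₀ : Subfield F) (a : ↥F₀) : (a : F) ^ Nat.card ↥F₀ = a := by
  classical
  let _ : Fintype ↥F₀ := Fintype.ofFinite _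
  have := FiniteField.pow_card a
  rw [← Nat.card_eq_fintype_card] at this
  exact_mod_cast congrArg Subtype.val this

theorem rank_smul_of_ne_zero {K : Type*} [Field K] {n : ℕ} (c : K) (hc : c ≠ 0)
    (M : Matrix (Fin n) (Fin n) K) : (c • M).rank = M.rank := by
  have h1 : c • M = M * (c • (1 : Matrix (Fin n) (Fin n) K)) := by
    rw [Matrix.mul_smul, Matrix.mul_one]
  rw [h1]
  apply Matrix.rank_mul_eq_left_of_isUnit_det
  rw [Matrix.det_smul, Matrix.det_one, mul_one]
  exact (pow_ne_zero _ hc).isUnit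

theorem rank_symm_of_conj_subfield (F₀ : Subfield F) (n : ℕ)
    (hrank : ∀ (f : F →+* F) (M : Matrix (Fin n) (Fin n) F), (M.map f).rank = M.rank)
    (x P : Matrix (Fin n) (Fin n) F) (hP : IsUnit P.det) (Y₀ : Matrix (Fin n) (Fin n) ↥F₀)
    (l : F) (hl : l ≠ 0) (h : x * P = P * (l • Y₀.map F₀.subtype)) (ν : F) :
    (x - ν • (1 : Matrix (Fin n) (Fin n) F)).rank
      = (x - (l * (l⁻¹ * ν) ^ Nat.card ↥F₀) • (1 : Matrix (Fin n) (Fin n) F)).rank := by
  classical
  obtain ⟨Y, hY⟩ : ∃ Y, Y = Y₀.map F₀.subtype := ⟨_, rfl⟩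
  rw [← hY] at h
  have hA : ∀ ν : F, (x - ν • (1 : Matrix (Fin n) (Fin n) F)).rank
      = (Y - (l⁻¹ * ν) • (1 : Matrix (Fin n) (Fin n) F)).rank := by
    intro ν
    have e1 : (x - ν • (1 : Matrix (Fin n) (Fin n) F)) * P
        = P * (l • (Y - (l⁻¹ * ν) • (1 : Matrix (Fin n) (Fin n) F))) := by
      rw [sub_mul, h, smul_sub, smul_smul, mul_inv_cancel_left₀ hl, Matrix.mul_sub,
        Matrix.smul_mul, Matrix.one_mul, Matrix.mul_smul, Matrix.mul_smul, Matrix.mul_one]
    calc (x - ν • (1 : Matrix (Fin n) (Fin n) F)).rank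
        = ((x - ν • (1 : Matrix (Fin n) (Fin n) F)) * P).rank :=
          (Matrix.rank_mul_eq_left_of_isUnit_det P _ hP).symm
      _ = (P * (l • (Y - (l⁻¹ * ν) • (1 : Matrix (Fin n) (Fin n) F)))).rank := by rw [e1]
      _ = (l • (Y - (l⁻¹ * ν) • (1 : Matrix (Fin n) (Fin n) F))).rank :=
          Matrix.rank_mul_eq_right_of_isUnit_det P _ hP
      _ = _ := rank_smul_of_ne_zero l hl _
  obtain ⟨σ, hσ⟩ := exists_frob F₀
  have hmap : (Y - (l⁻¹ * ν) • (1 : Matrix (Fin n) (Fin n) F)).map σ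
      = Y - ((l⁻¹ * ν) ^ Nat.card ↥F₀) • (1 : Matrix (Fin n) (Fin n) F) := by
    ext i j
    rw [Matrix.map_apply, Matrix.sub_apply, Matrix.sub_apply, Matrix.smul_apply,
      Matrix.smul_apply, map_sub, hY, Matrix.map_apply, hσ, Subfield.coe_subtype,
      pow_card_subfield, smul_eq_mul, smul_eq_mul, map_mul, hσ, Matrix.one_apply]
    split_ifs
    · rw [map_one]
    · rw [map_zero]
  rw [hA ν, ← hrank σ, hmap, hA (l * (l⁻¹ * ν) ^ Nat.card ↥F₀), inv_mul_cancel_left₀ hl]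

end Cfsg.Agent.H18.Sub
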