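import Mathlib
import Cfsg.Agent.H42.SpdDefs
import Cfsg.Agent.H99.ElSTR

/-!
`SPD-SUM` (S5961, helper42's team project): the orthogonal sum of two invariant nondegenerate
subspaces.
-/

set_option autoImplicit false

namespace Cfsg.Agent.H18.Spd

open Cfsg.Agent.H45 Cfsg.Agent.H42.Spd Module

universe u v

theorem sum : StSum.{u, v} := by
  intro F _ _ V _ _ _ B T hd U U' hU hU' hperp
  obtain ⟨hUinv, hUnd⟩ := hU
  obtain ⟨hU'inv, hU'nd⟩ := hU'
  have hdisj : U ⊓ U' = ⊥ := by
    apply le_antisymm _ bot_le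
    rw [← hUnd]
    exact inf_le_inf_left U hperp
  have hperp' : U ≤ perp B U' := by
    intro u hu u' hu'
    exact hd.refl (hperp hu' u hu)
  have hTU : ∀ u ∈ U, T u ∈ U := fun u hu => (Module.End.mem_invtSubmodule _).mp hUinv hu
  have hTU' : ∀ u ∈ U', T u ∈ U' := fun u hu => (Module.End.mem_invtSubmodule _).mp hU'inv hu
  refine ⟨⟨?_, ?_⟩, ?_, ?_⟩
  · rw [Module.End.mem_invtSubmodule] at hUinv hU'inv ⊢
    apply sup_le
    · exact hUinv.trans (Submodule.comap_mono le_sup_left)
    · exact hU'inv.trans (Submodule.comap_mono le_sup_right)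
  · apply le_antisymm _ bot_le
    rintro v ⟨hv, hvp⟩
    obtain ⟨u, hu, u', hu', rfl⟩ := Submodule.mem_sup.mp hv
    have h1 : u ∈ U ⊓ perp B U := by
      refine ⟨hu, fun w hw => ?_⟩
      have h2 := hvp w (Submodule.mem_sup_left hw)
      rw [map_add, hperp hu' w hw, add_zero] at h2
      exact h2
    have h2 : u' ∈ U' ⊓ perp B U' := by
      refine ⟨hu', fun w hw => ?_⟩
      have h3 := hvp w (Submodule.mem_sup_right hw)
      rw [map_add, hperp' hu w hw, zero_add] at h3
      exact h3
    rw [hUnd, Submodule.mem_bot] at h1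
    rw [hU'nd, Submodule.mem_bot] at h2
    rw [Submodule.mem_bot, h1, h2, add_zero]
  · have h := Submodule.finrank_sup_add_finrank_inf_eq U U'
    rw [hdisj, finrank_bot, add_zero] at h
    exact h
  · unfold kk
    have hsplit : (U ⊔ U') ⊓ LinearMap.ker (T - 1)
        = (U ⊓ LinearMap.ker (T - 1)) ⊔ (U' ⊓ LinearMap.ker (T - 1)) := by
      apply le_antisymm
      · rintro v ⟨hv, hvK⟩
        obtain ⟨u, hu, u', hu', rfl⟩ := Submodule.mem_sup.mp hv
        have hvK' : T (u + u') = u + u' := (Cfsg.Agent.H99.El.mem_ker_sub_one T _).mp hvK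
        rw [map_add] at hvK'
        have h1 : T u - u = -(T u' - u') := by
          have : T u - u + (T u' - u') = 0 := by
            calc T u - u + (T u' - u') = (T u + T u') - (u + u') := by abel
              _ = 0 := by rw [hvK', sub_self]
          exact eq_neg_of_add_eq_zero_left this
        have h2 : T u - u ∈ U ⊓ U' :=
          ⟨U.sub_mem (hTU u hu) hu, by rw [h1]; exact U'.neg_mem (U'.sub_mem (hTU' u' hu') hu')⟩
        rw [hdisj, Submodule.mem_bot, sub_eq_zero] at h2
        have h3 : T u' = u' := by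
          rw [h2] at hvK'
          exact add_left_cancel hvK'
        exact Submodule.add_mem_sup ⟨hu, (Cfsg.Agent.H99.El.mem_ker_sub_one T u).mpr h2⟩
          ⟨hu', (Cfsg.Agent.H99.El.mem_ker_sub_one T u').mpr h3⟩
      · exact sup_le (inf_le_inf_right _ le_sup_left) (inf_le_inf_right _ le_sup_right)
    rw [hsplit]
    have h := Submodule.finrank_sup_add_finrank_inf_eq (U ⊓ LinearMap.ker (T - 1))
      (U' ⊓ LinearMap.ker (T - 1))
    have hd2 : (U ⊓ LinearMap.ker (T - 1)) ⊓ (U' ⊓ LinearMap.ker (T - 1)) = ⊥ := by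
      apply le_antisymm _ bot_le
      rw [← hdisj]
      exact inf_le_inf inf_le_left inf_le_left
    rw [hd2, finrank_bot, add_zero] at h
    exact h

example : Cfsg.Agent.H42.Spd.StSum.{u, v} := sum

end Cfsg.Agent.H18.Spd
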