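import Cfsg.Agent.H59.JzKillDefs
import Cfsg.Agent.S2950
import Cfsg.Agent.S2948
import Cfsg.Agent.H51.SyAsm
import Cfsg.Agent.H63.SnIfV

/-!
# K-Z (sub-piece of JZ-KILL, S2951 / S2952; helper59's sub-project of helper64's JZ)

In the residual situation there is an involution `z` of `V = Ω₁Z(O₂(L))` inside `O₂(L')`:
any involution of `Ω₁Z(S)`.
-/

set_option autoImplicit false
open Cfsg

namespace Cfsg.Agent.H18.Jk

open Cfsg.Agent.H64.Jz Cfsg.Agent.H59.JzK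

universe u

/-- A nontrivial finite 2-subgroup has an involution in `Ω₁Z(·)`. -/
theorem exists_mem_omegaCenterOf_ne_one {G : Type u} [Group G] [Finite G] {S : Subgroup G}
    (hS : IsPGroup 2 ↥S) (hS1 : S ≠ ⊥) : ∃ z ∈ omegaCenterOf S, z ≠ 1 := by
  have : Fact (Nat.Prime 2) := ⟨Nat.prime_two⟩
  have : Nontrivial ↥S := (Subgroup.nontrivial_iff_ne_bot S).mpr hS1
  have : Nontrivial ↥(Subgroup.center ↥S) := hS.center_nontrivial
  have hc : IsPGroup 2 ↥(Subgroup.center ↥S) := hS.to_subgroup _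
  obtain ⟨n, hn⟩ := IsPGroup.iff_card.mp hc
  have h1 : 1 < Nat.card ↥(Subgroup.center ↥S) := Finite.one_lt_card
  have hn0 : n ≠ 0 := by
    rintro rfl
    rw [pow_zero] at hn
    omega
  have hdvd : 2 ∣ Nat.card ↥(Subgroup.center ↥S) := by
    rw [hn]
    exact dvd_pow_self 2 hn0
  obtain ⟨c, hc2⟩ := exists_prime_orderOf_dvd_card' 2 hdvd
  refine ⟨(((c : ↥S)) : G), ?_, ?_⟩
  · unfold omegaCenterOf omegaOne
    apply Subgroup.subset_closure
    refine ⟨Subgroup.mem_inf.mpr ⟨(c : ↥S).2, ?_⟩, ?_⟩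
    · rw [Subgroup.mem_centralizer_iff]
      intro h hh
      have h3 := Subgroup.mem_center_iff.mp c.2 ⟨h, hh⟩
      exact congrArg Subtype.val h3
    · have h3 : c ^ 2 = 1 := by
        rw [← hc2]
        exact pow_orderOf_eq_one c
      have h4 : ((c : ↥S) : G) ^ 2 = 1 := by
        have h5 := congrArg (fun z : ↥(Subgroup.center ↥S) => (((z : ↥S)) : G)) h3
        simpa using h5
      exact h4
  · intro h
    have hc1 : c = 1 := by
      apply Subtype.ext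
      apply Subtype.ext
      simpa using h
    rw [hc1, orderOf_one] at hc2
    omega

theorem kZ : Cfsg.Agent.H59.JzK.StKZ.{u} := by
  intro G _ _ S M K L T' K' L' hR
  obtain ⟨hB, -, hB', -⟩ := hR
  obtain ⟨hZN, hO, hM, hMJ, hT, -, hK, hLmax, hKL⟩ := hB
  obtain ⟨-, -, hM', hMJ', hT', hT'S, hK', hL'max, hK'L'⟩ := hB'
  obtain ⟨hL, hN, hZ⟩ := hZN
  -- `S` is a Sylow 2-subgroup of `L`
  obtain ⟨L₀, -, -, huniq, -, hSyl⟩ :=
    Cfsg.Agent.S2950.result hL hN hZ hO S M hM hMJ (S : Subgroup G) hT K hK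
  have hLL₀ : L = L₀ := huniq L hLmax hKL
  rw [← hLL₀] at hSyl
  -- `T'` is a Sylow 2-subgroup of `L'`
  obtain ⟨L₁, -, -, huniq₁, -, hSyl₁⟩ :=
    Cfsg.Agent.S2950.result hL hN hZ hO S L hM' hMJ' T' hT' K' hK'
  have hLL₁ : L' = L₁ := huniq₁ L' hL'max hK'L'
  rw [← hLL₁] at hSyl₁
  -- both are members of the families
  have hLM : ¬ L ≤ M := fun h => hK.2.1 ((le_sup_left.trans hKL).trans h)
  have hL'L : ¬ L' ≤ L := fun h => hK'.2.1 ((le_sup_left.trans hK'L').trans h)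
  have hov : L ∈ jOvergroups (S : Subgroup G) :=
    (Cfsg.Agent.S2948.result hL hN hZ hO S M hM hMJ (S : Subgroup G) hT L hLmax.1 hLM
      (S : Subgroup G) hSyl (Cfsg.Agent.Helper55.ThJ.J_le _)).2.2.1
  have hov' : L' ∈ jOvergroups T' :=
    (Cfsg.Agent.S2948.result hL hN hZ hO S L hM' hMJ' T' hT' L' hL'max.1 hL'L
      T' hSyl₁ (Cfsg.Agent.Helper55.ThJ.J_le _)).2.2.1
  have hQS : pCoreOf 2 L ≤ (S : Subgroup G) := Cfsg.Agent.H51.Sy.sy_pCoreOf_le hSyl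
  have hQT' : pCoreOf 2 L' ≤ T' := Cfsg.Agent.H51.Sy.sy_pCoreOf_le hSyl₁
  -- an involution of `Ω₁Z(S)`
  have hSne : (S : Subgroup G) ≠ ⊥ := hT.1.2.1
  obtain ⟨z, hz, hz1⟩ := exists_mem_omegaCenterOf_ne_one S.isPGroup' hSne
  obtain ⟨-, hzC, hz2⟩ := Cfsg.Agent.H63.Sn.mem_omegaCenterOf (S : Subgroup G) hz
  have hzCQ : z ∈ Subgroup.centralizer (pCoreOf 2 L : Set G) :=
    Subgroup.centralizer_le (by exact_mod_cast hQS) hzC
  have hzQ : z ∈ pCoreOf 2 L := hov.2.2 hzCQ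
  have hzV : z ∈ Vof L := Cfsg.Agent.H63.Sn.omegaCenterOf_mem (pCoreOf 2 L) hzQ hzCQ hz2
  have hzCQ' : z ∈ Subgroup.centralizer (pCoreOf 2 L' : Set G) :=
    Subgroup.centralizer_le (by exact_mod_cast hQT'.trans hT'S) hzC
  have hzQ' : z ∈ pCoreOf 2 L' := hov'.2.2 hzCQ'
  exact ⟨z, hzV, hz1, hzQ'⟩

example : Cfsg.Agent.H59.JzK.StKZ.{u} := kZ

end Cfsg.Agent.H18.Jk
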