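import Mathlib
import Cfsg.Agent.H83.AbIdxDefs

/-!
# S4463-ARITH (helper18, for helper83): the three factorial inequalities
-/

set_option autoImplicit false

namespace Cfsg.Agent.H18.AbIdx

open Cfsg Cfsg.Agent.H83.AbIdx

/-- `b ^ 2 * (b / 2)! ≤ b!` for `b ≥ 5`. -/
theorem sq_mul_half_factorial_le (b : ℕ) (hb : 5 ≤ b) :
    b ^ 2 * (b / 2).factorial ≤ b.factorial := by
  obtain ⟨c, rfl⟩ : ∃ c, b = c + 3 := ⟨b - 3, by omega⟩
  have h1 : ((c + 3) / 2).factorial ≤ c.factorial := Nat.factorial_le (by omega)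
  have h2 : (c + 3).factorial = (c + 3) * ((c + 2) * ((c + 1) * c.factorial)) := by
    rw [Nat.factorial_succ, Nat.factorial_succ, Nat.factorial_succ]
  have h3 : c + 3 ≤ (c + 2) * (c + 1) := by nlinarith
  rw [h2]
  calc (c + 3) ^ 2 * ((c + 3) / 2).factorial
      ≤ (c + 3) ^ 2 * c.factorial := Nat.mul_le_mul_left _ h1
    _ = (c + 3) * ((c + 3) * c.factorial) := by ring
    _ ≤ (c + 3) * (((c + 2) * (c + 1)) * c.factorial) :=
        Nat.mul_le_mul_left _ (Nat.mul_le_mul_right _ h3)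
    _ = (c + 3) * ((c + 2) * ((c + 1) * c.factorial)) := by ring

/-- `b ^ 4 * ((b / 2)!) ^ 2 ≤ (b!) ^ 2` for `b ≥ 5`. -/
theorem pow_four_mul_half_factorial_sq_le (b : ℕ) (hb : 5 ≤ b) :
    b ^ 4 * (b / 2).factorial ^ 2 ≤ b.factorial ^ 2 := by
  have h := Nat.pow_le_pow_left (sq_mul_half_factorial_le b hb) 2
  calc b ^ 4 * (b / 2).factorial ^ 2 = (b ^ 2 * (b / 2).factorial) ^ 2 := by ring
    _ ≤ b.factorial ^ 2 := h

/-- S4463-ARITH. -/
theorem arith : StmtArith := by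
  refine ⟨?_, ?_, pow_four_mul_half_factorial_sq_le⟩
  · intro b hb
    obtain ⟨c, rfl⟩ : ∃ c, b = c + 1 := ⟨b - 1, by omega⟩
    rw [Nat.add_sub_cancel, Nat.factorial_succ]
    exact le_of_eq (by ring)
  · intro b hb
    rcases Nat.lt_or_ge b 5 with h5 | h5
    · interval_cases b
      · decide
      · decide
    · refine le_trans ?_ (pow_four_mul_half_factorial_sq_le b h5)
      exact Nat.mul_le_mul_right _ (Nat.pow_le_pow_right (by omega) (by norm_num))

example : StmtArith := arith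

end Cfsg.Agent.H18.AbIdx
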