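import Mathlib
import Cfsg.Agent.H83.AbIdxDefs
import Cfsg.Agent.H83.DegGraphB
import Cfsg.Agent.H83.PowDeg

/-!
# S4463-HALF (helper18, for helper83): if `G / K` is nonabelian then `2 b(K) ≤ b(G)`
-/

set_option autoImplicit false
set_option linter.style.haveILetI false

namespace Cfsg.Agent.H18.AbIdx

open Cfsg Cfsg.Agent.H83.AbIdx Cfsg.Agent.H4 Cfsg.Agent.Clifford

universe u

/-- S4463-HALF. -/
theorem half : StmtHalf.{u} := by
  intro G _ _ K _ hK θ
  classical
  letI : Fintype G := Fintype.ofFinite G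
  letI : Fintype K := Fintype.ofFinite K
  obtain ⟨χ, hχ, h1⟩ := Cfsg.Agent.ItoConv.exists_irr_over K θ.2
  obtain ⟨f, hf⟩ := classInner_isCharacter_nat
    (χ := fun n : K => χ n) (ψ := θ.1)
    (isCharacter_comp K.subtype (isCharacter_of_isIrrCharacter hχ))
    (isCharacter_of_isIrrCharacter θ.2)
  have hf0 : f ≠ 0 := by
    rintro rfl
    exact h1 (by rw [hf]; simp)
  have hdeg := Cfsg.Agent.H83.degree_over_mult K θ ⟨χ, hχ⟩ f hf hf0
  have hθpos := Cfsg.Agent.H82.charDegree_pos θ
  have hχpos := Cfsg.Agent.H82.charDegree_pos (⟨χ, hχ⟩ : IrrCharacter G)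
  simp only at hdeg hχpos
  by_cases h2 : 2 ≤ (Clifford.inertia K θ.1).index * f
  · refine ⟨⟨χ, hχ⟩, ?_⟩
    show 2 * charDegree θ.1 ≤ charDegree χ
    rw [hdeg]
    exact Nat.mul_le_mul_right _ h2
  · have hidx0 : (Clifford.inertia K θ.1).index ≠ 0 := Subgroup.index_ne_zero_of_finite
    have hidx1 : (Clifford.inertia K θ.1).index = 1 := by
      rcases Nat.lt_or_ge ((Clifford.inertia K θ.1).index) 2 with h | h
      · omega
      · exfalso
        apply h2
        calc 2 ≤ (Clifford.inertia K θ.1).index := h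
          _ = (Clifford.inertia K θ.1).index * 1 := (mul_one _).symm
          _ ≤ (Clifford.inertia K θ.1).index * f := Nat.mul_le_mul_left _ (by omega)
    have hf1 : f = 1 := by
      rw [hidx1, one_mul] at h2
      omega
    have htop : Clifford.inertia K θ.1 = ⊤ := Subgroup.index_eq_one.mp hidx1
    have hres : (fun k : K => χ k) = θ.1 := by
      funext n
      have h := Cfsg.Agent.H4.res_eq_of_inertia_top K hχ θ.2 h1 htop n
      rw [hf, hf1] at h
      simpa using h
    have hχθ : charDegree χ = charDegree θ.1 := by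
      rw [hdeg, hidx1, hf1, one_mul, one_mul]
    obtain ⟨β, hβ1, hβK⟩ := Cfsg.Agent.H16.exists_nonlinear_of_not_le K hK
    have hirr : IsIrrCharacter G (β.1 * χ) :=
      Cfsg.Agent.H83.mul_irr_of_res_irr K ⟨χ, hχ⟩ β (by rw [hres]; exact θ.2)
        (fun k hk => (Cfsg.Agent.H82.mem_irrKer β k).1 (hβK hk))
    refine ⟨⟨β.1 * χ, hirr⟩, ?_⟩
    have hβpos := Cfsg.Agent.H82.charDegree_pos β
    have e1 := Cfsg.Agent.H82.irr_one_eq_charDegree (⟨β.1 * χ, hirr⟩ : IrrCharacter G)
    have e2 := Cfsg.Agent.H82.irr_one_eq_charDegree β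
    have e3 := Cfsg.Agent.H82.irr_one_eq_charDegree (⟨χ, hχ⟩ : IrrCharacter G)
    simp only [Pi.mul_apply] at e1 e3
    rw [e2, e3] at e1
    have e4 : charDegree (β.1 * χ) = charDegree β.1 * charDegree χ := by
      exact_mod_cast e1.symm
    show 2 * charDegree θ.1 ≤ charDegree (β.1 * χ)
    rw [e4, hχθ]
    exact Nat.mul_le_mul_right _ (by omega)

example : StmtHalf.{u} := half

end Cfsg.Agent.H18.AbIdx
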