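import Mathlib
import Cfsg.Agent.H47.BG1312Defs
import Cfsg.Agent.Lib.Helper30.BG134Defs
import Cfsg.Agent.H92.BG123
import Cfsg.Agent.H70.BG10D
import Cfsg.Agent.H38.BG10C
import Cfsg.Agent.H32.BG134AB
import Cfsg.Agent.H76.BG10x

set_option autoImplicit false

/-!
# BG1312-ALPHA (piece of B&G Lemma 13.12, for helper47), helper18

In a `Side M N P Q p q`: `M_α ≠ 1` and `α(M) ⊆ β(M)`.  Part (b) is helper32's `BG134.aB`
(H32/BG134AB.lean) with `L := M`, `M := N`, `S := Q`, where `Q ≤ M'` comes from `StComm`.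
-/

namespace Cfsg.Agent.H18.BG1312

open Cfsg Subgroup Cfsg.Agent.H58.BG10 Cfsg.Agent.H47.BG12 Cfsg.Agent.Lib.Helper30.BG134
  Cfsg.Agent.H47.BG1312
open scoped Pointwise commutatorElement

universe u

variable {G : Type u} [Group G]

/-- `⁅M, M⁆` is normalized by `M`. -/
theorem conj_mem_comm {M : Subgroup G} {m y : G} (hm : m ∈ M) (hy : y ∈ ⁅M, M⁆) :
    m * y * m⁻¹ ∈ ⁅M, M⁆ := by
  rw [← Subgroup.map_subtype_commutator] at hy ⊢
  obtain ⟨y', hy', rfl⟩ := hy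
  refine ⟨⟨m, hm⟩ * y' * ⟨m, hm⟩⁻¹, ?_, rfl⟩
  exact (inferInstance : (commutator ↥M).Normal).conj_mem y' hy' ⟨m, hm⟩

/-- An element whose order is coprime to the index of a normal subgroup lies in it. -/
theorem mem_normal_of_coprime {X : Type*} [Group X] [Finite X] (N : Subgroup X) [N.Normal]
    {x : X} (hcop : (N.index).Coprime (orderOf x)) : x ∈ N := by
  have h1 : x ^ N.index ∈ N := Subgroup.pow_index_mem N x
  obtain ⟨m, hm⟩ := exists_pow_eq_self_of_coprime hcop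
  rw [← hm]
  exact N.pow_mem h1 m

/-- Part (a): `M_α ≠ 1`. -/
theorem alphaCore_ne_bot [Finite G] (h05 : St1405 G) (hComm : StComm G)
    {M N P Q : Subgroup G} {p q : ℕ} (hS : Side M N P Q p q) : alphaCore M ≠ ⊥ := by
  intro hbot
  have hM := hS.hM
  have hq := hS.hq
  have : Fact q.Prime := ⟨hq⟩
  obtain ⟨D, hD⟩ : ∃ D : Subgroup G, D = ⁅M, M⁆ := ⟨_, rfl⟩
  have hDM : D ≤ M := by rw [hD]; exact Subgroup.commutator_le_self M
  have hQD : Q ≤ D := by rw [hD]; exact hComm M N P Q p q hS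
  -- `D` is nilpotent
  set Ka : Subgroup ↥M := piCore (alpha M) ↥M with hKa
  have : Group.IsNilpotent ↥((commutator ↥M).map (QuotientGroup.mk' Ka)) :=
    (h05 M hM).2.2.2.2
  let ψ₀ : ↥D →* ↥M ⧸ Ka := (QuotientGroup.mk' Ka).comp (Subgroup.inclusion hDM)
  have hmem : ∀ x : ↥D, ψ₀ x ∈ (commutator ↥M).map (QuotientGroup.mk' Ka) := by
    intro x
    have h1 : (x : G) ∈ ⁅M, M⁆ := by rw [← hD]; exact x.2
    rw [← Subgroup.map_subtype_commutator] at h1
    obtain ⟨y, hy, hyx⟩ := h1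
    have h2 : Subgroup.inclusion hDM x = y := Subtype.ext hyx.symm
    exact ⟨y, hy, by rw [← h2]; rfl⟩
  have hinj : Function.Injective (ψ₀.codRestrict _ hmem) := by
    rw [injective_iff_map_eq_one]
    intro a ha
    have h0 : ψ₀ a = 1 := congrArg Subtype.val ha
    have h1 : Subgroup.inclusion hDM a ∈ Ka := (QuotientGroup.eq_one_iff _).mp h0
    have h2 : (a : G) ∈ alphaCore M := ⟨_, h1, rfl⟩
    rw [hbot] at h2
    exact Subtype.ext (Subgroup.mem_bot.mp h2)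
  have hnil : Group.IsNilpotent ↥D := Cfsg.Agent.H76.BG10.isNilpotent_of_injective _ hinj
  -- `Q` is a normal Sylow `q`-subgroup of `D`
  have hQDq : IsPGroup q ↥(Q.subgroupOf D) := hS.hQq.comap_subtype
  have hidx : ¬ q ∣ (Q.subgroupOf D).index := by
    intro h
    exact hS.hQS (h.trans (Dvd.intro _ (Subgroup.relIndex_mul_relIndex Q D M hQD hDM)))
  have hQn : (Q.subgroupOf D).Normal := by
    have h := (Group.isNilpotent_of_finite_tfae (G := ↥D)).out 0 3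
    exact h.mp hnil q inferInstance (hQDq.toSylow hidx)
  -- `M` normalizes `Q`
  have hconj : ∀ m ∈ M, ∀ g ∈ Q, m * g * m⁻¹ ∈ Q := by
    intro m hm g hg
    have hgD : m * g * m⁻¹ ∈ D := by
      rw [hD]; exact conj_mem_comm hm (by rw [← hD]; exact hQD hg)
    have hcop : ((Q.subgroupOf D).index).Coprime (orderOf (⟨m * g * m⁻¹, hgD⟩ : ↥D)) := by
      obtain ⟨a, ha⟩ := hS.hQq ⟨g, hg⟩
      have ha' : g ^ q ^ a = 1 := by simpa using congrArg Subtype.val ha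
      have h1 : (⟨m * g * m⁻¹, hgD⟩ : ↥D) ^ q ^ a = 1 := by
        apply Subtype.ext
        simp only [Subgroup.coe_pow, Subgroup.coe_one]
        rw [conj_pow, ha']
        group
      have h2 : orderOf (⟨m * g * m⁻¹, hgD⟩ : ↥D) ∣ q ^ a := orderOf_dvd_of_pow_eq_one h1
      exact Nat.Coprime.coprime_dvd_right h2
        (Nat.Coprime.pow_right a ((Nat.Prime.coprime_iff_not_dvd hq).mpr hidx).symm)
    have h3 := mem_normal_of_coprime (Q.subgroupOf D) hcop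
    exact Subgroup.mem_subgroupOf.mp h3
  have hMN : M ≤ N := by
    intro m hm
    apply hS.hNQ
    rw [mem_normalizer_iff]
    intro g
    constructor
    · exact hconj m hm g
    · intro hg
      have h4 := hconj m⁻¹ (M.inv_mem hm) _ hg
      have e : m⁻¹ * (m * g * m⁻¹) * m⁻¹⁻¹ = g := by group
      rwa [e] at h4
  have hNM : N = M := by
    rcases hM.le_iff.mp hMN with h | h
    · exact absurd h hS.hN.1
    · exact h
  have h5 := hS.hnc 1
  rw [map_one, one_smul] at h5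
  exact h5 hNM

/-- Part (b): `α(M) ⊆ β(M)` (helper32's `aB` with `Q ≤ M'` in place of `q ∈ σ(L)`). -/
theorem alpha_subset_beta [Finite G] (hG : IsMinSimpleOddOrder G) (h05 : St1405 G)
    (h06 : St1406 G) (h14 : St1414 G) (hComm : StComm G)
    {M N P Q : Subgroup G} {p q : ℕ} (hSd : Side M N P Q p q) (hqα : q ∉ alpha M) :
    ∀ s : ℕ, s ∈ alpha M → s ∈ beta M := by
  intro s hsα
  by_contra hsβ
  have hL := hSd.hM
  have hM := hSd.hN
  have hSq := hSd.hQq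
  have hSL := hSd.hQM
  have hNS := hSd.hNQ
  have hq := hSd.hq
  have hLM : M ≠ N := by
    intro h
    have h5 := hSd.hnc 1
    rw [map_one, one_smul] at h5
    exact h5 h.symm
  obtain ⟨hs, hsrank⟩ := id hsα
  have : Fact s.Prime := ⟨hs⟩
  have : Fact q.Prime := ⟨hq⟩
  have hqs : q ≠ s := fun h => hqα (h ▸ hsα)
  -- `s ∣ |M|`
  have hsL : s ∣ Nat.card M := by
    by_contra h
    exact hsrank (Cfsg.Agent.H38.BG10C.pRankLE_of_not_dvd hs h)
  -- the normal `s`-complement of `M'`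
  obtain ⟨⟨PP, NN, hNn, hNP⟩, -, -⟩ := (h14 M hL).2.2.2.2 s hs hsL hsβ
  have hcardNP : Nat.card NN * Nat.card (PP : Subgroup ↥⁅M, M⁆) = Nat.card ↥⁅M, M⁆ :=
    hNP.card_mul_card
  obtain ⟨k, hk⟩ := IsPGroup.iff_card.mp PP.isPGroup'
  have hNidx : NN.index = s ^ k := by
    have h1 : Nat.card NN * NN.index = Nat.card ↥⁅M, M⁆ := NN.card_mul_index
    have h2 : Nat.card NN * NN.index = Nat.card NN * s ^ k := by rw [h1, ← hcardNP, hk]
    exact Nat.eq_of_mul_eq_mul_left Nat.card_pos h2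
  have hsN : ¬ s ∣ Nat.card NN := by
    intro h
    obtain ⟨x, hx⟩ := exists_prime_orderOf_dvd_card' s h
    have hxP : ∃ g : ↥⁅M, M⁆, g⁻¹ * (x : ↥⁅M, M⁆) * g ∈ (PP : Subgroup ↥⁅M, M⁆) := by
      have hxp : IsPGroup s (zpowers (x : ↥⁅M, M⁆)) := by
        apply IsPGroup.of_card (n := 1)
        rw [Nat.card_zpowers, Subgroup.orderOf_coe, hx, pow_one]
      obtain ⟨Q', hQ'⟩ := hxp.exists_le_sylow
      obtain ⟨g, hg⟩ := MulAction.exists_smul_eq ↥⁅M, M⁆ PP Q'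
      refine ⟨g, ?_⟩
      have h1 : (x : ↥⁅M, M⁆) ∈ (Q' : Subgroup ↥⁅M, M⁆) := hQ' (mem_zpowers _)
      rw [← hg, Sylow.coe_subgroup_smul, Subgroup.mem_pointwise_smul_iff_inv_smul_mem,
        MulAut.smul_def, ← map_inv, MulAut.conj_apply, inv_inv] at h1
      exact h1
    obtain ⟨g, hg⟩ := hxP
    have hgN : g⁻¹ * (x : ↥⁅M, M⁆) * g ∈ NN := by
      have := hNn.conj_mem (x : ↥⁅M, M⁆) x.2 g⁻¹
      simpa using this
    have h1 : g⁻¹ * (x : ↥⁅M, M⁆) * g ∈ NN ⊓ (PP : Subgroup ↥⁅M, M⁆) := ⟨hgN, hg⟩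
    rw [hNP.disjoint.eq_bot, Subgroup.mem_bot] at h1
    have h2 : (x : ↥⁅M, M⁆) = 1 := by
      have : (x : ↥⁅M, M⁆) = g * (g⁻¹ * (x : ↥⁅M, M⁆) * g) * g⁻¹ := by group
      rw [this, h1]; group
    have h3 : orderOf (x : ↥⁅M, M⁆) = 1 := by rw [h2, orderOf_one]
    rw [Subgroup.orderOf_coe, hx] at h3
    exact hs.one_lt.ne' h3
  -- `Q ≤ M'`
  have hSL' : Q ≤ ⁅M, M⁆ := hComm M N P Q p q hSd
  -- every `q`-element of `M'` lies in `NN`
  have hqN : ∀ (y : G) (hy : y ∈ ⁅M, M⁆), (∃ a : ℕ, y ^ q ^ a = 1) →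
      (⟨y, hy⟩ : ↥⁅M, M⁆) ∈ NN := by
    intro y hy hya
    apply Cfsg.Agent.H32.BG134.mem_normal_of_index_pow NN hq hs hqs hNidx
    obtain ⟨a, ha⟩ := hya
    refine ⟨a, ?_⟩
    apply Subtype.ext
    simpa using ha
  -- an `Q`-invariant Sylow `s`-subgroup of `M_α`
  have hαL : alphaCore M ≤ M := (h05 M hL).1.1
  have hSα : Q ≤ normalizer (alphaCore M : Set G) :=
    hSL.trans (Cfsg.Agent.Lib.Helper30.le_normalizer_piCoreOf (alpha M) M)
  have hqα' : ¬ q ∣ Nat.card (alphaCore M) := fun h => hqα ((h05 M hL).1.2.1 q hq h)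
  have hcop : (Nat.card Q).Coprime (Nat.card (alphaCore M)) :=
    Cfsg.Agent.H31.BG8.coprime_of_isPGroup hSq hqα'
  have hLtop : M ≠ ⊤ := hL.1
  have hSsolv : Group.IsSolvable Q := by
    have hStop : Q ≠ ⊤ := fun h => hLtop (top_le_iff.mp (h ▸ hSL))
    exact Cfsg.Agent.Lib.Helper30.minSimple_solvable_of_ne_top hG hStop
  obtain ⟨PT, hPT⟩ := Cfsg.Agent.Lib.Helper30.coprime_exists_invariant_sylow Q (alphaCore M) hSα
    hcop (Or.inl hSsolv) s
  obtain ⟨T, hTdef⟩ : ∃ T : Subgroup G, T = (PT : Subgroup ↥(alphaCore M)).map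
    (alphaCore M).subtype := ⟨_, rfl⟩
  rw [← hTdef] at hPT
  have hTα : T ≤ alphaCore M := by rw [hTdef]; exact Subgroup.map_subtype_le _
  have hTM : T ≤ M := hTα.trans hαL
  have hTs : IsPGroup s T := by rw [hTdef]; exact PT.isPGroup'.map _
  -- `Q` centralizes `T`
  have hTS : T ≤ centralizer (Q : Set G) := by
    intro t ht
    rw [mem_centralizer_iff]
    intro x hx
    have hxT : x * t * x⁻¹ ∈ T := (mem_normalizer_iff.mp (hPT hx) t).mp ht
    have h1 : x * t * x⁻¹ * t⁻¹ ∈ T := T.mul_mem hxT (T.inv_mem ht)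
    -- `t x⁻¹ t⁻¹` is a `q`-element of `M'`
    have hc1 : t * x⁻¹ * t⁻¹ ∈ ⁅M, M⁆ := conj_mem_comm (hTM ht) (Subgroup.inv_mem _ (hSL' hx))
    have hc2 : (⟨t * x⁻¹ * t⁻¹, hc1⟩ : ↥⁅M, M⁆) ∈ NN := by
      apply hqN
      obtain ⟨a, ha⟩ := hSq ⟨x, hx⟩
      have ha' : x ^ q ^ a = 1 := by simpa using congrArg Subtype.val ha
      refine ⟨a, ?_⟩
      rw [conj_pow, inv_pow, ha']
      group
    have hxN : (⟨x, hSL' hx⟩ : ↥⁅M, M⁆) ∈ NN := hqN x (hSL' hx) (by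
      obtain ⟨a, ha⟩ := hSq ⟨x, hx⟩
      exact ⟨a, by simpa using congrArg Subtype.val ha⟩)
    have hmem : x * t * x⁻¹ * t⁻¹ ∈ ⁅M, M⁆ := by
      have e : x * t * x⁻¹ * t⁻¹ = x * (t * x⁻¹ * t⁻¹) := by group
      rw [e]
      exact Subgroup.mul_mem _ (hSL' hx) hc1
    have h2 : (⟨x * t * x⁻¹ * t⁻¹, hmem⟩ : ↥⁅M, M⁆) ∈ NN := by
      have := NN.mul_mem hxN hc2
      have e : (⟨x * t * x⁻¹ * t⁻¹, hmem⟩ : ↥⁅M, M⁆) =
          ⟨x, hSL' hx⟩ * ⟨t * x⁻¹ * t⁻¹, hc1⟩ := by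
        apply Subtype.ext
        simp [mul_assoc]
      rw [e]; exact this
    -- an element of `T ∩ NN` is trivial
    have h3 : x * t * x⁻¹ * t⁻¹ = 1 := by
      obtain ⟨a, ha⟩ := hTs ⟨_, h1⟩
      have ha' : (x * t * x⁻¹ * t⁻¹) ^ s ^ a = 1 := by simpa using congrArg Subtype.val ha
      have hord : orderOf (⟨x * t * x⁻¹ * t⁻¹, hmem⟩ : ↥⁅M, M⁆) ∣ s ^ a := by
        apply orderOf_dvd_of_pow_eq_one
        apply Subtype.ext
        simpa using ha'
      have hord2 : orderOf (⟨x * t * x⁻¹ * t⁻¹, hmem⟩ : ↥⁅M, M⁆) ∣ Nat.card NN := by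
        have := orderOf_dvd_natCard (⟨_, h2⟩ : NN)
        rwa [Subgroup.orderOf_mk] at this
      have hcop' : (s ^ a).Coprime (Nat.card NN) :=
        Nat.Coprime.pow_left a ((Nat.Prime.coprime_iff_not_dvd hs).mpr hsN)
      have h4 : orderOf (⟨x * t * x⁻¹ * t⁻¹, hmem⟩ : ↥⁅M, M⁆) = 1 :=
        Nat.eq_one_of_dvd_coprimes hcop' hord hord2
      have h5 := orderOf_eq_one_iff.mp h4
      simpa using congrArg Subtype.val h5
    have h6 : x * t = t * x := by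
      have : x * t = (x * t * x⁻¹ * t⁻¹) * (t * x) := by group
      rw [this, h3, one_mul]
    exact h6
  -- rank
  have hidx : ¬ s ∣ (alphaCore M).relIndex M := (h05 M hL).1.2.2 s hs hsα
  have hTrank : ¬ PRankLE s 2 ↥T := by
    rw [hTdef]
    exact Cfsg.Agent.H70.BG10.not_pRankLE_sylow_of_hall hαL hidx PT 2 hsrank
  obtain ⟨B, hBT, hBc, hBp, hBcard⟩ := Cfsg.Agent.H31.T2.exists_elementary_of_not_pRankLE hTrank
  have hBe : IsElementaryAbelian s B := ⟨⟨⟨fun a b => Subtype.ext (hBc a a.2 b b.2)⟩⟩, hBp⟩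
  have hBle : B ≤ alphaCore M ⊓ centralizer (Q : Set G) := hBT.trans (le_inf hTα hTS)
  have hcard1 : s ^ 1 < Nat.card B :=
    lt_of_le_of_lt (Nat.pow_le_pow_right hs.pos (by norm_num)) hBcard
  have hr1 : ¬ RankLE 1 ↥(alphaCore M ⊓ centralizer (Q : Set G)) :=
    not_rankLE_of_not_pRankLE hs (Cfsg.Agent.H31.BG8.not_pRankLE_of_le hBle hBe hcard1)
  have hSα' : ∀ p' : ℕ, p'.Prime → p' ∣ Nat.card Q → p' ∉ alpha M := by
    intro p' hp' hpS
    obtain ⟨n, hn⟩ := IsPGroup.iff_card.mp hSq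
    rw [hn] at hpS
    have := (Nat.prime_dvd_prime_iff_eq hp' hq).mp (hp'.dvd_of_dvd_pow hpS)
    rw [this]; exact hqα
  have huniq := h06 M hL Q hSL hSα' hr1
  have hCM : M ⊓ centralizer (Q : Set G) ≤ N :=
    inf_le_right.trans ((Subgroup.centralizer_le_normalizer _).trans hNS)
  exact hLM (eq_of_inUniqueMaximal huniq hM hCM hL inf_le_left)

/-- **BG1312-ALPHA**. -/
theorem alpha [Finite G] (hG : IsMinSimpleOddOrder G) (h03 : St1403 G) (h05 : St1405 G)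
    (h06 : St1406 G) (h14 : St1414 G) (hSig : StSig G) (hComm : StComm G) : StAlpha G := by
  intro M N P Q p q hS
  refine ⟨alphaCore_ne_bot h05 hComm hS, ?_⟩
  have hqα : q ∉ Cfsg.alpha M := fun h =>
    hSig M N P Q p q hS (Cfsg.Agent.H58.BG10.alpha_subset_sigma hG h03 hS.hM h)
  exact alpha_subset_beta hG h05 h06 h14 hComm hS hqα

example [Finite G] (hG : IsMinSimpleOddOrder G) (h03 : St1403 G) (h05 : St1405 G)
    (h06 : St1406 G) (h14 : St1414 G) (hSig : StSig G) (hComm : StComm G) : StAlpha G :=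
  alpha hG h03 h05 h06 h14 hSig hComm

end Cfsg.Agent.H18.BG1312
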