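import Mathlib
import Cfsg.Agent.H47.BG1312Defs

set_option autoImplicit false

/-!
# BG1312-SYL (piece of B&G Lemma 13.12, for helper47), helper18

A Sylow `q`-subgroup `Q` of `K ≤ M` with `N_M(Q) ≤ K` is a Sylow `q`-subgroup of `M` (finite `G`;
the statement is false for infinite groups, e.g. `Q` of order 2 in the infinite dihedral group).
-/

namespace Cfsg.Agent.H18.BG1312

open Cfsg Subgroup Cfsg.Agent.H47.BG1312
open scoped Pointwise

universe u

variable {G : Type u} [Group G]

theorem syl [Finite G] : StSyl G := by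
  intro M K Q q hq hQq hQK hKM hQKq hNK
  have : Fact q.Prime := ⟨hq⟩
  have hQM : Q ≤ M := hQK.trans hKM
  obtain ⟨n, hn⟩ := hQq.exists_card_eq
  have hH : Nat.card (Q.subgroupOf M) = q ^ n := by
    rw [← hn]
    exact Nat.card_congr (subgroupOfEquivOfLe hQM).toEquiv
  have h1 := Sylow.card_quotient_normalizer_modEq_card_quotient hH
  -- the normalizer in `M` lies in `K`
  have hle : normalizer ((Q.subgroupOf M : Subgroup ↥M) : Set ↥M) ≤ K.subgroupOf M := by
    intro x hx
    rw [mem_subgroupOf]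
    apply hNK
    rw [mem_normalizer_iff] at hx
    refine ⟨x.2, ?_⟩
    show (x : G) ∈ normalizer (Q : Set G)
    rw [mem_normalizer_iff]
    intro g
    constructor
    · intro hg
      have h3 := (hx ⟨g, hQM hg⟩).mp (mem_subgroupOf.mpr hg)
      exact mem_subgroupOf.mp h3
    · intro hg
      have hgM : g ∈ M := by
        have h4 : g = (x : G)⁻¹ * ((x : G) * g * (x : G)⁻¹) * (x : G) := by group
        rw [h4]
        exact M.mul_mem (M.mul_mem (M.inv_mem x.2) (hQM hg)) x.2
      have h3 := (hx ⟨g, hgM⟩).mpr (mem_subgroupOf.mpr hg)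
      exact mem_subgroupOf.mp h3
  have hdvd : (Q.subgroupOf M).relIndex (normalizer ((Q.subgroupOf M : Subgroup ↥M) : Set ↥M)) ∣
      Q.relIndex K := by
    rw [← relIndex_subgroupOf (H := Q) hKM]
    exact Dvd.intro _ (relIndex_mul_relIndex _ _ _ le_normalizer hle)
  intro hdiv
  apply hQKq
  have h5 : q ∣ (Q.subgroupOf M).relIndex (normalizer ((Q.subgroupOf M : Subgroup ↥M) : Set ↥M)) := by
    have h6 : q ∣ Nat.card (↥M ⧸ Q.subgroupOf M) := hdiv
    exact (Nat.ModEq.dvd_iff h1 (dvd_refl q)).mpr h6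
  exact h5.trans hdvd

example [Finite G] : StSyl G := syl

end Cfsg.Agent.H18.BG1312
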