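import Mathlib
import Cfsg.Agent.H38.BG161Defs
import Cfsg.Agent.Lib.Helper30.PiCore

/-!
# S1421-CONCLFINAL: `Concl M E` gives the conclusion of B&G Lemma 16.1
(`A₀` := the subgroup generated by the singular elements of `E`).
-/

set_option autoImplicit false

namespace Cfsg.Agent.H18.BG161

open Cfsg Subgroup Cfsg.Agent.H58.BG10 Cfsg.Agent.H58.BG12 Cfsg.Agent.H38.BG161

universe u

variable {G : Type u} [Group G]

theorem conclFinal : StConclFinal G := by
  intro M hM E hE hC
  obtain ⟨hcomm, hE₀⟩ := hC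
  refine ⟨?_, hE₀⟩
  have hEM : E ≤ M := hE.1
  have hnS : M ≤ normalizer (sigmaCore M : Set G) :=
    Cfsg.Agent.Lib.Helper30.le_normalizer_piCoreOf (sigma M) M
  have hconj : ∀ (e : G), e ∈ E → ∀ y, (y ∈ E ∧ Sing M y) → (e * y * e⁻¹ ∈ E ∧ Sing M (e * y * e⁻¹)) := by
    intro e he y hy
    refine ⟨E.mul_mem (E.mul_mem he hy.1) (E.inv_mem he), ?_, ?_⟩
    · intro h1
      apply hy.2.1
      have h2 : y = e⁻¹ * (e * y * e⁻¹) * e := by group
      rw [h2, h1]; group
    · intro hbot
      apply hy.2.2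
      rw [eq_bot_iff] at hbot ⊢
      intro z hz
      obtain ⟨hzS, hzc'⟩ := Subgroup.mem_inf.mp hz
      have hzc : y * z = z * y := by
        rw [mem_centralizer_iff] at hzc'
        exact hzc' y rfl
      have h1 : e * z * e⁻¹ ∈ sigmaCore M ⊓ centralizer ({e * y * e⁻¹} : Set G) := by
        refine Subgroup.mem_inf.mpr ⟨(Subgroup.mem_normalizer_iff.mp (hnS (hEM he)) z).mp hzS, ?_⟩
        rw [mem_centralizer_iff]
        intro w hw
        rw [Set.mem_singleton_iff] at hw
        subst hw
        have e1 : e * y * e⁻¹ * (e * z * e⁻¹) = e * (y * z) * e⁻¹ := by group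
        have e2 : e * z * e⁻¹ * (e * y * e⁻¹) = e * (z * y) * e⁻¹ := by group
        rw [e1, e2, hzc]
      have h2 := hbot h1
      rw [mem_bot] at h2 ⊢
      have h3 : z = e⁻¹ * (e * z * e⁻¹) * e := by group
      rw [h3, h2]; group
  have hconj' : ∀ (e : G), e ∈ E → ∀ x ∈ closure {y | y ∈ E ∧ Sing M y},
      e * x * e⁻¹ ∈ closure {y | y ∈ E ∧ Sing M y} := by
    intro e he x hx
    induction hx using Subgroup.closure_induction with
    | mem x hx => exact subset_closure (hconj e he x hx)
    | one => simp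
    | mul x y _ _ ihx ihy =>
      have e1 : e * (x * y) * e⁻¹ = (e * x * e⁻¹) * (e * y * e⁻¹) := by group
      rw [e1]; exact Subgroup.mul_mem _ ihx ihy
    | inv x _ ihx =>
      have e1 : e * x⁻¹ * e⁻¹ = (e * x * e⁻¹)⁻¹ := by group
      rw [e1]; exact Subgroup.inv_mem _ ihx
  refine ⟨closure {y | y ∈ E ∧ Sing M y}, ?_, ?_, ?_, ?_⟩
  · rw [closure_le]
    intro y hy
    exact hy.1
  · intro e he
    rw [mem_normalizer_iff]
    intro x
    constructor
    · exact hconj' e he x
    · intro hx
      have h1 := hconj' e⁻¹ (E.inv_mem he) _ hx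
      have e1 : e⁻¹ * (e * x * e⁻¹) * e⁻¹⁻¹ = x := by group
      rwa [e1] at h1
  · exact Subgroup.isMulCommutative_closure (fun x hx y hy => hcomm x hx.1 y hy.1 hx.2 hy.2)
  · intro x hx hx1 y hy
    obtain ⟨hyE, hyc'⟩ := Subgroup.mem_inf.mp hy
    by_cases hy1 : y = 1
    · rw [hy1]; exact Subgroup.one_mem _
    · refine subset_closure ⟨hyE, hy1, ?_⟩
      intro hbot
      apply hx1
      have hyc : x * y = y * x := by
        rw [mem_centralizer_iff] at hyc'
        exact hyc' x rfl
      have h1 : x ∈ sigmaCore M ⊓ centralizer ({y} : Set G) := by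
        refine Subgroup.mem_inf.mpr ⟨hx, ?_⟩
        rw [mem_centralizer_iff]
        intro w hw
        rw [Set.mem_singleton_iff] at hw
        subst hw
        exact hyc.symm
      rw [hbot] at h1
      exact mem_bot.mp h1

example : StConclFinal G := conclFinal

end Cfsg.Agent.H18.BG161
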