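import Mathlib
import Cfsg.Agent.H38.BG161Defs

/-!
# S1421-NORMARG: the norm argument

For commuting `a, b ∈ N_G(A)` (`A` abelian) with `a^q, b^q ∈ C_G(A)` and `x ∈ A` with `x^q ≠ 1`,
one of `b`, `a b^m` (`m < q`) fixes a non-identity element of `A`
(the norms `N_h(x) = ∏_{i<q} h^i x h^{-i}` are `h`-fixed and
`∏_{m<q} N_{ab^m}(x) = x^q · ∏_{0<i<q} a^i N_b(x) a^{-i}`).
-/

set_option autoImplicit false

namespace Cfsg.Agent.H18.BG161

open Cfsg Subgroup Cfsg.Agent.H38.BG161

universe u

/-- Reindexing a `q`-periodic product along multiplication by a unit modulo the prime `q`. -/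
theorem prod_range_mul_perm {A : Type*} [CommMonoid A] (q : ℕ) (hq : q.Prime) (g : ℕ → A)
    (hg : ∀ j, g j = g (j % q)) (i : ℕ) (hi0 : 0 < i) (hiq : i < q) :
    ∏ m ∈ Finset.range q, g (m * i) = ∏ j ∈ Finset.range q, g j := by
  have hfact : Fact q.Prime := ⟨hq⟩
  have hne : (i : ZMod q) ≠ 0 := by
    rw [Ne, ZMod.natCast_eq_zero_iff]
    intro hdvd
    exact absurd (Nat.le_of_dvd hi0 hdvd) (not_le.mpr hiq)
  have h1 : ∀ f : ℕ → A, ∏ m ∈ Finset.range q, f m = ∏ z : ZMod q, f z.val := by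
    intro f
    symm
    apply Finset.prod_bij (fun z _ => z.val)
    · intro z _
      exact Finset.mem_range.mpr (ZMod.val_lt z)
    · intro z _ w _ h
      exact ZMod.val_injective q h
    · intro j hj
      exact ⟨(j : ZMod q), Finset.mem_univ _, ZMod.val_natCast_of_lt (Finset.mem_range.mp hj)⟩
    · intro z _
      rfl
  rw [h1 (fun m => g (m * i)), h1 g]
  rw [← Equiv.prod_comp (Equiv.mulRight₀ (i : ZMod q) hne) (fun z => g z.val)]
  apply Finset.prod_congr rfl
  intro z _
  simp only [Equiv.mulRight₀_apply]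
  rw [hg (z.val * i), ZMod.val_mul, ZMod.val_natCast, Nat.mod_eq_of_lt hiq]

/-- The norm `∏_{i<q} γ^i x` is `γ`-fixed when `γ^q = 1`. -/
theorem norm_fixed {A : Type*} [CommGroup A] (γ : Monoid.End A) (q : ℕ) (hγ : γ ^ q = 1) (x : A) :
    γ (∏ i ∈ Finset.range q, (γ ^ i) x) = ∏ i ∈ Finset.range q, (γ ^ i) x := by
  rw [map_prod]
  have h1 : ∀ i, γ ((γ ^ i) x) = (γ ^ (i + 1)) x := by
    intro i
    rw [pow_succ']
    rfl
  simp only [h1]
  have h2 := Finset.prod_range_succ' (fun i => (γ ^ i) x) q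
  have h3 := Finset.prod_range_succ (fun i => (γ ^ i) x) q
  rw [h2] at h3
  simp only [hγ, pow_zero] at h3
  exact mul_right_cancel h3

/-- The abstract norm identity: if the norms of `x` for `β` and all `α β^m` (`m < q`) are trivial,
then `x^q = 1`. -/
theorem norm_core {A : Type*} [CommGroup A] (α β : Monoid.End A) (hαβ : Commute α β)
    (q : ℕ) (hq : q.Prime) (hβ : β ^ q = 1) (x : A)
    (hb : ∏ j ∈ Finset.range q, (β ^ j) x = 1)
    (hab : ∀ m < q, ∏ i ∈ Finset.range q, ((α * β ^ m) ^ i) x = 1) : x ^ q = 1 := by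
  have hpow : ∀ m i, (α * β ^ m) ^ i = α ^ i * β ^ (m * i) := by
    intro m i
    rw [(hαβ.pow_right m).mul_pow, ← pow_mul]
  have hrow : ∀ i ∈ Finset.range q, i ≠ 0 →
      ∏ m ∈ Finset.range q, (α ^ i * β ^ (m * i)) x = 1 := by
    intro i hi hi0
    have hg : ∀ j, (α ^ i * β ^ j) x = (α ^ i * β ^ (j % q)) x := by
      intro j
      rw [pow_eq_pow_mod j hβ]
    rw [prod_range_mul_perm q hq (fun j => (α ^ i * β ^ j) x) hg i (Nat.pos_of_ne_zero hi0)
      (Finset.mem_range.mp hi)]
    have h2 : ∀ j, (α ^ i * β ^ j) x = (α ^ i) ((β ^ j) x) := fun j => rfl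
    simp only [h2]
    rw [← map_prod, hb, map_one]
  have h0 : ∏ m ∈ Finset.range q, (α ^ 0 * β ^ (m * 0)) x = x ^ q := by
    simp
  calc x ^ q = ∏ m ∈ Finset.range q, (α ^ 0 * β ^ (m * 0)) x := h0.symm
    _ = ∏ i ∈ Finset.range q, ∏ m ∈ Finset.range q, (α ^ i * β ^ (m * i)) x := by
        rw [Finset.prod_eq_single 0 hrow]
        intro h
        exact absurd (Finset.mem_range.mpr hq.pos) h
    _ = ∏ m ∈ Finset.range q, ∏ i ∈ Finset.range q, (α ^ i * β ^ (m * i)) x := Finset.prod_comm
    _ = 1 := by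
        apply Finset.prod_eq_one
        intro m hm
        have h3 := hab m (Finset.mem_range.mp hm)
        simp only [hpow] at h3
        exact h3

variable {G : Type u} [Group G]

/-- Conjugation of `A` by the elements of its normalizer, as endomorphisms. -/
def cEnd (A : Subgroup G) : normalizer (A : Set G) →* Monoid.End A where
  toFun g := (A.normalizerMonoidHom g).toMonoidHom
  map_one' := by rw [map_one]; rfl
  map_mul' g h := by rw [map_mul]; rfl

theorem cEnd_apply (A : Subgroup G) (g : normalizer (A : Set G)) (y : A) :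
    ((cEnd A g y : A) : G) = g * y * (g : G)⁻¹ := rfl

theorem cEnd_eq_one (A : Subgroup G) (g : normalizer (A : Set G))
    (hg : (g : G) ∈ centralizer (A : Set G)) : cEnd A g = 1 := by
  ext y
  rw [cEnd_apply]
  have h1 := (mem_centralizer_iff.mp hg) y y.2
  rw [← h1]
  simp

theorem normArg : StNormArg G := by
  intro A a b q hq hA ha hb hab haq hbq x hx hxq
  by_contra hcon
  rw [not_or] at hcon
  obtain ⟨hc1, hc2⟩ := hcon
  push Not at hc1 hc2
  letI : CommGroup A :=
    { (inferInstance : Group A) with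
      mul_comm := fun u v => Subtype.ext (hA u.1 u.2 v.1 v.2) }
  set a' : normalizer (A : Set G) := ⟨a, ha⟩ with ha'
  set b' : normalizer (A : Set G) := ⟨b, hb⟩ with hb'
  have hcomm' : Commute a' b' := Subtype.ext hab
  have hβ : (cEnd A b') ^ q = 1 := by
    rw [← map_pow]
    exact cEnd_eq_one A _ hbq
  have hγ : ∀ m, (cEnd A a' * cEnd A b' ^ m) ^ q = 1 := by
    intro m
    rw [← map_pow, ← map_mul, ← map_pow]
    apply cEnd_eq_one
    have e1 : (((a' * b' ^ m) ^ q : normalizer (A : Set G)) : G) = a ^ q * (b ^ q) ^ m := by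
      rw [(hcomm'.pow_right m).mul_pow, ← pow_mul, mul_comm m q, pow_mul]
      rfl
    rw [e1]
    exact Subgroup.mul_mem _ haq (Subgroup.pow_mem _ hbq m)
  have hxq' : (⟨x, hx⟩ : A) ^ q = 1 := by
    refine norm_core (cEnd A a') (cEnd A b') (hcomm'.map (cEnd A)) q hq hβ ⟨x, hx⟩ ?_ ?_
    · by_contra hne
      have hfix := norm_fixed (cEnd A b') q hβ ⟨x, hx⟩
      have hfix' := congrArg (fun y : A => (y : G)) hfix
      simp only [cEnd_apply] at hfix'
      refine hc1 _ (Subtype.property _) ?_ hfix'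
      intro h1
      exact hne (Subtype.ext h1)
    · intro m hm
      have hmap : cEnd A a' * cEnd A b' ^ m = cEnd A (a' * b' ^ m) := by rw [map_mul, map_pow]
      have hγm := hγ m
      rw [hmap] at hγm ⊢
      by_contra hne
      have hfix := norm_fixed (cEnd A (a' * b' ^ m)) q hγm ⟨x, hx⟩
      have hfix' := congrArg (fun y : A => (y : G)) hfix
      simp only [cEnd_apply] at hfix'
      refine hc2 m hm _ (Subtype.property _) ?_ hfix'
      intro h1
      exact hne (Subtype.ext h1)
  apply hxq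
  have := congrArg (fun y : A => (y : G)) hxq'
  simpa using this

example : StNormArg G := normArg

end Cfsg.Agent.H18.BG161
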