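import Mathlib
import Cfsg.Agent.H81.CycDefs

/-!
# S1502-NOTRANS (helper18, for helper81)

Three vectors of a row through a common coordinate force the fourth one through it.
-/

set_option autoImplicit false

namespace Cfsg.Agent.H18.Cyc

open Cfsg Cfsg.Agent.H81.Cyc

universe u

theorem Supp3.of_three {ι : Type u} {v : ι → ℤ} (h : Supp3 v) {p q r : ι} (hp : v p ≠ 0)
    (hq : v q ≠ 0) (hr : v r ≠ 0) (hpq : p ≠ q) (hpr : p ≠ r) (hqr : q ≠ r) :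
    ∀ t, v t ≠ 0 → t = p ∨ t = q ∨ t = r := by
  obtain ⟨t₁, t₂, t₃, h12, h13, h23, hs⟩ := h
  grind

theorem Supp3.exists_third {ι : Type u} {v : ι → ℤ} (h : Supp3 v) {p q : ι} (hp : v p ≠ 0)
    (hq : v q ≠ 0) (hpq : p ≠ q) :
    ∃ r, r ≠ p ∧ r ≠ q ∧ v r ≠ 0 ∧ ∀ t, v t ≠ 0 → t = p ∨ t = q ∨ t = r := by
  obtain ⟨t₁, t₂, t₃, h12, h13, h23, hs⟩ := h
  have h1 := (hs t₁).2 (Or.inl rfl)
  have h2 := (hs t₂).2 (Or.inr (Or.inl rfl))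
  have h3 := (hs t₃).2 (Or.inr (Or.inr rfl))
  rcases (hs p).1 hp with rfl | rfl | rfl <;> rcases (hs q).1 hq with rfl | rfl | rfl
  · exact absurd rfl hpq
  · exact ⟨t₃, by grind, by grind, h3, by grind⟩
  · exact ⟨t₂, by grind, by grind, h2, by grind⟩
  · exact ⟨t₃, by grind, by grind, h3, by grind⟩
  · exact absurd rfl hpq
  · exact ⟨t₁, by grind, by grind, h1, by grind⟩
  · exact ⟨t₂, by grind, by grind, h2, by grind⟩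
  · exact ⟨t₁, by grind, by grind, h1, by grind⟩
  · exact absurd rfl hpq

/-- The relations between the eight vectors `A_m = X i j_m`, `B_m = X k j_m`. -/
structure Cfg {ι : Type u} (A1 A2 A3 A4 B1 B2 B3 B4 : ι → ℤ) : Prop where
  sA1 : Supp3 A1
  sA2 : Supp3 A2
  sA3 : Supp3 A3
  sA4 : Supp3 A4
  sB1 : Supp3 B1
  sB2 : Supp3 B2
  sB3 : Supp3 B3
  sB4 : Supp3 B4
  a12 : Mate A1 A2
  a13 : Mate A1 A3
  a14 : Mate A1 A4
  a23 : Mate A2 A3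
  a24 : Mate A2 A4
  a34 : Mate A3 A4
  b12 : Mate B1 B2
  b13 : Mate B1 B3
  b14 : Mate B1 B4
  b23 : Mate B2 B3
  b24 : Mate B2 B4
  b34 : Mate B3 B4
  c1 : Mate A1 B1
  c2 : Mate A2 B2
  c3 : Mate A3 B3
  c4 : Mate A4 B4
  n12 : NonMate A1 B2
  n13 : NonMate A1 B3
  n14 : NonMate A1 B4
  n21 : NonMate A2 B1
  n23 : NonMate A2 B3
  n24 : NonMate A2 B4
  n31 : NonMate A3 B1
  n32 : NonMate A3 B2
  n34 : NonMate A3 B4
  n41 : NonMate A4 B1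
  n42 : NonMate A4 B2
  n43 : NonMate A4 B3

theorem Cfg.ofComb {I J ι : Type u} {X : I → J → ι → ℤ} (hX : Comb X) {i k : I} (hik : i ≠ k)
    {j₁ j₂ j₃ j₄ : J} (h12 : j₁ ≠ j₂) (h13 : j₁ ≠ j₃) (h14 : j₁ ≠ j₄) (h23 : j₂ ≠ j₃)
    (h24 : j₂ ≠ j₄) (h34 : j₃ ≠ j₄) :
    Cfg (X i j₁) (X i j₂) (X i j₃) (X i j₄) (X k j₁) (X k j₂) (X k j₃) (X k j₄) where
  sA1 := hX.supp _ _
  sA2 := hX.supp _ _
  sA3 := hX.supp _ _
  sA4 := hX.supp _ _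
  sB1 := hX.supp _ _
  sB2 := hX.supp _ _
  sB3 := hX.supp _ _
  sB4 := hX.supp _ _
  a12 := hX.row _ _ _ h12
  a13 := hX.row _ _ _ h13
  a14 := hX.row _ _ _ h14
  a23 := hX.row _ _ _ h23
  a24 := hX.row _ _ _ h24
  a34 := hX.row _ _ _ h34
  b12 := hX.row _ _ _ h12
  b13 := hX.row _ _ _ h13
  b14 := hX.row _ _ _ h14
  b23 := hX.row _ _ _ h23
  b24 := hX.row _ _ _ h24
  b34 := hX.row _ _ _ h34
  c1 := hX.col _ _ _ hik
  c2 := hX.col _ _ _ hik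
  c3 := hX.col _ _ _ hik
  c4 := hX.col _ _ _ hik
  n12 := hX.non _ _ _ _ hik h12
  n13 := hX.non _ _ _ _ hik h13
  n14 := hX.non _ _ _ _ hik h14
  n21 := hX.non _ _ _ _ hik h12.symm
  n23 := hX.non _ _ _ _ hik h23
  n24 := hX.non _ _ _ _ hik h24
  n31 := hX.non _ _ _ _ hik h13.symm
  n32 := hX.non _ _ _ _ hik h23.symm
  n34 := hX.non _ _ _ _ hik h34
  n41 := hX.non _ _ _ _ hik h14.symm
  n42 := hX.non _ _ _ _ hik h24.symm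
  n43 := hX.non _ _ _ _ hik h34.symm

/-- Steps 1-4 (symmetric in the indices 2, 3). -/
theorem L34 {ι : Type u} {A1 A2 A3 A4 B1 B2 B3 B4 : ι → ℤ} (hC : Cfg A1 A2 A3 A4 B1 B2 B3 B4)
    (x : ι) (h1 : A1 x ≠ 0) (h2 : A2 x ≠ 0) (h3 : A3 x ≠ 0) (h4 : A4 x = 0)
    (u₁ : ι) (hu1 : A4 u₁ ≠ 0) (hu1' : A1 u₁ ≠ 0) (hu1'' : B4 u₁ ≠ 0) :
    ∃ v₁ y, v₁ ≠ x ∧ v₁ ≠ u₁ ∧ A1 v₁ ≠ 0 ∧ (∀ t, A1 t ≠ 0 → t = x ∨ t = u₁ ∨ t = v₁) ∧
      B4 v₁ = -A1 v₁ ∧ B4 x = 0 ∧ y ≠ u₁ ∧ y ≠ v₁ ∧ B4 y ≠ 0 ∧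
      (∀ t, B4 t ≠ 0 → t = u₁ ∨ t = v₁ ∨ t = y) ∧
      A1 y = 0 ∧ A2 y = 0 ∧ A3 y = 0 ∧ A4 y = 0 ∧
      B1 u₁ = A1 u₁ ∧ B1 x = 0 ∧ B1 v₁ = 0 ∧ B1 y = 0 := by
  obtain ⟨sA1, sA2, sA3, sA4, sB1, sB2, sB3, sB4, a12, a13, a14, a23, a24, a34,
    b12, b13, b14, b23, b24, b34, c1, c2, c3, c4,
    n12, n13, n14, n21, n23, n24, n31, n32, n34, n41, n42, n43⟩ := hC
  obtain ⟨e12, z12⟩ := a12.at h1 h2
  obtain ⟨e13, z13⟩ := a13.at h1 h3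
  obtain ⟨e23, z23⟩ := a23.at h2 h3
  obtain ⟨e41, z41⟩ := a14.symm.at hu1 hu1'
  have hxu1 : x ≠ u₁ := by grind
  obtain ⟨v₁, hv1x, hv1u, hv1, sA1'⟩ := Supp3.exists_third sA1 h1 hu1' hxu1
  obtain ⟨e44, z44⟩ := c4.at hu1 hu1''
  obtain ⟨r, hru, hr0, hr, zr⟩ := n14.symm.of_eq hu1'' (by grind : B4 u₁ = A1 u₁)
  have hrA : A1 r ≠ 0 := by grind
  have hr' : r = x ∨ r = v₁ := by grind
  rcases hr' with rfl | rfl
  · -- (3a)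
    exfalso
    obtain ⟨t, htx, ht0, ht, zt⟩ := n24.symm.of_neg hr0 (by grind : B4 r = -A2 r)
    have sB4' := Supp3.of_three sB4 hu1'' hr0 ht0 (by grind) (by grind) (by grind)
    obtain ⟨t', ht'x, ht'0, ht', zt'⟩ := n34.symm.of_neg hr0 (by grind : B4 r = -A3 r)
    grind
  · -- (3b)
    have hB4x : B4 x = 0 := by grind
    obtain ⟨y, hyu, hyv, hy, sB4'⟩ := Supp3.exists_third sB4 hu1'' hr0 (by grind)
    have hA1y : A1 y = 0 := by grind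
    have hA2y : A2 y = 0 := by
      rcases n24 with h | ⟨p, q, hpq, q1, q2, q3, q4, q5⟩
      · grind
      · grind
    have hA3y : A3 y = 0 := by
      rcases n34 with h | ⟨p, q, hpq, q1, q2, q3, q4, q5⟩
      · grind
      · grind
    have hA4y : A4 y = 0 := by grind
    obtain ⟨t, ht0, ht, zt⟩ := c1
    rcases sA1' t ht0 with rfl | rfl | rfl
    · -- B1 mates A1 at x
      exfalso
      obtain ⟨c, hc0, hc, zc⟩ := b14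
      have hcy : c = y := by grind
      subst hcy
      obtain ⟨e, het, hec, he, sB1'⟩ := Supp3.exists_third sB1 (by grind : B1 t ≠ 0) hc0 (by grind)
      obtain ⟨r₂, hr2x, hr20, hr2, zr2⟩ :=
        n21.symm.of_eq (by grind : B1 t ≠ 0) (by grind : B1 t = A2 t)
      obtain ⟨r₃, hr3x, hr30, hr3, zr3⟩ :=
        n31.symm.of_eq (by grind : B1 t ≠ 0) (by grind : B1 t = A3 t)
      grind
    · -- B1 mates A1 at u₁
      have hb := b14.at (by grind : B1 t ≠ 0) hu1''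
      refine ⟨r, y, hv1x, hv1u, hv1, sA1', hr, hB4x, hyu, hyv, hy, sB4', hA1y, hA2y, hA3y,
        hA4y, ht.symm, ?_, ?_, ?_⟩
      · grind
      · grind
      · grind
    · -- B1 mates A1 at v₁
      exfalso
      have hb := b14.at (by grind : B1 t ≠ 0) hr0
      grind

/-- The core case: `B₄` meets `A₄` in the coordinate of `A₁`, and `B₁` contains the coordinate
common to `A₄` and `A₂`. -/
theorem core2 {ι : Type u} {A1 A2 A3 A4 B1 B2 B3 B4 : ι → ℤ} (hC : Cfg A1 A2 A3 A4 B1 B2 B3 B4)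
    (x : ι) (h1 : A1 x ≠ 0) (h2 : A2 x ≠ 0) (h3 : A3 x ≠ 0) (h4 : A4 x = 0)
    (u₁ : ι) (hu1 : A4 u₁ ≠ 0) (hu1' : A1 u₁ ≠ 0) (hu1'' : B4 u₁ ≠ 0)
    (u₂ : ι) (hu2 : A4 u₂ ≠ 0) (hu2' : A2 u₂ ≠ 0) (hu2'' : B1 u₂ ≠ 0) : False := by
  obtain ⟨v₁, y, hv1x, hv1u, hv1, sA1', eB4v1, hB4x, hyu, hyv, hy, sB4', hA1y, hA2y, hA3y,
    hA4y, eB1u1, hB1x, hB1v1, hB1y⟩ := L34 hC x h1 h2 h3 h4 u₁ hu1 hu1' hu1''
  obtain ⟨sA1, sA2, sA3, sA4, sB1, sB2, sB3, sB4, a12, a13, a14, a23, a24, a34,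
    b12, b13, b14, b23, b24, b34, c1, c2, c3, c4,
    n12, n13, n14, n21, n23, n24, n31, n32, n34, n41, n42, n43⟩ := hC
  obtain ⟨e12, z12⟩ := a12.at h1 h2
  obtain ⟨e13, z13⟩ := a13.at h1 h3
  obtain ⟨e23, z23⟩ := a23.at h2 h3
  obtain ⟨e41, z41⟩ := a14.symm.at hu1 hu1'
  obtain ⟨e42, z42⟩ := a24.symm.at hu2 hu2'
  obtain ⟨u₃, hu3, e43, z43⟩ := a34.symm
  obtain ⟨e44, z44⟩ := c4.at hu1 hu1''
  have hu3' : A3 u₃ ≠ 0 := by grind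
  have hxu1 : x ≠ u₁ := by grind
  have hxu2 : x ≠ u₂ := by grind
  have hxu3 : x ≠ u₃ := by grind
  have hu12 : u₁ ≠ u₂ := by grind
  have hu13 : u₁ ≠ u₃ := by grind
  have hu23 : u₂ ≠ u₃ := by grind
  have sA4' := Supp3.of_three sA4 hu1 hu2 hu3 hu12 hu13 hu23
  obtain ⟨v₂, hv2x, hv2u, hv2, sA2'⟩ := Supp3.exists_third sA2 h2 hu2' hxu2
  -- Step 4 (end)
  obtain ⟨r, hru, hr0, hr, zr⟩ :=
    n41.symm.of_eq (by grind : B1 u₁ ≠ 0) (by grind : B1 u₁ = A4 u₁)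
  have hr2 : r = u₂ := by grind
  subst hr2
  obtain ⟨t, htu, ht0, ht, zt⟩ := n21.symm.of_neg hu2'' (by grind : B1 r = -A2 r)
  have htv : t = v₂ := by grind
  subst htv
  have sB1' := Supp3.of_three sB1 (by grind : B1 u₁ ≠ 0) hu2'' ht0 hu12 (by grind) (by grind)
  -- Step 5
  obtain ⟨w₂, hw20, hw2, zw2⟩ := c2
  rcases sA2' w₂ hw20 with rfl | rfl | rfl
  · -- B2 mates A2 at x
    exfalso
    obtain ⟨c, hc0, hc, zc⟩ := b12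
    have hc1 : c = u₁ := by grind
    subst hc1
    obtain ⟨r', hr'x, hr'0, hr', zr'⟩ :=
      n12.symm.of_eq (by grind : B2 w₂ ≠ 0) (by grind : B2 w₂ = A1 w₂)
    grind
  · -- B2 mates A2 at u₂
    exfalso
    have hb := b12.at hu2'' (by grind : B2 w₂ ≠ 0)
    grind
  · -- B2 mates A2 at v₂
    obtain ⟨e21, z21⟩ := b12.at ht0 (by grind : B2 w₂ ≠ 0)
    have hB2x : B2 x = 0 := by grind
    have hB2u2 : B2 r = 0 := by grind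
    have hB2u1 : B2 u₁ = 0 := by grind
    obtain ⟨c, hc0, hc, zc⟩ := b24
    have hc' : c = v₁ ∨ c = y := by grind
    rcases hc' with rfl | rfl
    · exfalso
      obtain ⟨t', ht'c, ht'0, ht', zt'⟩ := n12.symm.of_neg hc0 (by grind : B2 c = -A1 c)
      grind
    · have hB2v1 : B2 v₁ = 0 := by grind
      -- Step 6
      obtain ⟨w, hw0, hw, zw⟩ := c3
      obtain ⟨c₁, hc10, hc1, zc1⟩ := b13
      rcases sB1' c₁ hc10 with rfl | rfl | rfl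
      · -- B3 contains u₁
        obtain ⟨r₁, hr1u, hr10, hr1, zr1⟩ :=
          n13.symm.of_eq (by grind : B3 c₁ ≠ 0) (by grind : B3 c₁ = A1 c₁)
        obtain ⟨c₄, hc40, hc4, zc4⟩ := b34
        grind
      · -- B3 contains u₂
        obtain ⟨t₂, ht2u, ht20, ht2, zt2⟩ :=
          n23.symm.of_neg (by grind : B3 c₁ ≠ 0) (by grind : B3 c₁ = -A2 c₁)
        have ht2x : t₂ = x := by grind
        subst ht2x
        obtain ⟨r₁, hr1u, hr10, hr1, zr1⟩ :=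
          n13.symm.of_eq ht20 (by grind : B3 t₂ = A1 t₂)
        have hr1v : r₁ = v₁ := by grind
        subst hr1v
        have sB3' := Supp3.of_three sB3 ht20 (by grind : B3 c₁ ≠ 0) hr10 (by grind) (by grind)
          (by grind)
        obtain ⟨c₂, hc20, hc2, zc2⟩ := b23
        grind
      · -- B3 contains v₂
        obtain ⟨r₂, hr2v, hr20, hr2, zr2⟩ :=
          n23.symm.of_eq (by grind : B3 c₁ ≠ 0) (by grind : B3 c₁ = A2 c₁)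
        grind

/-- `B₄` meets `A₄` in the coordinate common to `A₄` and `A₁`. -/
theorem core1 {ι : Type u} {A1 A2 A3 A4 B1 B2 B3 B4 : ι → ℤ} (hC : Cfg A1 A2 A3 A4 B1 B2 B3 B4)
    (hC' : Cfg A1 A3 A2 A4 B1 B3 B2 B4)
    (x : ι) (h1 : A1 x ≠ 0) (h2 : A2 x ≠ 0) (h3 : A3 x ≠ 0) (h4 : A4 x = 0)
    (u₁ : ι) (hu1 : A4 u₁ ≠ 0) (hu1' : A1 u₁ ≠ 0) (hu1'' : B4 u₁ ≠ 0) : False := by
  obtain ⟨v₁, y, hv1x, hv1u, hv1, sA1', eB4v1, hB4x, hyu, hyv, hy, sB4', hA1y, hA2y, hA3y,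
    hA4y, eB1u1, hB1x, hB1v1, hB1y⟩ := L34 hC x h1 h2 h3 h4 u₁ hu1 hu1' hu1''
  have hC0 := hC
  obtain ⟨sA1, sA2, sA3, sA4, sB1, sB2, sB3, sB4, a12, a13, a14, a23, a24, a34,
    b12, b13, b14, b23, b24, b34, c1, c2, c3, c4,
    n12, n13, n14, n21, n23, n24, n31, n32, n34, n41, n42, n43⟩ := hC
  obtain ⟨e12, z12⟩ := a12.at h1 h2
  obtain ⟨e13, z13⟩ := a13.at h1 h3
  obtain ⟨e23, z23⟩ := a23.at h2 h3
  obtain ⟨e41, z41⟩ := a14.symm.at hu1 hu1'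
  obtain ⟨u₂, hu2, e42, z42⟩ := a24.symm
  obtain ⟨u₃, hu3, e43, z43⟩ := a34.symm
  have hu2' : A2 u₂ ≠ 0 := by grind
  have hu3' : A3 u₃ ≠ 0 := by grind
  have hxu1 : x ≠ u₁ := by grind
  have hxu2 : x ≠ u₂ := by grind
  have hxu3 : x ≠ u₃ := by grind
  have hu12 : u₁ ≠ u₂ := by grind
  have hu13 : u₁ ≠ u₃ := by grind
  have hu23 : u₂ ≠ u₃ := by grind
  have sA4' := Supp3.of_three sA4 hu1 hu2 hu3 hu12 hu13 hu23
  obtain ⟨r, hru, hr0, hr, zr⟩ :=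
    n41.symm.of_eq (by grind : B1 u₁ ≠ 0) (by grind : B1 u₁ = A4 u₁)
  have hr' : r = u₂ ∨ r = u₃ := by grind
  rcases hr' with rfl | rfl
  · exact core2 hC0 x h1 h2 h3 h4 u₁ hu1 hu1' hu1'' r hu2 hu2' hr0
  · exact core2 hC' x h1 h3 h2 h4 u₁ hu1 hu1' hu1'' r hu3 hu3' hr0

/-- S1502-NOTRANS. -/
theorem noTrans : StmtNoTrans.{u} := by
  intro I J ι X hX i k hik j₁ j₂ j₃ j₄ h12 h13 h14 h23 h24 h34 x h1 h2 h3 h4n
  have h4 : X i j₄ x = 0 := h4n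
  obtain ⟨u, hu0, hu, zu⟩ := hX.col i k j₄ hik
  obtain ⟨t₁, ht10, ht1, zt1⟩ := (hX.row i j₁ j₄ h14).symm
  obtain ⟨t₂, ht20, ht2, zt2⟩ := (hX.row i j₂ j₄ h24).symm
  obtain ⟨t₃, ht30, ht3, zt3⟩ := (hX.row i j₃ j₄ h34).symm
  obtain ⟨e12, z12⟩ := (hX.row i j₁ j₂ h12).at h1 h2
  obtain ⟨e13, z13⟩ := (hX.row i j₁ j₃ h13).at h1 h3
  obtain ⟨e23, z23⟩ := (hX.row i j₂ j₃ h23).at h2 h3
  have hxt1 : x ≠ t₁ := by grind
  have hxt2 : x ≠ t₂ := by grind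
  have hxt3 : x ≠ t₃ := by grind
  have ht12 : t₁ ≠ t₂ := by grind
  have ht13 : t₁ ≠ t₃ := by grind
  have ht23 : t₂ ≠ t₃ := by grind
  have sA4' := Supp3.of_three (hX.supp i j₄) ht10 ht20 ht30 ht12 ht13 ht23
  have hB4u : X k j₄ u ≠ 0 := by grind
  rcases sA4' u hu0 with rfl | rfl | rfl
  · exact core1 (Cfg.ofComb hX hik h12 h13 h14 h23 h24 h34)
      (Cfg.ofComb hX hik h13 h12 h14 h23.symm h34 h24) x h1 h2 h3 h4 u hu0 (by grind) hB4u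
  · exact core1 (Cfg.ofComb hX hik h12.symm h23 h24 h13 h14 h34)
      (Cfg.ofComb hX hik h23 h12.symm h24 h13.symm h34 h14) x h2 h1 h3 h4 u hu0 (by grind) hB4u
  · exact core1 (Cfg.ofComb hX hik h13.symm h23.symm h34 h12 h14 h24)
      (Cfg.ofComb hX hik h23.symm h13.symm h34 h12.symm h24 h14) x h3 h1 h2 h4 u hu0 (by grind)
      hB4u

example : StmtNoTrans.{u} := noTrans

end Cfsg.Agent.H18.Cyc
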