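import Mathlib
import Cfsg.Agent.H81.CycDefs
import Cfsg.Agent.H18.CycNoTrans

/-!
# S1502-COL4 (helper18, for helper81)

Four pairwise mates with private coordinates `a i` have a common coordinate.
-/

set_option autoImplicit false

namespace Cfsg.Agent.H18.Cyc

open Cfsg Cfsg.Agent.H81.Cyc

universe u

/-- The common coordinate of two vectors of the column lies in every third one (given a
fourth). -/
theorem col4_third {I ι : Type u} (C : I → ι → ℤ) (hS : ∀ i, Supp3 (C i))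
    (hM : ∀ i k, i ≠ k → Mate (C i) (C k))
    (a : I → ι) (ha : ∀ i, C i (a i) ≠ 0) (ha' : ∀ i k, i ≠ k → C i (a k) = 0)
    (i₁ i₂ i₃ i₄ : I) (h12 : i₁ ≠ i₂) (h13 : i₁ ≠ i₃) (h14 : i₁ ≠ i₄) (h23 : i₂ ≠ i₃)
    (h24 : i₂ ≠ i₄) (h34 : i₃ ≠ i₄) (b : ι) (hb1 : C i₁ b ≠ 0) (hb2 : C i₂ b ≠ 0) :
    C i₃ b ≠ 0 := by
  intro hb3
  obtain ⟨e12, z12⟩ := (hM i₁ i₂ h12).at hb1 hb2
  obtain ⟨p, hp0, hp, zp⟩ := hM i₁ i₃ h13
  obtain ⟨z, hz0, hz, zz⟩ := hM i₂ i₃ h23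
  have a11 := ha i₁
  have a22 := ha i₂
  have a33 := ha i₃
  have a44 := ha i₄
  have a12 := ha' i₁ i₂ h12
  have a13 := ha' i₁ i₃ h13
  have a14 := ha' i₁ i₄ h14
  have a21 := ha' i₂ i₁ h12.symm
  have a23 := ha' i₂ i₃ h23
  have a24 := ha' i₂ i₄ h24
  have a31 := ha' i₃ i₁ h13.symm
  have a32 := ha' i₃ i₂ h23.symm
  have a34 := ha' i₃ i₄ h34
  have a41 := ha' i₄ i₁ h14.symm
  have a42 := ha' i₄ i₂ h24.symm
  have a43 := ha' i₄ i₃ h34.symm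
  have s1 := Supp3.of_three (hS i₁) a11 hb1 hp0 (by grind) (by grind) (by grind)
  have s2 := Supp3.of_three (hS i₂) a22 hb2 hz0 (by grind) (by grind) (by grind)
  have s3 := Supp3.of_three (hS i₃) a33 (by grind : C i₃ p ≠ 0) (by grind : C i₃ z ≠ 0)
    (by grind) (by grind) (by grind)
  obtain ⟨c₁, hc10, hc1, zc1⟩ := hM i₁ i₄ h14
  obtain ⟨c₂, hc20, hc2, zc2⟩ := hM i₂ i₄ h24
  obtain ⟨c₃, hc30, hc3, zc3⟩ := hM i₃ i₄ h34
  grind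

/-- S1502-COL4. -/
theorem col4 : StmtCol4.{u} := by
  intro I ι C _ hS hM a ha ha' i₁ i₂ i₃ i₄ h12 h13 h14 h23 h24 h34
  obtain ⟨b, hb0, hb, zb⟩ := hM i₁ i₂ h12
  have hb2 : C i₂ b ≠ 0 := by rw [← hb]; exact hb0
  exact ⟨b, hb0, hb2,
    col4_third C hS hM a ha ha' i₁ i₂ i₃ i₄ h12 h13 h14 h23 h24 h34 b hb0 hb2,
    col4_third C hS hM a ha ha' i₁ i₂ i₄ i₃ h12 h14 h13 h24 h23 h34.symm b hb0 hb2⟩

example : StmtCol4.{u} := col4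

end Cfsg.Agent.H18.Cyc
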