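import Mathlib

set_option autoImplicit false

namespace Cfsg.Agent.H18.Dih

open Finset

theorem geom_zero {x : ℂ} {m : ℕ} (hx : x ^ m = 1) (hx1 : x ≠ 1) :
    ∑ k ∈ range m, x ^ k = 0 := by
  have h := geom_sum_mul x m
  rw [hx, sub_self] at h
  rcases mul_eq_zero.mp h with h | h
  · exact h
  · exact absurd (sub_eq_zero.mp h) hx1

theorem sum_split_two {ι M : Type*} [Fintype ι] [DecidableEq ι] [AddCommMonoid M]
    (i₀ i₁ : ι) (h01 : i₀ ≠ i₁) (f : ι → M) :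
    ∑ i, f i = f i₀ + f i₁ + ∑ i ∈ (univ.erase i₀).erase i₁, f i := by
  have h1 : i₁ ∈ (univ : Finset ι).erase i₀ := mem_erase.mpr ⟨fun h => h01 h.symm, mem_univ _⟩
  rw [← add_sum_erase _ f (mem_univ i₀), ← add_sum_erase _ f h1, add_assoc]

theorem w_const {m : ℕ} (hm : 0 < m) {ζ : ℂ} {l : ℕ} (hS : ∑ k ∈ range m, ζ ^ (k * l) = 0)
    (v : ℕ → ℤ) (c : ℤ) (h0 : v 0 = 0) (hv : ∀ k, 0 < k → k < m → v k = -c) :
    ∑ k ∈ range m, (v k : ℂ) * ζ ^ (k * l) = c := by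
  have key : ∀ k ∈ range m, (v k : ℂ) * ζ ^ (k * l) =
      -(c : ℂ) * ζ ^ (k * l) + (if k = 0 then (c : ℂ) else 0) := by
    intro k hk
    rcases Nat.eq_zero_or_pos k with rfl | hk0
    · simp [h0]
    · rw [hv k hk0 (mem_range.mp hk), if_neg (by omega)]; push_cast; ring
  rw [sum_congr rfl key, sum_add_distrib, ← mul_sum, hS, mul_zero, zero_add,
    sum_ite_eq' (range m) 0 (fun _ => (c : ℂ))]
  simp [hm]

theorem w_pair {m : ℕ} {ζ : ℂ} (l k : ℕ) (hk : 0 < k) (hkm : k < m) (v : ℕ → ℤ) (s : ℤ)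
    (hv : ∀ k', k' < m →
      v k' = s * ((if k = k' then 1 else 0) + (if k + k' = m then 1 else 0))) :
    ∑ k' ∈ range m, (v k' : ℂ) * ζ ^ (k' * l) = s * (ζ ^ (k * l) + ζ ^ ((m - k) * l)) := by
  have key : ∀ k' ∈ range m, (v k' : ℂ) * ζ ^ (k' * l) =
      (if k' = k then (s : ℂ) * ζ ^ (k' * l) else 0) +
        (if k' = m - k then (s : ℂ) * ζ ^ (k' * l) else 0) := by
    intro k' hk'
    rw [hv k' (mem_range.mp hk')]
    have e1 : (k = k') ↔ (k' = k) := eq_comm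
    have e2 : (k + k' = m) ↔ (k' = m - k) := by omega
    simp only [e1, e2]
    push_cast
    split_ifs <;> ring
  rw [sum_congr rfl key, sum_add_distrib, sum_ite_eq', sum_ite_eq']
  rw [if_pos (mem_range.mpr hkm), if_pos (mem_range.mpr (by omega))]
  ring

theorem sum_neg_one_pow_Ico {h : ℕ} (hh : 1 ≤ h) (hhe : Even h) :
    ∑ k ∈ Ico 1 h, (-1 : ℂ) ^ k = -1 := by
  have h1 := geom_sum_mul (-1 : ℂ) h
  rw [hhe.neg_one_pow, sub_self] at h1
  have h2 : ∑ k ∈ range h, (-1 : ℂ) ^ k = 0 := by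
    rcases mul_eq_zero.mp h1 with h | h
    · exact h
    · norm_num at h
  rw [range_eq_Ico, sum_eq_sum_Ico_succ_bot (by omega)] at h2
  simp only [pow_zero, zero_add] at h2
  linear_combination h2

theorem sum_reflect_root {ζ : ℂ} {m h : ℕ} (hm : m = 2 * h) (hζh : ζ ^ h = -1) :
    ∑ k ∈ Ico 1 h, ζ ^ (m - k) = - ∑ k ∈ Ico 1 h, ζ ^ k := by
  have key : ∀ k ∈ Ico 1 h, ζ ^ (m - k) = -(ζ ^ (h - k)) := by
    intro k hk
    have hk' := mem_Ico.mp hk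
    have : m - k = h + (h - k) := by omega
    rw [this, pow_add, hζh]; ring
  rw [sum_congr rfl key, sum_neg_distrib]
  congr 1
  have := sum_Ico_reflect (fun j => ζ ^ j) 1 (show h ≤ h + 1 by omega)
  simpa using this

theorem alg_case1 (s e A B D : ℂ) (hs : s * s = 1) (he : e ^ 2 = 1) (hs0 : s ≠ 0) :
    (s * (e + e)) ^ 2 * (s * (e + e) + s * (A + B)) / (s * D) = 4 * (2 * e + A + B) / D := by
  have h1 : (s * (e + e)) ^ 2 * (s * (e + e) + s * (A + B)) = s * (4 * (2 * e + A + B)) := by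
    linear_combination (4 * s * (2 * e + A + B) * e ^ 2) * hs + (4 * s * (2 * e + A + B)) * he
  rw [h1, mul_div_mul_left _ _ hs0]

theorem lattice_eval_aux (m h : ℕ) (hm : m = 2 * h) (hh : 2 ≤ h) (hhe : Even h)
    (ζ : ℂ) (hζ : IsPrimitiveRoot ζ m)
    {ι : Type*} [Fintype ι] (d : ι → ℕ) (hd : ∀ i, 0 < d i) (u : ι → ℕ → ℤ) (w : ι → ℕ → ℂ)
    (hG : ∀ k k' : ℕ, 0 < k → k < m → 0 < k' → k' < m →
      ∑ i, u i k * u i k' = 2 + (if k = k' then 1 else 0) + (if k + k' = m then 1 else 0))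
    (hD : ∀ k : ℕ, 0 < k → k < m → ∑ i, u i k * (d i : ℤ) = 0)
    (hu0 : ∀ i, u i 0 = 0)
    (hw : ∀ i (l : ℕ), 0 < l → l < m →
      w i l = ∑ k ∈ Finset.range m, (u i k : ℂ) * ζ ^ (k * l))
    (i₀ i₁ : ι) (h01 : i₀ ≠ i₁) (hd0 : d i₀ = 1)
    (hu₀ : ∀ k : ℕ, 0 < k → k < m → u i₀ k = -1) (δ : ℤ) (hδ : δ = 1 ∨ δ = -1)
    (hu₁ : ∀ k : ℕ, 0 < k → k < m → u i₁ k = -δ) :
    (1 : ℤ) + δ * (d i₁ : ℤ) ≠ 0 ∧
      ∑ i, w i h ^ 2 * (w i h + w i 1) / (d i : ℂ) =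
        2 + 2 * (δ : ℂ) / (d i₁ : ℂ) - 8 / (1 + (δ : ℂ) * (d i₁ : ℂ)) := by
  classical
  have hmpos : 0 < m := by omega
  have hhm : h < m := by omega
  have hδ2 : δ * δ = 1 := by rcases hδ with rfl | rfl <;> norm_num
  set Y : Finset ι := (univ.erase i₀).erase i₁ with hY
  -- Gram identity on Y
  have hYG : ∀ k k' : ℕ, 0 < k → k < m → 0 < k' → k' < m →
      ∑ i ∈ Y, u i k * u i k' =
        (if k = k' then 1 else 0) + (if k + k' = m then 1 else 0) := by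
    intro k k' hk hkm hk' hk'm
    have h1 := hG k k' hk hkm hk' hk'm
    rw [sum_split_two i₀ i₁ h01, hu₀ k hk hkm, hu₀ k' hk' hk'm, hu₁ k hk hkm,
      hu₁ k' hk' hk'm] at h1
    have : (-δ) * (-δ) = 1 := by rw [neg_mul_neg]; exact hδ2
    rw [this] at h1
    linarith
  have hsq : ∀ k, 0 < k → k < m → k ≠ h → ∑ i ∈ Y, u i k * u i k = 1 := by
    intro k hk hkm hkh
    rw [hYG k k hk hkm hk hkm, if_pos rfl, if_neg (by omega)]; norm_num
  have hsupp : ∀ i ∈ Y, ∀ k, 0 < k → k < m → k ≠ h → u i k ≠ 0 →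
      u i k * u i k = 1 ∧ ∀ i' ∈ Y, i' ≠ i → u i' k = 0 := by
    intro i hi k hk hkm hkh hne
    have h1 := hsq k hk hkm hkh
    rw [← add_sum_erase Y _ hi] at h1
    have hpos : 1 ≤ u i k * u i k := by
      have : 0 < u i k * u i k := mul_self_pos.mpr hne
      linarith
    have hnn : 0 ≤ ∑ x ∈ Y.erase i, u x k * u x k :=
      sum_nonneg (fun x _ => mul_self_nonneg _)
    have h2 : u i k * u i k = 1 := by linarith
    have h3 : ∑ x ∈ Y.erase i, u x k * u x k = 0 := by linarith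
    refine ⟨h2, fun i' hi' hne' => ?_⟩
    have := (sum_eq_zero_iff_of_nonneg (fun x _ => mul_self_nonneg (u x k))).mp h3 i'
      (mem_erase.mpr ⟨hne', hi'⟩)
    exact mul_self_eq_zero.mp this
  have hrow : ∀ i ∈ Y, ∀ k, 0 < k → k < m → k ≠ h → u i k ≠ 0 → ∀ k', 0 < k' → k' < m →
      u i k * u i k' = (if k = k' then 1 else 0) + (if k + k' = m then 1 else 0) := by
    intro i hi k hk hkm hkh hne k' hk' hk'm
    rw [← hYG k k' hk hkm hk' hk'm]
    symm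
    apply sum_eq_single_of_mem i hi
    intro i' hi' hne'
    rw [(hsupp i hi k hk hkm hkh hne).2 i' hi' hne', zero_mul]
  have hdeg : ∀ i ∈ Y, ∀ k, 0 < k → k < m → k ≠ h → u i k ≠ 0 →
      u i k * (d i : ℤ) = 1 + δ * (d i₁ : ℤ) := by
    intro i hi k hk hkm hkh hne
    have h1 := hD k hk hkm
    rw [sum_split_two i₀ i₁ h01, hu₀ k hk hkm, hu₁ k hk hkm, hd0] at h1
    have h2 : ∑ x ∈ Y, u x k * (d x : ℤ) = u i k * (d i : ℤ) := by
      apply sum_eq_single_of_mem i hi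
      intro i' hi' hne'
      rw [(hsupp i hi k hk hkm hkh hne).2 i' hi' hne', zero_mul]
    rw [← hY, h2] at h1
    push_cast at h1
    linarith
  -- nonvanishing
  have hex : ∃ i ∈ Y, u i 1 ≠ 0 := by
    by_contra hcon
    push Not at hcon
    have h1 := hsq 1 (by omega) (by omega) (by omega)
    rw [sum_eq_zero (fun i hi => by rw [hcon i hi, zero_mul])] at h1
    exact absurd h1 (by norm_num)
  obtain ⟨j, hj, hj1⟩ := hex
  have hDint : (1 : ℤ) + δ * (d i₁ : ℤ) ≠ 0 := by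
    rw [← hdeg j hj 1 (by omega) (by omega) (by omega) hj1]
    exact mul_ne_zero hj1 (by exact_mod_cast (hd j).ne')
  refine ⟨hDint, ?_⟩
  obtain ⟨D, hDdef⟩ : ∃ D : ℂ, D = 1 + (δ : ℂ) * (d i₁ : ℂ) := ⟨_, rfl⟩
  have hDne : D ≠ 0 := by
    rw [hDdef]
    have : ((1 + δ * (d i₁ : ℤ) : ℤ) : ℂ) ≠ 0 := by exact_mod_cast hDint
    push_cast at this
    exact this
  rw [← hDdef]
  -- roots of unity facts
  have hζm : ζ ^ m = 1 := hζ.pow_eq_one
  have hζh : ζ ^ h = -1 := by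
    have : IsPrimitiveRoot (ζ ^ h) 2 := hζ.pow hmpos (by omega)
    exact this.eq_neg_one_of_two_right
  have hS : ∀ l, 0 < l → l < m → ∑ k ∈ range m, ζ ^ (k * l) = 0 := by
    intro l hl hlm
    have h1 : ∀ k ∈ range m, ζ ^ (k * l) = (ζ ^ l) ^ k := fun k _ => pow_mul' ζ k l
    rw [sum_congr rfl h1]
    apply geom_zero
    · rw [← pow_mul, mul_comm, pow_mul, hζm, one_pow]
    · exact hζ.pow_ne_one_of_pos_of_lt hl.ne' hlm
  have h1m : 1 < m := by omega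
  -- values at i₀, i₁
  have hw0 : ∀ l, 0 < l → l < m → w i₀ l = 1 := by
    intro l hl hlm
    rw [hw i₀ l hl hlm]
    have := w_const hmpos (hS l hl hlm) (u i₀) 1 (hu0 i₀) (fun k hk hkm => hu₀ k hk hkm)
    simpa using this
  have hw1 : ∀ l, 0 < l → l < m → w i₁ l = δ := by
    intro l hl hlm
    rw [hw i₁ l hl hlm]
    exact w_const hmpos (hS l hl hlm) (u i₁) δ (hu0 i₁) (fun k hk hkm => hu₁ k hk hkm)
  -- the constants
  obtain ⟨c, hc⟩ : ∃ c : ℕ → ℂ, ∀ k, c k = 4 * (2 * (-1) ^ k + ζ ^ k + ζ ^ (m - k)) / D :=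
    ⟨_, fun _ => rfl⟩
  -- the summand for i ∈ Y
  have hT : ∀ i ∈ Y, w i h ^ 2 * (w i h + w i 1) / (d i : ℂ) =
      ∑ k ∈ Ico 1 h, ((u i k * u i k : ℤ) : ℂ) * c k := by
    intro i hi
    by_cases hcase : ∃ k ∈ Ico 1 h, u i k ≠ 0
    · obtain ⟨k, hk, hne⟩ := hcase
      have hk' := mem_Ico.mp hk
      have hk0 : 0 < k := by omega
      have hkm : k < m := by omega
      have hkh : k ≠ h := by omega
      have hss := (hsupp i hi k hk0 hkm hkh hne).1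
      have hv : ∀ k', k' < m →
          u i k' = u i k * ((if k = k' then 1 else 0) + (if k + k' = m then 1 else 0)) := by
        intro k' hk'm
        rcases Nat.eq_zero_or_pos k' with rfl | hk'0
        · rw [hu0 i, if_neg (by omega), if_neg (by omega)]; ring
        · rw [← hrow i hi k hk0 hkm hkh hne k' hk'0 hk'm, ← mul_assoc, hss, one_mul]
      have hwl : ∀ l, 0 < l → l < m →
          w i l = (u i k : ℂ) * (ζ ^ (k * l) + ζ ^ ((m - k) * l)) := by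
        intro l hl hlm
        rw [hw i l hl hlm]
        exact w_pair l k hk0 hkm (u i) (u i k) hv
      have hssC : (u i k : ℂ) * (u i k : ℂ) = 1 := by exact_mod_cast hss
      have hdC : (u i k : ℂ) * (d i : ℂ) = D := by
        rw [hDdef]
        have := hdeg i hi k hk0 hkm hkh hne
        exact_mod_cast this
      have hdi : (d i : ℂ) = (u i k : ℂ) * D := by
        rw [← hdC, ← mul_assoc, hssC, one_mul]
      have hune : (u i k : ℂ) ≠ 0 := by exact_mod_cast hne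
      -- RHS
      have hR : ∑ k' ∈ Ico 1 h, ((u i k' * u i k' : ℤ) : ℂ) * c k' = c k := by
        rw [sum_eq_single_of_mem k hk]
        · rw [hss]; simp
        · intro k' hk'2 hne'
          have hk'3 := mem_Ico.mp hk'2
          rw [hv k' (by omega), if_neg (fun e => hne' e.symm), if_neg (by omega)]
          simp
      rw [hR, hc k, hwl h (by omega) hhm, hwl 1 (by omega) h1m, hdi]
      have e1 : ζ ^ (k * h) = (-1) ^ k := by rw [mul_comm, pow_mul, hζh]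
      have e2 : ζ ^ ((m - k) * h) = (-1) ^ k := by
        rw [mul_comm, pow_mul, hζh]
        have : m - k = k + 2 * (h - k) := by omega
        rw [this, pow_add, pow_mul]; norm_num
      rw [e1, e2, mul_one, mul_one]
      have e3 : ((-1 : ℂ) ^ k) ^ 2 = 1 := by rw [← pow_mul, mul_comm, pow_mul]; norm_num
      exact alg_case1 _ _ _ _ _ hssC e3 hune
    · push Not at hcase
      have hz : ∀ k, 0 < k → k < m → k ≠ h → u i k = 0 := by
        intro k hk hkm hkh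
        by_cases hlt : k < h
        · exact hcase k (mem_Ico.mpr ⟨hk, hlt⟩)
        · by_contra hne
          have h1 := hrow i hi k hk hkm hkh hne (m - k) (by omega) (by omega)
          rw [if_neg (by omega), if_pos (by omega), hcase (m - k) (mem_Ico.mpr ⟨by omega, by omega⟩)]
            at h1
          norm_num at h1
      have hwl : ∀ l, 0 < l → l < m → w i l = (u i h : ℂ) * ζ ^ (h * l) := by
        intro l hl hlm
        rw [hw i l hl hlm]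
        apply sum_eq_single_of_mem h (mem_range.mpr hhm)
        intro k hk hkh
        rcases Nat.eq_zero_or_pos k with rfl | hk0
        · rw [hu0 i]; simp
        · rw [hz k hk0 (mem_range.mp hk) hkh]; simp
      have hR : ∑ k ∈ Ico 1 h, ((u i k * u i k : ℤ) : ℂ) * c k = 0 := by
        apply sum_eq_zero
        intro k hk
        rw [hcase k hk]; simp
      rw [hR, hwl h (by omega) hhm, hwl 1 (by omega) h1m]
      have e1 : ζ ^ (h * h) = 1 := by rw [pow_mul, hζh, hhe.neg_one_pow]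
      rw [e1, Nat.mul_one, hζh]
      ring
  -- assemble
  rw [sum_split_two i₀ i₁ h01, ← hY, sum_congr rfl hT, sum_comm]
  have hinner : ∀ k ∈ Ico 1 h, ∑ i ∈ Y, ((u i k * u i k : ℤ) : ℂ) * c k = c k := by
    intro k hk
    have hk' := mem_Ico.mp hk
    rw [← sum_mul, ← Int.cast_sum, hsq k (by omega) (by omega) (by omega)]
    simp
  rw [sum_congr rfl hinner]
  have hcsum : ∑ k ∈ Ico 1 h, c k = -8 / D := by
    have h1 : ∀ k ∈ Ico 1 h, c k = 4 / D * (2 * (-1) ^ k + ζ ^ k + ζ ^ (m - k)) := by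
      intro k _
      rw [hc k]; ring
    rw [sum_congr rfl h1, ← mul_sum, sum_add_distrib, sum_add_distrib, ← mul_sum,
      sum_neg_one_pow_Ico (by omega) hhe, sum_reflect_root hm hζh]
    ring
  rw [hcsum, hw0 h (by omega) hhm, hw0 1 (by omega) h1m, hw1 h (by omega) hhm,
    hw1 1 (by omega) h1m, hd0]
  have hδC : (δ : ℂ) * (δ : ℂ) = 1 := by exact_mod_cast hδ2
  have hd1 : (d i₁ : ℂ) ≠ 0 := by exact_mod_cast (hd i₁).ne'
  field_simp
  linear_combination (2 * (δ : ℂ) * D) * hδC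

/-- S4482-FLB: the integer lattice argument and the evaluation of the block sum. -/
theorem lattice_eval (n : ℕ) (hn : 3 ≤ n) (ζ : ℂ) (hζ : IsPrimitiveRoot ζ (2 ^ (n - 1)))
    {ι : Type*} [Fintype ι] (d : ι → ℕ) (hd : ∀ i, 0 < d i) (u : ι → ℕ → ℤ) (w : ι → ℕ → ℂ)
    (hG : ∀ k k' : ℕ, 0 < k → k < 2 ^ (n - 1) → 0 < k' → k' < 2 ^ (n - 1) →
      ∑ i, u i k * u i k' =
        2 + (if k = k' then 1 else 0) + (if k + k' = 2 ^ (n - 1) then 1 else 0))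
    (hD : ∀ k : ℕ, 0 < k → k < 2 ^ (n - 1) → ∑ i, u i k * (d i : ℤ) = 0)
    (hu0 : ∀ i, u i 0 = 0)
    (hw : ∀ i (l : ℕ), 0 < l → l < 2 ^ (n - 1) →
      w i l = ∑ k ∈ Finset.range (2 ^ (n - 1)), (u i k : ℂ) * ζ ^ (k * l))
    (i₀ i₁ : ι) (h01 : i₀ ≠ i₁) (hd0 : d i₀ = 1)
    (hu₀ : ∀ k : ℕ, 0 < k → k < 2 ^ (n - 1) → u i₀ k = -1) (δ : ℤ) (hδ : δ = 1 ∨ δ = -1)
    (hu₁ : ∀ k : ℕ, 0 < k → k < 2 ^ (n - 1) → u i₁ k = -δ) :
    (1 : ℤ) + δ * (d i₁ : ℤ) ≠ 0 ∧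
      ∑ i, w i (2 ^ (n - 2)) ^ 2 * (w i (2 ^ (n - 2)) + w i 1) / (d i : ℂ) =
        2 + 2 * (δ : ℂ) / (d i₁ : ℂ) - 8 / (1 + (δ : ℂ) * (d i₁ : ℂ)) := by
  obtain ⟨t, rfl⟩ : ∃ t, n = t + 3 := ⟨n - 3, by omega⟩
  have hm : 2 ^ (t + 3 - 1) = 2 * 2 ^ (t + 3 - 2) := by
    have : t + 3 - 1 = (t + 3 - 2) + 1 := by omega
    rw [this, pow_succ]; ring
  have hh : 2 ≤ 2 ^ (t + 3 - 2) := by
    have : t + 3 - 2 = t + 1 := by omega
    rw [this, pow_succ]
    have : 1 ≤ 2 ^ t := Nat.one_le_two_pow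
    omega
  have hhe : Even (2 ^ (t + 3 - 2)) := by
    have : t + 3 - 2 = t + 1 := by omega
    rw [this, pow_succ]
    exact even_two.mul_left _
  exact lattice_eval_aux (2 ^ (t + 3 - 1)) (2 ^ (t + 3 - 2)) hm hh hhe ζ hζ d hd u w hG hD hu0 hw
    i₀ i₁ h01 hd0 hu₀ δ hδ hu₁

end Cfsg.Agent.H18.Dih

section check
open Cfsg.Agent.H18.Dih in
example (n : ℕ) (hn : 3 ≤ n) (ζ : ℂ) (hζ : IsPrimitiveRoot ζ (2 ^ (n - 1)))
    {ι : Type*} [Fintype ι] (d : ι → ℕ) (hd : ∀ i, 0 < d i) (u : ι → ℕ → ℤ) (w : ι → ℕ → ℂ)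
    (hG : ∀ k k' : ℕ, 0 < k → k < 2 ^ (n - 1) → 0 < k' → k' < 2 ^ (n - 1) →
      ∑ i, u i k * u i k' =
        2 + (if k = k' then 1 else 0) + (if k + k' = 2 ^ (n - 1) then 1 else 0))
    (hD : ∀ k : ℕ, 0 < k → k < 2 ^ (n - 1) → ∑ i, u i k * (d i : ℤ) = 0)
    (hu0 : ∀ i, u i 0 = 0)
    (hw : ∀ i (l : ℕ), 0 < l → l < 2 ^ (n - 1) →
      w i l = ∑ k ∈ Finset.range (2 ^ (n - 1)), (u i k : ℂ) * ζ ^ (k * l))
    (i₀ i₁ : ι) (h01 : i₀ ≠ i₁) (hd0 : d i₀ = 1)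
    (hu₀ : ∀ k : ℕ, 0 < k → k < 2 ^ (n - 1) → u i₀ k = -1) (δ : ℤ) (hδ : δ = 1 ∨ δ = -1)
    (hu₁ : ∀ k : ℕ, 0 < k → k < 2 ^ (n - 1) → u i₁ k = -δ) :
    (1 : ℤ) + δ * (d i₁ : ℤ) ≠ 0 ∧
      ∑ i, w i (2 ^ (n - 2)) ^ 2 * (w i (2 ^ (n - 2)) + w i 1) / (d i : ℂ) =
        2 + 2 * (δ : ℂ) / (d i₁ : ℂ) - 8 / (1 + (δ : ℂ) * (d i₁ : ℂ)) :=
  lattice_eval n hn ζ hζ d hd u w hG hD hu0 hw i₀ i₁ h01 hd0 hu₀ δ hδ hu₁
end check
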