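import Mathlib
import Cfsg.Agent.H18.DihFLB

set_option autoImplicit false

namespace Cfsg.Agent.H18.Dih

open Finset

theorem geom_ite {x : ℂ} {m : ℕ} (hx : x ^ m = 1) :
    ∑ k ∈ range m, x ^ k = if x = 1 then (m : ℂ) else 0 := by
  split_ifs with h
  · subst h; simp
  · exact geom_zero hx h

/-- S4482-FLA: Fourier inversion and the Gram matrix. -/
theorem fourier_gram (m : ℕ) (hm : 0 < m) (ζ : ℂ) (hζ : IsPrimitiveRoot ζ m)
    {ι : Type*} [Fintype ι] (d : ι → ℕ) (a : ι → ℕ → ℕ) (w : ι → ℕ → ℂ)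
    (hw : ∀ i l, w i l = ∑ k ∈ Finset.range m, (a i k : ℂ) * ζ ^ (k * l))
    (hw0 : ∀ i, w i 0 = d i)
    (F1 : ∀ l l' : ℕ, 0 < l → l < m → 0 < l' → l' < m →
      ∑ i, w i l' * w i l =
        m * ((if l' = l then (1 : ℂ) else 0) + (if l' + l = m then (1 : ℂ) else 0)))
    (F2 : ∀ l : ℕ, 0 < l → l < m → ∑ i, (d i : ℂ) * w i l = 0) :
    (∀ k k' : ℕ, 0 < k → k < m → 0 < k' → k' < m →
      ∑ i, ((a i k : ℤ) - a i 0) * ((a i k' : ℤ) - a i 0) =
        2 + (if k = k' then 1 else 0) + (if k + k' = m then 1 else 0)) ∧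
    (∀ k : ℕ, 0 < k → k < m → ∑ i, ((a i k : ℤ) - a i 0) * (d i : ℤ) = 0) ∧
    (∀ i (l : ℕ), 0 < l → l < m →
      w i l = ∑ k ∈ Finset.range m, (((a i k : ℤ) - a i 0 : ℤ) : ℂ) * ζ ^ (k * l)) ∧
    (∀ i (k : ℕ), k < m →
      (m : ℂ) * (a i k : ℂ) = ∑ l ∈ Finset.range m, w i l * (ζ ^ (k * l))⁻¹) := by
  classical
  have hζm : ζ ^ m = 1 := hζ.pow_eq_one
  have hζ0 : ζ ≠ 0 := hζ.ne_zero hm.ne'
  have hmC : (m : ℂ) ≠ 0 := by exact_mod_cast hm.ne'
  have hpm : ∀ j : ℕ, (ζ ^ j) ^ m = 1 := fun j => by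
    rw [← pow_mul, mul_comm, pow_mul, hζm, one_pow]
  have hne1 : ∀ j, 0 < j → j < m → ζ ^ j ≠ 1 := fun j h0 h1 =>
    hζ.pow_ne_one_of_pos_of_lt h0.ne' h1
  -- (4) Fourier inversion
  have h4 : ∀ i (k : ℕ), k < m →
      (m : ℂ) * (a i k : ℂ) = ∑ l ∈ range m, w i l * (ζ ^ (k * l))⁻¹ := by
    intro i k hk
    have h1 : ∀ l ∈ range m, w i l * (ζ ^ (k * l))⁻¹ =
        ∑ k' ∈ range m, (a i k' : ℂ) * (ζ ^ k' * (ζ ^ k)⁻¹) ^ l := by
      intro l _
      rw [hw i l, sum_mul]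
      apply sum_congr rfl
      intro k' _
      rw [mul_pow, inv_pow, ← pow_mul, ← pow_mul]; ring
    rw [sum_congr rfl h1, sum_comm]
    have h2 : ∀ k' ∈ range m, ∑ l ∈ range m, (a i k' : ℂ) * (ζ ^ k' * (ζ ^ k)⁻¹) ^ l =
        if k' = k then (m : ℂ) * (a i k : ℂ) else 0 := by
      intro k' hk'
      rw [← mul_sum, geom_ite (by rw [mul_pow, inv_pow, hpm, hpm]; simp)]
      by_cases hkk : k' = k
      · subst hkk
        rw [if_pos (mul_inv_cancel₀ (pow_ne_zero _ hζ0)), if_pos rfl]; ring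
      · rw [if_neg, if_neg hkk, mul_zero]
        intro h
        apply hkk
        have : ζ ^ k' = ζ ^ k := by
          have h' := congrArg (· * ζ ^ k) h
          simpa [mul_assoc, inv_mul_cancel₀ (pow_ne_zero k hζ0)] using h'
        exact hζ.pow_inj (mem_range.mp hk') hk this
    rw [sum_congr rfl h2, sum_ite_eq', if_pos (mem_range.mpr hk)]
  -- the coefficients c k l = ζ^(-kl) - 1
  obtain ⟨c, hc⟩ : ∃ c : ℕ → ℕ → ℂ, ∀ k l, c k l = (ζ ^ (k * l))⁻¹ - 1 := ⟨_, fun _ _ => rfl⟩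
  have hc0 : ∀ k, c k 0 = 0 := fun k => by rw [hc]; simp
  have hcm : ∀ k l, l ≤ m → c k (m - l) = ζ ^ (k * l) - 1 := by
    intro k l hl
    rw [hc]
    congr 1
    apply inv_eq_of_mul_eq_one_right
    rw [← pow_add, ← mul_add, Nat.sub_add_cancel hl, mul_comm, pow_mul, hζm, one_pow]
  -- (★)
  have hstar : ∀ i (k : ℕ), k < m →
      (m : ℂ) * ((a i k : ℂ) - (a i 0 : ℂ)) = ∑ l ∈ range m, w i l * c k l := by
    intro i k hk
    rw [mul_sub, h4 i k hk, h4 i 0 hm, ← sum_sub_distrib]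
    apply sum_congr rfl
    intro l _
    rw [hc]; simp; ring
  -- vanishing of geometric sums
  have hS : ∀ l, 0 < l → l < m → ∑ k ∈ range m, ζ ^ (k * l) = 0 := by
    intro l hl hlm
    have h1 : ∀ k ∈ range m, ζ ^ (k * l) = (ζ ^ l) ^ k := fun k _ => pow_mul' ζ k l
    rw [sum_congr rfl h1]
    exact geom_zero (hpm l) (hne1 l hl hlm)
  -- (3)
  have h3 : ∀ i (l : ℕ), 0 < l → l < m →
      w i l = ∑ k ∈ range m, (((a i k : ℤ) - a i 0 : ℤ) : ℂ) * ζ ^ (k * l) := by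
    intro i l hl hlm
    have h1 : ∀ k ∈ range m, (((a i k : ℤ) - a i 0 : ℤ) : ℂ) * ζ ^ (k * l) =
        (a i k : ℂ) * ζ ^ (k * l) - (a i 0 : ℂ) * ζ ^ (k * l) := by
      intro k _
      push_cast; ring
    rw [sum_congr rfl h1, sum_sub_distrib, ← mul_sum, hS l hl hlm, mul_zero, sub_zero, hw i l]
  -- (2) over ℂ
  have h2C : ∀ k : ℕ, 0 < k → k < m →
      ∑ i, ((a i k : ℂ) - (a i 0 : ℂ)) * (d i : ℂ) = 0 := by
    intro k hk hkm
    have h1 : (m : ℂ) * ∑ i, ((a i k : ℂ) - (a i 0 : ℂ)) * (d i : ℂ) = 0 := by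
      rw [mul_sum]
      have e1 : ∀ i ∈ (univ : Finset ι), (m : ℂ) * (((a i k : ℂ) - (a i 0 : ℂ)) * (d i : ℂ)) =
          ∑ l ∈ range m, c k l * ((d i : ℂ) * w i l) := by
        intro i _
        rw [← mul_assoc, hstar i k hkm, sum_mul]
        apply sum_congr rfl
        intro l _
        ring
      rw [sum_congr rfl e1, sum_comm]
      apply sum_eq_zero
      intro l hl
      rw [← mul_sum]
      rcases Nat.eq_zero_or_pos l with rfl | hl0
      · rw [hc0, zero_mul]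
      · rw [F2 l hl0 (mem_range.mp hl), mul_zero]
    rcases mul_eq_zero.mp h1 with h | h
    · exact absurd h hmC
    · exact h
  -- the key exponential sum
  have hkey : ∀ k k' : ℕ, 0 < k → k < m → 0 < k' → k' < m →
      ∑ l ∈ range m, c k l * (c k' l + (ζ ^ (k' * l) - 1)) =
        (m : ℂ) * (2 + (if k = k' then 1 else 0) + (if k + k' = m then 1 else 0)) := by
    intro k k' hk hkm hk' hk'm
    have e1 : ∀ l ∈ range m, c k l * (c k' l + (ζ ^ (k' * l) - 1)) =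
        ((ζ ^ k)⁻¹ * (ζ ^ k')⁻¹) ^ l + ((ζ ^ k)⁻¹ * ζ ^ k') ^ l - 2 * ((ζ ^ k)⁻¹) ^ l
          - ((ζ ^ k')⁻¹) ^ l - (ζ ^ k') ^ l + 2 := by
      intro l _
      rw [hc, hc, mul_pow, mul_pow, inv_pow, inv_pow, ← pow_mul, ← pow_mul]
      ring
    rw [sum_congr rfl e1]
    simp only [sum_add_distrib, sum_sub_distrib, ← mul_sum]
    have hk1 : (ζ ^ k)⁻¹ ≠ 1 := fun h => hne1 k hk hkm (inv_eq_one.mp h)
    have hk'1 : (ζ ^ k')⁻¹ ≠ 1 := fun h => hne1 k' hk' hk'm (inv_eq_one.mp h)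
    rw [geom_ite (x := (ζ ^ k)⁻¹ * (ζ ^ k')⁻¹) (by rw [mul_pow, inv_pow, inv_pow, hpm, hpm]; simp),
      geom_ite (x := (ζ ^ k)⁻¹ * ζ ^ k') (by rw [mul_pow, inv_pow, hpm, hpm]; simp),
      geom_zero (by rw [inv_pow, hpm]; simp) hk1,
      geom_zero (by rw [inv_pow, hpm]; simp) hk'1,
      geom_zero (hpm k') (hne1 k' hk' hk'm)]
    have c1 : ((ζ ^ k)⁻¹ * (ζ ^ k')⁻¹ = 1) ↔ k + k' = m := by
      rw [← mul_inv, inv_eq_one, ← pow_add, hζ.pow_eq_one_iff_dvd]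
      constructor
      · intro h
        exact Nat.eq_of_dvd_of_lt_two_mul (by omega) h (by omega)
      · intro h; rw [h]
    have c2 : ((ζ ^ k)⁻¹ * ζ ^ k' = 1) ↔ k = k' := by
      constructor
      · intro h
        have : ζ ^ k' = ζ ^ k := by
          have h' := congrArg (ζ ^ k * ·) h
          simpa [← mul_assoc, mul_inv_cancel₀ (pow_ne_zero k hζ0)] using h'
        exact (hζ.pow_inj hk'm hkm this).symm
      · intro h; rw [h, inv_mul_cancel₀ (pow_ne_zero _ hζ0)]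
    simp only [c1, c2]
    simp
    split_ifs <;> ring
  -- (1) over ℂ
  have h1C : ∀ k k' : ℕ, 0 < k → k < m → 0 < k' → k' < m →
      ∑ i, ((a i k : ℂ) - (a i 0 : ℂ)) * ((a i k' : ℂ) - (a i 0 : ℂ)) =
        2 + (if k = k' then 1 else 0) + (if k + k' = m then 1 else 0) := by
    intro k k' hk hkm hk' hk'm
    have hmain : (m : ℂ) * (m : ℂ) *
        ∑ i, ((a i k : ℂ) - (a i 0 : ℂ)) * ((a i k' : ℂ) - (a i 0 : ℂ)) =
        (m : ℂ) * ((m : ℂ) * (2 + (if k = k' then 1 else 0) + (if k + k' = m then 1 else 0))) := by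
      rw [mul_sum]
      have e1 : ∀ i ∈ (univ : Finset ι), (m : ℂ) * (m : ℂ) *
          (((a i k : ℂ) - (a i 0 : ℂ)) * ((a i k' : ℂ) - (a i 0 : ℂ))) =
          ∑ l ∈ range m, ∑ l' ∈ range m, c k l * c k' l' * (w i l' * w i l) := by
        intro i _
        have : (m : ℂ) * (m : ℂ) *
            (((a i k : ℂ) - (a i 0 : ℂ)) * ((a i k' : ℂ) - (a i 0 : ℂ))) =
            ((m : ℂ) * ((a i k : ℂ) - (a i 0 : ℂ))) * ((m : ℂ) * ((a i k' : ℂ) - (a i 0 : ℂ))) := by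
          ring
        rw [this, hstar i k hkm, hstar i k' hk'm, sum_mul_sum]
        apply sum_congr rfl
        intro l _
        apply sum_congr rfl
        intro l' _
        ring
      rw [sum_congr rfl e1, sum_comm]
      have e2 : ∀ l ∈ range m, ∑ i, ∑ l' ∈ range m, c k l * c k' l' * (w i l' * w i l) =
          (m : ℂ) * (c k l * (c k' l + (ζ ^ (k' * l) - 1))) := by
        intro l hl
        have hlm := mem_range.mp hl
        rcases Nat.eq_zero_or_pos l with rfl | hl0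
        · simp [hc0]
        rw [sum_comm]
        have e3 : ∀ l' ∈ range m, ∑ i, c k l * c k' l' * (w i l' * w i l) =
            (if l' = l then (m : ℂ) * (c k l * c k' l') else 0) +
              (if l' = m - l then (m : ℂ) * (c k l * c k' l') else 0) := by
          intro l' hl'
          have hl'm := mem_range.mp hl'
          rw [← mul_sum]
          rcases Nat.eq_zero_or_pos l' with rfl | hl'0
          · rw [hc0, if_neg (by omega), if_neg (by omega)]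
            simp
          rw [F1 l l' hl0 hlm hl'0 hl'm]
          have q : (l' + l = m) ↔ (l' = m - l) := by omega
          simp only [q]
          split_ifs <;> ring
        rw [sum_congr rfl e3, sum_add_distrib, sum_ite_eq', sum_ite_eq', if_pos hl,
          if_pos (mem_range.mpr (by omega))]
        rw [hcm k' l hlm.le]
        ring
      rw [sum_congr rfl e2, ← mul_sum, hkey k k' hk hkm hk' hk'm]
    have hmm : (m : ℂ) * (m : ℂ) ≠ 0 := mul_ne_zero hmC hmC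
    apply mul_left_cancel₀ hmm
    rw [hmain]; ring
  refine ⟨?_, ?_, h3, h4⟩
  · intro k k' hk hkm hk' hk'm
    have := h1C k k' hk hkm hk' hk'm
    have h' : ((∑ i, ((a i k : ℤ) - a i 0) * ((a i k' : ℤ) - a i 0) : ℤ) : ℂ) =
        ((2 + (if k = k' then 1 else 0) + (if k + k' = m then 1 else 0) : ℤ) : ℂ) := by
      push_cast
      exact this
    exact_mod_cast h'
  · intro k hk hkm
    have := h2C k hk hkm
    have h' : ((∑ i, ((a i k : ℤ) - a i 0) * (d i : ℤ) : ℤ) : ℂ) = ((0 : ℤ) : ℂ) := by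
      push_cast
      exact this
    exact_mod_cast h'

end Cfsg.Agent.H18.Dih

section check
open Cfsg.Agent.H18.Dih in
example (m : ℕ) (hm : 0 < m) (ζ : ℂ) (hζ : IsPrimitiveRoot ζ m)
    {ι : Type*} [Fintype ι] (d : ι → ℕ) (a : ι → ℕ → ℕ) (w : ι → ℕ → ℂ)
    (hw : ∀ i l, w i l = ∑ k ∈ Finset.range m, (a i k : ℂ) * ζ ^ (k * l))
    (hw0 : ∀ i, w i 0 = d i)
    (F1 : ∀ l l' : ℕ, 0 < l → l < m → 0 < l' → l' < m →
      ∑ i, w i l' * w i l =
        m * ((if l' = l then (1 : ℂ) else 0) + (if l' + l = m then (1 : ℂ) else 0)))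
    (F2 : ∀ l : ℕ, 0 < l → l < m → ∑ i, (d i : ℂ) * w i l = 0) :
    (∀ k k' : ℕ, 0 < k → k < m → 0 < k' → k' < m →
      ∑ i, ((a i k : ℤ) - a i 0) * ((a i k' : ℤ) - a i 0) =
        2 + (if k = k' then 1 else 0) + (if k + k' = m then 1 else 0)) ∧
    (∀ k : ℕ, 0 < k → k < m → ∑ i, ((a i k : ℤ) - a i 0) * (d i : ℤ) = 0) ∧
    (∀ i (l : ℕ), 0 < l → l < m →
      w i l = ∑ k ∈ Finset.range m, (((a i k : ℤ) - a i 0 : ℤ) : ℂ) * ζ ^ (k * l)) ∧
    (∀ i (k : ℕ), k < m →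
      (m : ℂ) * (a i k : ℂ) = ∑ l ∈ Finset.range m, w i l * (ζ ^ (k * l))⁻¹) :=
  fourier_gram m hm ζ hζ d a w hw hw0 F1 F2
end check
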