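import Mathlib
import Cfsg.Agent.H49.Disc
import Cfsg.Agent.H49.StdBasis

set_option autoImplicit false
set_option linter.unusedSectionVars false

/-! helper18: Gram-determinant ("discriminant") criterion for the type of an even-dimensional
symmetric bilinear form over a finite field of odd characteristic. -/

namespace Cfsg.Agent.H18

open Matrix

section Gram
variable {F V : Type*} [Field F] [AddCommGroup V] [Module F V]

/-- Gram determinants in two bases differ by a non-zero square. -/
theorem gram_det_change {ι κ : Type*} [Fintype ι] [DecidableEq ι] [Fintype κ] [DecidableEq κ]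
    (B : LinearMap.BilinForm F V) (b : Module.Basis ι F V) (c : Module.Basis κ F V) :
    ∃ d : F, d ≠ 0 ∧ (LinearMap.BilinForm.toMatrix c B).det =
      d ^ 2 * (LinearMap.BilinForm.toMatrix b B).det := by
  classical
  let e : κ ≃ ι := c.indexEquiv b
  let c' : Module.Basis ι F V := c.reindex e
  have h1 := LinearMap.BilinForm.toMatrix_mul_basis_toMatrix b c' B
  have hinv : Invertible (b.toMatrix c') := b.invertibleToMatrix c'
  have h2 : (LinearMap.BilinForm.toMatrix c' B) =
      (LinearMap.BilinForm.toMatrix c B).submatrix e.symm e.symm := by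
    ext i j
    simp [LinearMap.BilinForm.toMatrix_apply, c']
  refine ⟨(b.toMatrix c').det, (Matrix.isUnit_det_of_invertible _).ne_zero, ?_⟩
  rw [← Matrix.det_submatrix_equiv_self e.symm (LinearMap.BilinForm.toMatrix c B), ← h2, ← h1,
    Matrix.det_mul, Matrix.det_mul, Matrix.det_transpose]
  ring

theorem det_antiBlock (M : ℕ) (P R S : Matrix (Fin M) (Fin M) F) :
    (Matrix.fromBlocks 0 P R S).det = (-1) ^ M * (P.det * R.det) := by
  have : Matrix.fromBlocks 0 P R S =
      Matrix.fromBlocks P 0 S R * Cfsg.Agent.H49.hypGram M F := by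
    rw [Cfsg.Agent.H49.hypGram, Matrix.fromBlocks_multiply]
    simp
  rw [this, Matrix.det_mul, Matrix.det_fromBlocks_zero₁₂, Cfsg.Agent.H49.det_hypGram]
  ring

/-- A totally isotropic subspace of half the dimension forces `(-1)^M · disc` to be a square. -/
theorem isSquare_of_ti [FiniteDimensional F V] (B : LinearMap.BilinForm F V) (hS : B.IsSymm)
    (M : ℕ) (hV : Module.finrank F V = 2 * M) (X : Submodule F V)
    (hX : Module.finrank F X = M) (hti : ∀ x ∈ X, ∀ y ∈ X, B x y = 0)
    {ι : Type*} [Fintype ι] [DecidableEq ι] (b : Module.Basis ι F V) :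
    IsSquare ((-1) ^ M * (LinearMap.BilinForm.toMatrix b B).det) := by
  obtain ⟨X', hc⟩ := Submodule.exists_isCompl X
  have hX' : Module.finrank F X' = M := by
    have := Submodule.finrank_add_eq_of_isCompl hc
    omega
  let bX := Module.finBasisOfFinrankEq F X hX
  let bX' := Module.finBasisOfFinrankEq F X' hX'
  let a : Module.Basis (Fin M ⊕ Fin M) F V :=
    (bX.prod bX').map (Submodule.prodEquivOfIsCompl X X' hc)
  have ha1 : ∀ i, a (Sum.inl i) = (bX i : V) := by
    intro i
    simp [a]
  have ha2 : ∀ i, a (Sum.inr i) = (bX' i : V) := by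
    intro i
    simp [a]
  have hG : LinearMap.BilinForm.toMatrix a B =
      Matrix.fromBlocks 0 (Matrix.of fun i j => B (bX i) (bX' j))
        (Matrix.of fun i j => B (bX' i) (bX j)) (Matrix.of fun i j => B (bX' i) (bX' j)) := by
    ext (i | i) (j | j) <;>
      simp [LinearMap.BilinForm.toMatrix_apply, ha1, ha2, hti _ (bX i).2 _ (bX j).2]
  have hT : (Matrix.of fun i j => B (bX' i) (bX j) : Matrix (Fin M) (Fin M) F) =
      (Matrix.of fun i j => B (bX i) (bX' j) : Matrix (Fin M) (Fin M) F).transpose := by
    ext i j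
    simp only [Matrix.of_apply, Matrix.transpose_apply]
    exact (hS.eq _ _).symm ▸ rfl
  obtain ⟨d, hd, hdet⟩ := gram_det_change B a b
  rw [hdet, hG, det_antiBlock, hT, Matrix.det_transpose]
  have h1 : ((-1 : F) ^ M) * ((-1) ^ M) = 1 := by
    rw [← mul_pow]; simp
  exact ⟨d * (Matrix.of fun i j => B (bX i) (bX' j) : Matrix (Fin M) (Fin M) F).det, by
    linear_combination (d ^ 2 *
      (Matrix.of fun i j => B (bX i) (bX' j) : Matrix (Fin M) (Fin M) F).det ^ 2) * h1⟩

theorem span_ti (B : LinearMap.BilinForm F V) (s : Set V)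
    (h : ∀ a ∈ s, ∀ b ∈ s, B a b = 0) :
    ∀ u ∈ Submodule.span F s, ∀ v ∈ Submodule.span F s, B u v = 0 := by
  intro u hu v hv
  induction hu using Submodule.span_induction with
  | mem a ha =>
    induction hv using Submodule.span_induction with
    | mem b hb => exact h a ha b hb
    | zero => simp
    | add p q _ _ hp hq => rw [map_add, hp, hq, add_zero]
    | smul c p _ hp => rw [map_smul, hp, smul_zero]
  | zero => simp
  | add p q _ _ hp hq => rw [map_add, LinearMap.add_apply, hp, hq, add_zero]
  | smul c p _ hp => rw [map_smul, LinearMap.smul_apply, hp, smul_zero]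

/-- Dichotomy: either there is a totally isotropic subspace of half the dimension, or
`(-1)^M · disc` is a non-square. -/
theorem ti_or_nonsquare [Finite F] [FiniteDimensional F V] (h2 : (2 : F) ≠ 0)
    (B : LinearMap.BilinForm F V) (hB : B.Nondegenerate) (hS : B.IsSymm)
    (M : ℕ) (hV : Module.finrank F V = 2 * M)
    {ι : Type*} [Fintype ι] [DecidableEq ι] (b : Module.Basis ι F V) :
    (∃ X : Submodule F V, Module.finrank F X = M ∧ ∀ x ∈ X, ∀ y ∈ X, B x y = 0) ∨
      ¬ IsSquare ((-1) ^ M * (LinearMap.BilinForm.toMatrix b B).det) := by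
  classical
  have hsymm : ∀ x y, B x y = B y x := fun x y => by simpa using hS.eq x y
  set Q : QuadraticForm F V := LinearMap.BilinMap.toQuadraticMap B with hQdef
  have hpol : ∀ x y, QuadraticMap.polar Q x y = 2 * B x y := by
    intro x y
    rw [hQdef, LinearMap.BilinMap.polar_toQuadraticMap, hsymm y x]
    ring
  have hQnd : (QuadraticMap.polarBilin Q).Nondegenerate := by
    constructor
    · intro x hx
      apply hB.1 x
      intro y
      have := hx y
      rw [QuadraticMap.polarBilin_apply_apply, hpol] at this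
      exact (mul_eq_zero.mp this).resolve_left h2
    · intro y hy
      apply hB.2 y
      intro x
      have := hy x
      rw [QuadraticMap.polarBilin_apply_apply, hpol] at this
      exact (mul_eq_zero.mp this).resolve_left h2
  have hB0 : ∀ x y, QuadraticMap.polar Q x y = 0 → B x y = 0 := by
    intro x y h
    rw [hpol] at h
    exact (mul_eq_zero.mp h).resolve_left h2
  rcases Cfsg.Agent.H49.even_standard_basis hV Q hQnd with
    ⟨bh, -, -, hzero⟩ | ⟨be, ζ, hirr, -, hpair, hzero, hcross, hx, hxy, hy⟩
  · left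
    refine ⟨Submodule.span F (Set.range (bh ∘ Sum.inl)), ?_, ?_⟩
    · rw [finrank_span_eq_card (bh.linearIndependent.comp _ Sum.inl_injective), Fintype.card_fin]
    · apply span_ti
      rintro _ ⟨i, rfl⟩ _ ⟨j, rfl⟩
      exact hB0 _ _ (hzero i j).1
  · right
    have hcard : 2 * M = (M - 1) + (M - 1) + 2 := by
      have := Module.finrank_eq_card_basis be
      rw [hV] at this
      simpa using this
    have hM : 1 ≤ M := by omega
    have hG : (2 : F) • LinearMap.BilinForm.toMatrix be B =
        Cfsg.Agent.H49.minusGram (M - 1) F 1 ζ := by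
      have hpc : ∀ x y, QuadraticMap.polar Q x y = QuadraticMap.polar Q y x :=
        fun x y => QuadraticMap.polar_comm _ _ _
      ext i j
      rw [Matrix.smul_apply, LinearMap.BilinForm.toMatrix_apply, smul_eq_mul, ← hpol]
      rcases i with (i | i) | i <;> rcases j with (j | j) | j
      · simp [Cfsg.Agent.H49.minusGram, Cfsg.Agent.H49.hypGram, (hzero i j).1]
      · simp [Cfsg.Agent.H49.minusGram, Cfsg.Agent.H49.hypGram, hpair i j, Matrix.one_apply]
      · simp [Cfsg.Agent.H49.minusGram, (hcross i j).1]
      · rw [hpc]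
        simp [Cfsg.Agent.H49.minusGram, Cfsg.Agent.H49.hypGram, hpair j i, Matrix.one_apply,
          eq_comm]
      · simp [Cfsg.Agent.H49.minusGram, Cfsg.Agent.H49.hypGram, (hzero i j).2]
      · simp [Cfsg.Agent.H49.minusGram, (hcross i j).2]
      · rw [hpc]
        simp [Cfsg.Agent.H49.minusGram, (hcross j i).1]
      · rw [hpc]
        simp [Cfsg.Agent.H49.minusGram, (hcross j i).2]
      · fin_cases i <;> fin_cases j
        · simp [Cfsg.Agent.H49.minusGram, QuadraticMap.polar_self, hx]
        · simpa [Cfsg.Agent.H49.minusGram] using hxy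
        · rw [hpc]
          simpa [Cfsg.Agent.H49.minusGram] using hxy
        · simp [Cfsg.Agent.H49.minusGram, QuadraticMap.polar_self, hy]
    have hdet : (2 : F) ^ (2 * M) * (LinearMap.BilinForm.toMatrix be B).det =
        (-1) ^ (M - 1) * (4 * ζ - 1) := by
      have := congrArg Matrix.det hG
      rw [Matrix.det_smul, Cfsg.Agent.H49.det_minusGram] at this
      rw [hcard]
      simpa using this
    obtain ⟨d, hd, hdd⟩ := gram_det_change B be b
    rintro ⟨r, hr⟩
    have hac : ∀ z₁ z₂ : F, z₁ ^ 2 + 1 * z₁ * z₂ + ζ * z₂ ^ 2 = 0 → z₁ = 0 ∧ z₂ = 0 := by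
      intro z₁ z₂ h
      by_cases hz : z₂ = 0
      · subst hz
        simp at h
        exact ⟨h, rfl⟩
      · exfalso
        apply hirr (z₁ / z₂)
        field_simp
        linear_combination h
    apply Cfsg.Agent.H49.aniso_not_isSquare h2 hac
    have hneg : ((-1 : F) ^ M) * (-1) ^ (M - 1) = -1 := by
      rw [← pow_add]
      have : M + (M - 1) = 2 * (M - 1) + 1 := by omega
      rw [this, pow_succ, pow_mul]
      simp
    refine ⟨r * 2 ^ M / d, ?_⟩
    rw [div_mul_div_comm, eq_div_iff (mul_ne_zero hd hd)]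
    rw [hdd] at hr
    have e2 : (2 : F) ^ (2 * M) = (2 ^ M) ^ 2 := by rw [← pow_mul, mul_comm]
    rw [e2] at hdet
    linear_combination ((2 : F) ^ M) ^ 2 * hr - ((-1) ^ M * d ^ 2) * hdet -
      (d ^ 2 * (4 * ζ - 1)) * hneg

end Gram

section Tensor
variable {F U W : Type*} [Field F] [AddCommGroup U] [Module F U] [AddCommGroup W] [Module F W]

open TensorProduct

theorem toMatrix_tmul {ι κ : Type*} [Fintype ι] [DecidableEq ι] [Fintype κ] [DecidableEq κ]
    (B₁ : LinearMap.BilinForm F U) (B₂ : LinearMap.BilinForm F W) (b : Module.Basis ι F U)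
    (c : Module.Basis κ F W) :
    LinearMap.BilinForm.toMatrix (b.tensorProduct c) (B₁.tmul B₂) =
      Matrix.kroneckerMap (fun x y => x * y) (LinearMap.BilinForm.toMatrix b B₁)
        (LinearMap.BilinForm.toMatrix c B₂) := by
  ext ⟨i, j⟩ ⟨i', j'⟩
  rw [LinearMap.BilinForm.toMatrix_apply, Module.Basis.tensorProduct_apply,
    Module.Basis.tensorProduct_apply, LinearMap.BilinForm.tensorDistrib_tmul,
    Matrix.kroneckerMap_apply, LinearMap.BilinForm.toMatrix_apply,
    LinearMap.BilinForm.toMatrix_apply, smul_eq_mul, mul_comm]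

theorem det_toMatrix_tmul {ι κ : Type*} [Fintype ι] [DecidableEq ι] [Fintype κ] [DecidableEq κ]
    (B₁ : LinearMap.BilinForm F U) (B₂ : LinearMap.BilinForm F W) (b : Module.Basis ι F U)
    (c : Module.Basis κ F W) :
    (LinearMap.BilinForm.toMatrix (b.tensorProduct c) (B₁.tmul B₂)).det =
      (LinearMap.BilinForm.toMatrix b B₁).det ^ Fintype.card κ *
        (LinearMap.BilinForm.toMatrix c B₂).det ^ Fintype.card ι := by
  rw [toMatrix_tmul, Matrix.det_kronecker]

end Tensor

end Cfsg.Agent.H18
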