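import Mathlib
import Cfsg.Agent.H99.EmDefs

/-!
# S5990 team project (helper99): piece EM-ARBACK (helper18)

Pure arithmetic: the right-hand side gives, for every admissible number `A` of blocks, a shape
`(j, e)` of a fixed minus-type space.
-/

set_option autoImplicit false

namespace Cfsg.Agent.H18.Em

open Cfsg.Agent.H99.Em

/-- The conclusion of EM-ARBACK. -/
def Shp (d m i c A : ℕ) : Prop :=
  ∃ j e : ℕ, j ≤ A ∧ e ≤ 2 * d - c * A ∧ Even e ∧ c * j + e = m ∧
    (e = 0 → ¬ (Odd i ∨ Even j)) ∧ (e = 2 * d - c * A → e ≠ 0 → (Odd i ∨ Even (A - j)))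

/-- EM-ARBACK. -/
theorem arBack : Cfsg.Agent.H99.Em.StArBack := by
  intro d m i c A hi hc hm hm2 hmd hd hR hcA hadm
  show Shp d m i c A
  have hc2 : 2 ≤ c := by
    rw [hc]
    split_ifs with h
    · obtain ⟨t, ht⟩ := h
      omega
    · omega
  have hceven : Even c := by
    rw [hc]
    split_ifs with h
    · exact h
    · exact ⟨i, by ring⟩
  obtain ⟨M, hMdef⟩ : ∃ M, M = m / c := ⟨_, rfl⟩
  obtain ⟨N, hNdef⟩ : ∃ N, N = (2 * d) / c := ⟨_, rfl⟩
  obtain ⟨ρm, hρm⟩ : ∃ ρ, ρ = m % c := ⟨_, rfl⟩
  obtain ⟨ρn, hρn⟩ : ∃ ρ, ρ = (2 * d) % c := ⟨_, rfl⟩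
  have e1 : c * M + ρm = m := by
    rw [hMdef, hρm]
    exact Nat.div_add_mod m c
  have e2 : c * N + ρn = 2 * d := by
    rw [hNdef, hρn]
    exact Nat.div_add_mod _ c
  have l1 : ρm < c := by
    rw [hρm]
    exact Nat.mod_lt _ (by omega)
  have l2 : ρn < c := by
    rw [hρn]
    exact Nat.mod_lt _ (by omega)
  have hAN : A ≤ N := by
    rw [hNdef]
    exact (Nat.le_div_iff_mul_le (by omega)).mpr (by rw [Nat.mul_comm]; exact hcA)
  have hMN : M ≤ N := by
    rw [hMdef, hNdef]
    exact Nat.div_le_div_right (by omega)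
  have f1 : A < M → c * A + c ≤ c * M := by
    intro h
    have h1 := Nat.mul_le_mul_left c (Nat.succ_le_of_lt h)
    rw [Nat.mul_succ] at h1
    exact h1
  have f2 : M ≤ A → c * M ≤ c * A := fun h => Nat.mul_le_mul_left c h
  have f3 : c * A ≤ c * N := Nat.mul_le_mul_left c hAN
  have f4 : A < N → c * A + c ≤ c * N := by
    intro h
    have h1 := Nat.mul_le_mul_left c (Nat.succ_le_of_lt h)
    rw [Nat.mul_succ] at h1
    exact h1
  have f5 : c * A = c * N → A = N := fun h => Nat.eq_of_mul_eq_mul_left (by omega) h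
  obtain ⟨c', hc'⟩ := hceven
  obtain ⟨m', hm'⟩ := hm
  have hcA2 : c * A = 2 * (c' * A) := by
    rw [hc']
    ring
  have hcM2 : c * M = 2 * (c' * M) := by
    rw [hc']
    ring
  -- shape `j = A`, `e = m - c A` (when `A < M`)
  have S1 : A < M → Shp d m i c A := by
    intro h
    have h1 := f1 h
    refine ⟨A, m - c * A, le_refl _, by omega, ⟨m' - c' * A, by omega⟩, by omega,
      fun h0 => ?_, fun _ _ => Or.inr ?_⟩
    · exfalso
      omega
    · rw [Nat.sub_self]
      exact ⟨0, rfl⟩
  -- shape `j = M`, `e = ρm > 0`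
  have S2 : M ≤ A → 0 < ρm → ρm ≤ 2 * d - c * A →
      (ρm = 2 * d - c * A → (Odd i ∨ Even (A - M))) → Shp d m i c A := by
    intro h h0 hle hcond
    refine ⟨M, ρm, h, hle, ⟨m' - c' * M, by omega⟩, e1, fun h1 => ?_, fun h1 _ => hcond h1⟩
    exfalso
    omega
  -- shape `j = M`, `e = 0`
  have S3 : M ≤ A → ρm = 0 → ¬ (Odd i ∨ Even M) → Shp d m i c A := by
    intro h h0 hno
    exact ⟨M, 0, h, Nat.zero_le _, ⟨0, rfl⟩, by omega, fun _ => hno,
      fun _ h1 => absurd rfl h1⟩
  -- shape `j = M - 1`, `e = c`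
  have S4 : M ≤ A → ρm = 0 → c ≤ 2 * d - c * A →
      (c = 2 * d - c * A → (Odd i ∨ Even (A - (M - 1)))) → Shp d m i c A := by
    intro h h0 hle hcond
    have hMpos : 0 < M := by
      rcases Nat.eq_zero_or_pos M with h5 | h5
      · rw [h5, Nat.mul_zero] at e1
        omega
      · exact h5
    have hM1 : c * (M - 1) + c = c * M := by
      have h5 : M = (M - 1) + 1 := by omega
      conv_rhs => rw [h5, Nat.mul_succ]
    refine ⟨M - 1, c, by omega, hle, ⟨c', hc'⟩, by omega, fun h1 => ?_, fun h1 _ => hcond h1⟩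
    exfalso
    omega
  by_cases hAM : A < M
  · exact S1 hAM
  have hMA : M ≤ A := by omega
  have h2 := f2 hMA
  unfold RhsOddE at hR
  rw [← hρm, ← hρn] at hR
  rcases hR with ⟨hodd, hR⟩ | ⟨hev, hR⟩
  · -- `i` odd
    have hlt : c * A ≠ 2 * d := fun h => hadm h (Or.inl hodd)
    rcases hR with hn0 | ⟨hcm, h0, hle⟩
    · have hAN' : A < N := by
        rcases Nat.lt_or_ge A N with h | h
        · exact h
        · exfalso
          have hAeq : A = N := le_antisymm hAN h
          rw [hAeq] at hlt
          omega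
      have h4 := f4 hAN'
      by_cases hρ0 : ρm = 0
      · exact S4 hMA hρ0 (by omega) (fun _ => Or.inl hodd)
      · exact S2 hMA (by omega) (by omega) (fun _ => Or.inl hodd)
    · exact S2 hMA h0 (by omega) (fun _ => Or.inl hodd)
  · -- `i` even
    have hci : c = i := by rw [hc, if_pos hev]
    rw [← hci] at hR
    rw [← hMdef, ← hNdef] at hR
    have hnodd : ¬ Odd i := Nat.not_odd_iff_even.mpr hev
    rcases hR with ⟨hn0, hor⟩ | ⟨hn0, hcm, hR⟩
    · rcases hor with hevN | ⟨hm0, hoddM⟩
      · have hAN' : A < N := by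
          rcases Nat.lt_or_ge A N with h | h
          · exact h
          · exfalso
            have hAeq : A = N := le_antisymm hAN h
            have h1 : c * A = 2 * d := by
              rw [hAeq]
              omega
            apply hadm h1
            rw [hAeq]
            exact Or.inr hevN
        have h4 := f4 hAN'
        by_cases hρ0 : ρm = 0
        · rcases Nat.even_or_odd M with hMe | hMo
          · refine S4 hMA hρ0 (by omega) (fun h => Or.inr ?_)
            have hNA : N = A + 1 := by
              have h5 : c * N = c * (A + 1) := by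
                rw [Nat.mul_succ]
                omega
              exact Nat.eq_of_mul_eq_mul_left (by omega) h5
            obtain ⟨s, hs⟩ := hevN
            obtain ⟨t, ht⟩ := hMe
            have hMpos : 0 < M := by
              rcases Nat.eq_zero_or_pos M with h5 | h5
              · rw [h5, Nat.mul_zero] at e1
                omega
              · exact h5
            exact ⟨s - t, by omega⟩
          · exact S3 hMA hρ0 (by
              rintro (h | h)
              · exact hnodd h
              · exact (Nat.not_even_iff_odd.mpr hMo) h)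
        · exact S2 hMA (by omega) (by omega) (fun h => by exfalso; omega)
      · exact S3 hMA hm0 (by
          rintro (h | h)
          · exact hnodd h
          · exact (Nat.not_even_iff_odd.mpr hoddM) h)
    · rcases hR with ⟨h0, hlt⟩ | ⟨hm0, hoddM⟩ | ⟨heq, hevNM⟩
      · exact S2 hMA h0 (by omega) (fun h => by exfalso; omega)
      · exact S3 hMA hm0 (by
          rintro (h | h)
          · exact hnodd h
          · exact (Nat.not_even_iff_odd.mpr hoddM) h)
      · refine S2 hMA (by omega) (by omega) (fun h => Or.inr ?_)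
        have hAeq : A = N := f5 (by omega)
        have h5 : 2 * d + m - 2 * ρn = c * (N + M) := by
          rw [Nat.mul_add]
          omega
        rw [h5, Nat.mul_div_cancel_left _ (by omega : 0 < c)] at hevNM
        obtain ⟨s, hs⟩ := hevNM
        rw [hAeq]
        rcases Nat.even_or_odd M with ⟨t, ht⟩ | ⟨t, ht⟩
        · exact ⟨s - t - t, by omega⟩
        · exact ⟨s - t - t - 1, by omega⟩

example : Cfsg.Agent.H99.Em.StArBack := Cfsg.Agent.H18.Em.arBack

end Cfsg.Agent.H18.Em
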