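import Mathlib
import Cfsg.Agent.H99.EmDefs

/-!
# S5990 team project (helper99): piece EM-STRUCT (helper18)

helper48's EP-STRUCT on the standard minus space, in the frozen vocabulary (pure plumbing).
-/

set_option autoImplicit false
open scoped MatrixGroups
open scoped Matrix

namespace Cfsg.Agent.H18.Em

open Cfsg.Agent.H45 Cfsg.Agent.H42.Spd Cfsg.Agent.H42.Ti Cfsg.Agent.H48.Ep Cfsg.Agent.H77.Tq
  Cfsg.Agent.H77.Tm Cfsg.Agent.H99.Em Module

universe u

/-- **EM-STRUCT**. -/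
theorem struct (hS : Cfsg.Agent.H48.Ep.StStruct.{u,u})
    (hBr : Cfsg.Agent.H99.Em.StBridge.{u}) : Cfsg.Agent.H99.Em.StME.{u} := by
  intro F _ _ p _ _ k a b r hab hr hr2 hrp y hy hyr
  classical
  obtain ⟨hNdTop, hNPlusTop, hfr, -, hIso⟩ := hBr F k 0 a b hab
  obtain ⟨T, hT⟩ : ∃ T : Module.End F (MI k → F),
      T = Matrix.toLin' (y : Matrix (MI k) (MI k) F) := ⟨_, rfl⟩
  have hTiso : ∀ v, Cfsg.Agent.H49.QMin k F a b (T v) = Cfsg.Agent.H49.QMin k F a b v := by
    rw [hT]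
    exact (hIso y).mp hy
  have hTpow : T ^ r = 1 := by
    have h1 : ((y ^ r : GL (MI k) F) : Matrix (MI k) (MI k) F) = 1 := by
      rw [hyr]
      rfl
    have h2' : (y : Matrix (MI k) (MI k) F) ^ r = 1 := by
      rw [← h1]
      exact (Units.val_pow_eq_pow_val y r).symm
    have h3 := congrArg (Matrix.toLinAlgEquiv' (R := F)) h2'
    rw [map_pow, map_one] at h3
    rw [hT]
    exact h3
  have hrF : (r : F) ≠ 0 := by
    intro h0
    have h1 := (CharP.cast_eq_zero_iff F p r).mp h0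
    exact hrp ((Nat.prime_dvd_prime_iff_eq Fact.out hr).mp h1).symm
  have hEven : Even (finrank F (MI k → F)) := by
    rw [hfr]
    exact ⟨k + 1, by ring⟩
  obtain ⟨-, A, hfin, h0, hEx, hUp⟩ := hS F (MI k → F) (Cfsg.Agent.H49.QMin k F a b) T r False
    hr hr2 hrF hNdTop hTiso hTpow hEven (iff_false_intro hNPlusTop)
  have hkk : kk T ⊤ = fixDim k y := by
    unfold kk fixDim
    rw [top_inf_eq, hT]
  rw [hkk] at hfin h0 hEx hUp
  subst hT
  refine ⟨A, ?_, ?_, ?_, ?_⟩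
  · rw [← hfr, hfin]
  · intro hz hx
    exact (h0 hz).mpr hx
  · intro j e hj he hev hc1 hc2
    obtain ⟨W, hWinv, hWnd, hWfin, hWpl⟩ := hEx j e False hj he hev
      (fun hz => ⟨False.elim, hc1 hz⟩)
      (fun hz hne => ⟨False.elim, fun h => h.mpr (hc2 hz hne)⟩)
    obtain ⟨-, -, -, hEW, -⟩ := hBr F k (cc F r * j + e) a b hab
    refine ⟨W, (hEW W).mpr ⟨hWfin, hWnd, fun h => hWpl.mp h⟩, ?_⟩
    rw [Submodule.map_le_iff_le_comap]
    exact (Module.End.mem_invtSubmodule _).mp hWinv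
  · intro m W hm hW hinv
    obtain ⟨-, -, -, hEW, -⟩ := hBr F k m a b hab
    obtain ⟨hWfin, hWnd, hWnp⟩ := (hEW W).mp hW
    have hWinv : W ∈ Module.End.invtSubmodule (Matrix.toLin' (y : Matrix (MI k) (MI k) F)) := by
      rw [Module.End.mem_invtSubmodule]
      exact Submodule.map_le_iff_le_comap.mp hinv
    have hWe : Even (finrank F W) := by
      rw [hWfin]
      exact hm
    obtain ⟨j, hj, hj1, hj2, hj3, hj4⟩ := hUp W False hWinv hWnd hWe (iff_false_intro hWnp)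
    refine ⟨j, hj, ?_, hj2, ?_, ?_⟩
    · rw [← hWfin]
      exact hj1
    · intro hz hx
      exact (hj3 hz).mpr hx
    · intro hz hne
      by_contra hX
      exact (hj4 hz hne).mpr ⟨False.elim, fun h => hX h⟩

example (hS : Cfsg.Agent.H48.Ep.StStruct.{u,u}) (hBr : Cfsg.Agent.H99.Em.StBridge.{u}) :
    Cfsg.Agent.H99.Em.StME.{u} := Cfsg.Agent.H18.Em.struct hS hBr

end Cfsg.Agent.H18.Em
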