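import Mathlib
import Cfsg.Agent.H77.FxDefs
import Cfsg.Agent.H42.ElusSpA

/-!
# S5975-IDX (helper18, for helper77)

If `r` divides the index in `Sp_{2d}(q)` of a subgroup containing a copy of `Sp_{2m}(q^k)`,
`d = k m`, then `c = cc F r ≤ 2 d` and `2 k ∤ c`.
-/

set_option autoImplicit false

namespace Cfsg.Agent.H18.Fx

open Cfsg Cfsg.Agent.H77.Fx Cfsg.Agent.H42.Spd

universe u

/-- `r ∣ q ^ (2 n) - 1` forces `cc ∣ 2 n`. -/
theorem cc_dvd_of_dvd {F : Type u} [Field F] [Fintype F] (r : ℕ) (n : ℕ)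
    (h : r ∣ Fintype.card F ^ (2 * n) - 1) : cc F r ∣ 2 * n := by
  have hq : 1 ≤ Fintype.card F ^ (2 * n) := Nat.one_le_pow _ _ Fintype.card_pos
  have h0 : ((Fintype.card F ^ (2 * n) - 1 : ℕ) : ZMod r) = 0 := (ZMod.natCast_eq_zero_iff _ r).2 h
  rw [Nat.cast_sub hq, Nat.cast_pow, Nat.cast_one, sub_eq_zero] at h0
  have hd : orderOf (Fintype.card F : ZMod r) ∣ 2 * n := orderOf_dvd_of_pow_eq_one h0
  unfold cc
  split_ifs with he
  · exact hd
  · have hodd : Odd (orderOf (Fintype.card F : ZMod r)) := Nat.not_even_iff_odd.mp he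
    have hc : Nat.Coprime (orderOf (Fintype.card F : ZMod r)) 2 :=
      Nat.Coprime.symm (Nat.coprime_two_left.mpr hodd)
    exact Nat.mul_dvd_mul_left 2 (hc.dvd_of_dvd_mul_left hd)

/-- Splitting off the factors `q ^ (2 n) - 1` with `k ∣ n`. -/
theorem prod_split (q k r : ℕ) (hk : 0 < k)
    (hr : ∀ n, ¬ k ∣ n → Nat.Coprime r (q ^ (2 * n) - 1)) (m : ℕ) :
    ∃ R, Nat.Coprime r R ∧ ∏ i ∈ Finset.range (k * m), (q ^ (2 * (i + 1)) - 1) =
      (∏ j ∈ Finset.range m, ((q ^ k) ^ (2 * (j + 1)) - 1)) * R := by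
  induction m with
  | zero => exact ⟨1, Nat.coprime_one_right r, by simp⟩
  | succ m ih =>
    obtain ⟨R, hR, hprod⟩ := ih
    obtain ⟨k', rfl⟩ : ∃ k', k = k' + 1 := ⟨k - 1, by omega⟩
    refine ⟨R * ∏ x ∈ Finset.range k', (q ^ (2 * ((k' + 1) * m + x + 1)) - 1), ?_, ?_⟩
    · refine Nat.Coprime.mul_right hR (Nat.Coprime.prod_right fun x hx => hr _ ?_)
      rw [Finset.mem_range] at hx
      intro hdvd
      have h2 : (k' + 1) ∣ x + 1 := by
        have h3 : (k' + 1) * m + x + 1 = (k' + 1) * m + (x + 1) := by ring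
        rw [h3] at hdvd
        exact (Nat.dvd_add_right (Dvd.intro m rfl)).mp hdvd
      have := Nat.le_of_dvd (by omega) h2
      omega
    · rw [Nat.mul_succ, Finset.prod_range_add, hprod, Finset.prod_range_succ (n := k'),
        Finset.prod_range_succ (n := m)]
      have e : q ^ (2 * ((k' + 1) * m + k' + 1)) = (q ^ (k' + 1)) ^ (2 * (m + 1)) := by
        rw [← pow_mul]
        congr 1
        ring
      rw [e]
      ring

/-- S5975-IDX. -/
theorem idx : StIdx.{u} := by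
  intro F _ _ p _ _ d k m r H hr hr2 hrp hd hk hdvd hrel
  have hcard : Nat.card ↥(H ⊓ Cfsg.spGL d F) * H.relIndex (Cfsg.spGL d F) =
      Nat.card ↥(Cfsg.spGL d F) := by
    have h := Subgroup.relIndex_mul_relIndex ⊥ (H ⊓ Cfsg.spGL d F) (Cfsg.spGL d F) bot_le
      inf_le_right
    rw [Subgroup.relIndex_bot_left, Subgroup.relIndex_bot_left, Subgroup.inf_relIndex_right] at h
    exact h
  have hsp : Nat.card ↥(Cfsg.spGL d F) = spOrd (Fintype.card F) d :=
    Cfsg.Agent.H42.card_spGL rfl d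
  have hmain : r * spOrd (Fintype.card F ^ k) m ∣ spOrd (Fintype.card F) d := by
    rw [← hsp, ← hcard, mul_comm r]
    exact Nat.mul_dvd_mul hdvd hrel
  -- `r ∤ q`
  have hrq : ¬ r ∣ Fintype.card F := by
    obtain ⟨n, hp, hn⟩ := FiniteField.card F p
    rw [hn]
    intro h
    exact hrp ((Nat.prime_dvd_prime_iff_eq hr hp).1 (hr.dvd_of_dvd_pow h))
  have hcop : Nat.Coprime r (Fintype.card F) := (Nat.Prime.coprime_iff_not_dvd hr).2 hrq
  constructor
  · have h1 : r ∣ spOrd (Fintype.card F) d := dvd_trans (Dvd.intro _ rfl) hmain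
    unfold spOrd at h1
    rcases (Nat.Prime.dvd_mul hr).1 h1 with h | h
    · exact absurd (hr.dvd_of_dvd_pow h) hrq
    · obtain ⟨i, hi, hi'⟩ := (Prime.dvd_finsetProd_iff hr.prime _).1 h
      rw [Finset.mem_range] at hi
      have h2 := Nat.le_of_dvd (by omega) (cc_dvd_of_dvd r (i + 1) hi')
      omega
  · intro h2k
    have hr' : ∀ n, ¬ k ∣ n → Nat.Coprime r (Fintype.card F ^ (2 * n) - 1) := by
      intro n hn
      rw [Nat.Prime.coprime_iff_not_dvd hr]
      intro h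
      have h3 : 2 * k ∣ 2 * n := dvd_trans h2k (cc_dvd_of_dvd r n h)
      exact hn ((Nat.mul_dvd_mul_iff_left (by norm_num)).1 h3)
    obtain ⟨R, hR, hprod⟩ := prod_split (Fintype.card F) k r hk hr' m
    have hPpos : 0 < ∏ j ∈ Finset.range m, ((Fintype.card F ^ k) ^ (2 * (j + 1)) - 1) := by
      refine Finset.prod_pos fun j _ => ?_
      have h2 : 2 ≤ Fintype.card F ^ k :=
        le_trans Fintype.one_lt_card (Nat.le_self_pow (by omega) _)
      have h3 : 2 ≤ (Fintype.card F ^ k) ^ (2 * (j + 1)) :=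
        le_trans h2 (Nat.le_self_pow (by omega) _)
      omega
    unfold spOrd at hmain
    rw [hd, hprod] at hmain
    have h4 : r * ∏ j ∈ Finset.range m, ((Fintype.card F ^ k) ^ (2 * (j + 1)) - 1) ∣
        (Fintype.card F ^ ((k * m) ^ 2) * R) *
          ∏ j ∈ Finset.range m, ((Fintype.card F ^ k) ^ (2 * (j + 1)) - 1) := by
      refine dvd_trans ?_ (dvd_trans hmain (dvd_of_eq (by ring)))
      exact Nat.mul_dvd_mul_left r (Dvd.intro_left _ rfl)
    have h5 : r ∣ Fintype.card F ^ ((k * m) ^ 2) * R := Nat.dvd_of_mul_dvd_mul_right hPpos h4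
    have h6 : Nat.Coprime r (Fintype.card F ^ ((k * m) ^ 2) * R) :=
      Nat.Coprime.mul_right (Nat.Coprime.pow_right _ hcop) hR
    exact hr.one_lt.ne (Nat.Coprime.eq_one_of_dvd h6 h5).symm

example : StIdx.{u} := idx

end Cfsg.Agent.H18.Fx
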