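import Mathlib
import Cfsg.Agent.H77.FxDefs
import Cfsg.Agent.H42.ElusSpA
import Cfsg.Agent.H17.Symp

/-!
# S5975-TRANSV (helper18, for helper77)

A symplectic transvection: an element of order `p` of `Sp_{2d}(F)`, not scalar, with
`[V, x]` of dimension one.
-/

set_option autoImplicit false

namespace Cfsg.Agent.H18.Fx

open Cfsg Cfsg.Agent.H77.Fx Cfsg.Agent.H17 Matrix

universe u

theorem sympTransvection_pow {F : Type u} [CommRing F] (d : ℕ) (v : Fin d ⊕ Fin d → F) (n : ℕ) :
    Cfsg.sympTransvection d v 1 ^ n = Cfsg.sympTransvection d v (n : F) := by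
  induction n with
  | zero => rw [pow_zero, Nat.cast_zero, sympTransvection_zero]
  | succ n ih => rw [pow_succ, ih, sympTransvection_mul, Nat.cast_succ]

/-- S5975-TRANSV. -/
theorem transv : StTransv.{u} := by
  intro F _ _ p _ _ d hd
  obtain ⟨i0⟩ : Nonempty (Fin d) := ⟨⟨0, hd⟩⟩
  obtain ⟨v, hvdef⟩ : ∃ v : Fin d ⊕ Fin d → F, v = Pi.single (Sum.inl i0) 1 := ⟨_, rfl⟩
  obtain ⟨w, hwdef⟩ : ∃ w : Fin d ⊕ Fin d → F, w = Pi.single (Sum.inr i0) 1 := ⟨_, rfl⟩
  have hf : Cfsg.sympForm d F w v = 1 := by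
    rw [sympForm_eq_sum, hvdef, hwdef]
    simp [Pi.single_apply]
  have hv0 : v (Sum.inl i0) = 1 := by rw [hvdef]; simp
  have hw0 : w (Sum.inl i0) = 0 := by rw [hwdef]; simp
  have hvne : v ≠ 0 := by
    intro h
    rw [h] at hv0
    simp at hv0
  let x : Matrix.GeneralLinearGroup (Fin d ⊕ Fin d) F :=
    ⟨Cfsg.sympTransvection d v 1, Cfsg.sympTransvection d v (-1),
      by rw [sympTransvection_mul, add_neg_cancel, sympTransvection_zero],
      by rw [sympTransvection_mul, neg_add_cancel, sympTransvection_zero]⟩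
  have hx : (x : Mat d F) = Cfsg.sympTransvection d v 1 := rfl
  have hmap : ∀ u : Fin d ⊕ Fin d → F,
      (Matrix.toLin' (x : Mat d F) - 1) u = Cfsg.sympForm d F u v • v := by
    intro u
    rw [LinearMap.sub_apply, Matrix.toLin'_apply, hx, sympTransvection_mulVec, one_mul,
      Module.End.one_apply, add_sub_cancel_left]
  refine ⟨x, ?_, ?_, ?_, ?_⟩
  · rw [Cfsg.Agent.H42.mem_spGL_iff']
    exact (mem_symplecticGroup_iff_form d _).1 (sympTransvection_mem d v 1)
  · apply Units.ext
    rw [Units.val_pow_eq_pow_val, Units.val_one]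
    show Cfsg.sympTransvection d v 1 ^ p = 1
    rw [sympTransvection_pow, CharP.cast_eq_zero, sympTransvection_zero]
  · intro z hz
    have h1 := congrFun (hmap w) (Sum.inl i0)
    rw [hz, hf] at h1
    simp [hv0, hw0] at h1
  · have hrange : LinearMap.range (Matrix.toLin' (x : Mat d F) - 1) = Submodule.span F {v} := by
      apply le_antisymm
      · rintro _ ⟨u, rfl⟩
        rw [hmap]
        exact Submodule.smul_mem _ _ (Submodule.mem_span_singleton_self v)
      · rw [Submodule.span_singleton_le_iff_mem]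
        exact ⟨w, by rw [hmap, hf, one_smul]⟩
    rw [hrange, finrank_span_singleton hvne]

example : StTransv.{u} := transv

end Cfsg.Agent.H18.Fx
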