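import Mathlib

/-!
helper18: subgroups of index two and the abelianisation.
-/

set_option autoImplicit false

namespace Cfsg.Agent.H18

/-- A subgroup of index two contains the commutator subgroup. -/
theorem commutator_le_of_index_two {G : Type*} [Group G] (H : Subgroup G) (h : H.index = 2) :
    commutator G ≤ H := by
  have hn := Subgroup.normal_of_index_eq_two h
  have hcard : Nat.card (G ⧸ H) = 2 := h
  have : Fact (Nat.Prime 2) := ⟨Nat.prime_two⟩
  have hcyc : IsCyclic (G ⧸ H) := isCyclic_of_prime_card hcard
  let _ : CommGroup (G ⧸ H) := IsCyclic.commGroup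
  have := Abelianization.commutator_subset_ker (QuotientGroup.mk' H)
  rwa [QuotientGroup.ker_mk'] at this

/-- In a group in which every element squares to one, the cyclic subgroup generated by `y` is `{1, y}`. -/
theorem mem_zpowers_of_sq_eq_one {A : Type*} [Group A] (y : A) (hy : y * y = 1) (x : A)
    (hx : x ∈ Subgroup.zpowers y) : x = 1 ∨ x = y := by
  let S : Subgroup A :=
    { carrier := {z | z = 1 ∨ z = y}
      mul_mem' := by
        rintro a b (rfl | rfl) (rfl | rfl)
        · left; simp
        · right; simp
        · right; simp
        · left; exact hy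
      one_mem' := Or.inl rfl
      inv_mem' := by
        rintro a (rfl | rfl)
        · left; simp
        · right; exact inv_eq_of_mul_eq_one_right hy }
  have hle : Subgroup.zpowers y ≤ S := by
    rw [Subgroup.zpowers_le]
    exact Or.inr rfl
  exact hle hx

/-- If the abelianisation of `G` is a Klein four-group then `G` has exactly three subgroups of index two. -/
theorem card_index_two_subgroups {G : Type*} [Group G] (hcard : Nat.card (Abelianization G) = 4)
    (hexp : ∀ x : Abelianization G, x * x = 1) :
    Nat.card {H : Subgroup G // H.index = 2} = 3 := by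
  classical
  have hfin : Finite (Abelianization G) := Nat.finite_of_card_ne_zero (by rw [hcard]; norm_num)
  have hsurj : Function.Surjective (Abelianization.of (G := G)) := QuotientGroup.mk_surjective
  -- step A: pass to the abelianisation
  have hA : Nat.card {H : Subgroup G // H.index = 2}
      = Nat.card {K : Subgroup (Abelianization G) // K.index = 2} := by
    have hle : ∀ H : {H : Subgroup G // H.index = 2}, (Abelianization.of (G := G)).ker ≤ H.1 := by
      intro H
      rw [Abelianization.ker_of]
      exact commutator_le_of_index_two H.1 H.2
    refine Nat.card_congr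
      { toFun := fun H => ⟨H.1.map Abelianization.of, ?_⟩
        invFun := fun K => ⟨K.1.comap Abelianization.of, ?_⟩
        left_inv := fun H => Subtype.ext (Subgroup.comap_map_eq_self (hle H))
        right_inv := fun K => Subtype.ext (Subgroup.map_comap_eq_self_of_surjective hsurj K.1) }
    · rw [← Subgroup.index_comap_of_surjective _ hsurj, Subgroup.comap_map_eq_self (hle H)]
      exact H.2
    · rw [Subgroup.index_comap_of_surjective _ hsurj]
      exact K.2
  -- step B: index two subgroups of the abelianisation correspond to non-trivial elements
  have hB : Nat.card {K : Subgroup (Abelianization G) // K.index = 2}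
      = Nat.card {x : Abelianization G // x ≠ 1} := by
    have hord : ∀ x : Abelianization G, x ≠ 1 → Nat.card (Subgroup.zpowers x) = 2 := by
      intro x hx
      rw [Nat.card_zpowers]
      exact orderOf_eq_prime (by rw [pow_two]; exact hexp x) hx
    have hidx : ∀ x : Abelianization G, x ≠ 1 → (Subgroup.zpowers x).index = 2 := by
      intro x hx
      have h1 := Subgroup.card_mul_index (Subgroup.zpowers x)
      rw [hord x hx, hcard] at h1
      omega
    symm
    refine Nat.card_congr (Equiv.ofBijective (fun x => ⟨Subgroup.zpowers x.1, hidx x.1 x.2⟩) ⟨?_, ?_⟩)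
    · intro x y hxy
      have h1 : Subgroup.zpowers x.1 = Subgroup.zpowers y.1 := congrArg Subtype.val hxy
      have h2 : x.1 ∈ Subgroup.zpowers y.1 := by
        rw [← h1]; exact Subgroup.mem_zpowers x.1
      rcases mem_zpowers_of_sq_eq_one y.1 (hexp y.1) x.1 h2 with h | h
      · exact absurd h x.2
      · exact Subtype.ext h
    · intro K
      have h1 := Subgroup.card_mul_index K.1
      rw [K.2, hcard] at h1
      have hK2 : Nat.card K.1 = 2 := by omega
      have hne : K.1 ≠ ⊥ := by
        intro hbot
        rw [hbot] at hK2
        simp at hK2
      obtain ⟨x, hx1⟩ := (Subgroup.ne_bot_iff_exists_ne_one).mp hne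
      have hx1' : (x : Abelianization G) ≠ 1 := by
        intro h
        apply hx1
        exact Subtype.ext h
      refine ⟨⟨x, hx1'⟩, Subtype.ext ?_⟩
      apply Subgroup.eq_of_le_of_card_ge
      · rw [Subgroup.zpowers_le]; exact x.2
      · rw [hK2, hord _ hx1']
  -- step C
  have hC : Nat.card {x : Abelianization G // x ≠ 1} = 3 := by
    have : Fintype (Abelianization G) := Fintype.ofFinite _
    rw [Nat.card_eq_fintype_card, Fintype.card_subtype_compl (fun x : Abelianization G => x = 1),
      Fintype.card_subtype_eq, ← Nat.card_eq_fintype_card, hcard]
  rw [hA, hB, hC]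

end Cfsg.Agent.H18
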