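import Cfsg.Agent.H52.JxDefs
import Cfsg.Agent.H48.JyV
import Cfsg.Agent.H18.JxK3core

/-!
# S2953, JY-KILL2, piece (X5) KB-NORM: the G-level glue (case `V ⊄ Q₁`)

`kbNorm_of`: `StKBNorm` from helper1's abstract core `r1_out` (post 11052, taken as the Prop
`StR1Out`), the P-side facts (`StPSide`: `T ≤ N(K)`, `O₂(K) ≤ O₂(K ⊔ T)`, index 2, inversion),
`StPF` and `StVne`.
-/

set_option autoImplicit false
open Cfsg

namespace Cfsg.Agent.H18.Jx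

open Cfsg.Agent.H64.Jz Cfsg.Agent.H64.Jy Cfsg.Agent.H52.Jx

universe u

/-- helper1's abstract core `r1_out` (post 11052), as a Prop. -/
def StR1Out : Prop := ∀ {G : Type u} [Group G] [Finite G] (T' Q₁ K' O : Subgroup G) (z v k s : G)
    (_ : Q₁ ≤ T') (_ : IsPGroup 2 ↥T') (_ : v ∈ T') (_ : v ∉ Q₁)
    (_ : ∀ t ∈ T', t ∈ Q₁ ∨ t * v ∈ Q₁) (_ : v * v = 1) (_ : z * z = 1) (_ : z ∈ Q₁)
    (_ : ∀ t ∈ T', t * z = z * t)
    (_ : ∀ q ∈ Q₁, v * q * v⁻¹ = q ∨ v * q * v⁻¹ = q * z) (_ : k ∈ K') (_ : k ^ 3 = 1)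
    (_ : k * z * k⁻¹ ≠ z) (_ : ∀ q ∈ Q₁, k * q * k⁻¹ ∈ Q₁) (_ : O ≤ Q₁)
    (_ : ∀ g ∈ K', ∃ o ∈ O, ∃ i : ℕ, g = o * k ^ i)
    (_ : Subgroup.closure {g : G | g ∈ K' ∧ Odd (orderOf g)} = K')
    (_ : v * k * v⁻¹ ∈ K') (_ : v * k * v⁻¹ * k ∈ Q₁)
    (_ : ∀ t ∈ T', s * t * s⁻¹ ∈ T')
    (_ : s * v * s⁻¹ = v ∨ s * v * s⁻¹ = v * z), ∀ q ∈ Q₁, s * q * s⁻¹ ∈ Q₁

/-- The P-side facts used by the glue (for any configuration). -/
def StPSide : Prop := ∀ {G : Type u} [Group G] [Finite G] (S : Sylow 2 G) (M T K L : Subgroup G),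
  Base S M T K L →
  T ≤ Subgroup.normalizer (K : Set G) ∧ pCoreOf 2 K ≤ pCoreOf 2 (K ⊔ T) ∧
  (∀ a ∈ T, ∀ b ∈ T, a ∉ pCoreOf 2 (K ⊔ T) → b ∉ pCoreOf 2 (K ⊔ T) →
    a * b ∈ pCoreOf 2 (K ⊔ T)) ∧
  (∀ x ∈ T, x ∉ pCoreOf 2 (K ⊔ T) → ∀ g ∈ K, x * g * x⁻¹ * g ∈ pCoreOf 2 K)

/-- In a group of order 4, a proper subgroup containing `z ≠ 1` is `{1, z}`. -/
theorem mem_inf_four {G : Type u} [Group G] [Finite G] (V Q : Subgroup G) (z v : G)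
    (hV4 : Nat.card ↥V = 4) (hzV : z ∈ V) (hzQ : z ∈ Q) (hz1 : z ≠ 1) (hvV : v ∈ V)
    (hvQ : v ∉ Q) : ∀ c ∈ V, c ∈ Q → c = 1 ∨ c = z := by
  have hdvd : Nat.card ↥(V ⊓ Q) ∣ 4 := hV4 ▸ Subgroup.card_dvd_of_le (inf_le_left : V ⊓ Q ≤ V)
  have hne1 : Nat.card ↥(V ⊓ Q) ≠ 1 := by
    intro h
    have hb : V ⊓ Q = ⊥ := (Subgroup.eq_bot_iff_card _).mpr h
    have hz : z ∈ V ⊓ Q := Subgroup.mem_inf.mpr ⟨hzV, hzQ⟩
    rw [hb, Subgroup.mem_bot] at hz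
    exact hz1 hz
  have hne4 : Nat.card ↥(V ⊓ Q) ≠ 4 := by
    intro h
    have he : V ⊓ Q = V := Subgroup.eq_of_le_of_card_ge inf_le_left (by rw [h, hV4])
    have : v ∈ V ⊓ Q := by rw [he]; exact hvV
    exact hvQ (Subgroup.mem_inf.mp this).2
  have h2 : Nat.card ↥(V ⊓ Q) = 2 := by
    have hle : Nat.card ↥(V ⊓ Q) ≤ 4 := Nat.le_of_dvd (by norm_num) hdvd
    have hpos : 0 < Nat.card ↥(V ⊓ Q) := Nat.card_pos
    interval_cases h : Nat.card ↥(V ⊓ Q) <;> simp_all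
  intro c hcV hcQ
  by_contra hcon
  rw [not_or] at hcon
  obtain ⟨y, -, hy⟩ := (Nat.card_eq_two_iff' (1 : ↥(V ⊓ Q))).mp h2
  have e1 := hy ⟨z, Subgroup.mem_inf.mpr ⟨hzV, hzQ⟩⟩
    (fun h => hz1 (congrArg Subtype.val h))
  have e2 := hy ⟨c, Subgroup.mem_inf.mpr ⟨hcV, hcQ⟩⟩
    (fun h => hcon.1 (congrArg Subtype.val h))
  exact hcon.2 (congrArg Subtype.val (e2.trans e1.symm))

/-- KB-NORM from the abstract core and the interface facts. -/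
theorem kbNorm_of (hR : StR1Out.{u}) (hP : StPSide.{u}) (hPF : StPF.{u}) (hVne : StVne.{u}) :
    StKBNorm.{u} := by
  intro G _ _ S M K L T' K' L' hRC hVQ x hxS hxT
  obtain ⟨hB, hNS, hB', hne⟩ := hRC
  obtain ⟨hV4, hV2, hNV, ⟨z, hzV, hz1, hzZ, hzL', -, -⟩, hCu, -⟩ :=
    Cfsg.Agent.H48.Jy.vfacts S M K L T' K' L' hB hNS hB' hne
  obtain ⟨-, hVT⟩ := hVne S M K L T' K' L' ⟨hB, hNS, hB', hne⟩
  obtain ⟨hQT, -, hPQ⟩ := hPF S L T' K' L' hB'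
  obtain ⟨hTK, hOQ, hD2, hInv⟩ := hP S L T' K' L' hB'
  have hT'S : T' ≤ (S : Subgroup G) := hB'.2.2.2.2.2.1
  have hT'2 : IsPGroup 2 ↥T' := hB'.2.2.2.2.1.1.1
  have hK'J : IsJComponent T' K' := hB'.2.2.2.2.2.2.1.1.1
  have hK'L : ¬ K' ≤ L := hB'.2.2.2.2.2.2.1.2.1
  have hSL : (S : Subgroup G) ≤ L := Subgroup.le_normalizer.trans hNS
  have hSV : (S : Subgroup G) ≤ Subgroup.normalizer (omegaCenterOf (pCoreOf 2 L) : Set G) := by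
    rw [hNV]; exact hSL
  obtain ⟨v, hvV, hvQ⟩ := SetLike.not_le_iff_exists.mp hVQ
  have hvT : v ∈ T' := hVT hvV
  obtain ⟨hzS, hzC, -⟩ := Cfsg.Agent.H63.Sn.mem_omegaCenterOf (S : Subgroup G) hzZ
  have hzc : ∀ t ∈ (S : Subgroup G), t * z = z * t := fun t ht =>
    Subgroup.mem_centralizer_iff.mp hzC t ht
  -- `z ∈ Q₁`
  have hSyl' : IsSylowTwoIn T' L' := (Cfsg.Agent.H61.Jk.base_facts S L T' K' L' hB').2
  have hPL' : K' ⊔ T' ≤ L' := sup_le (le_sup_left.trans hB'.2.2.2.2.2.2.2.2) hSyl'.1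
  have hOL'Q : pCoreOf 2 L' ≤ pCoreOf 2 (K' ⊔ T') :=
    Cfsg.Agent.H31.X.H54.le_pCoreOf
      ((Cfsg.Agent.Helper55.J48.pCoreOf_le_of_sylowIn hSyl').trans le_sup_right)
      (hPL'.trans (Cfsg.Agent.Helper55.Uq.le_normalizer_pCoreOf' L'))
      (Cfsg.Agent.Helper55.Uq.pCoreOf_isPGroup L')
  have hzQ : z ∈ pCoreOf 2 (K' ⊔ T') := hOL'Q hzL'
  have hz2 : z * z = 1 := hV2 z hzV
  have hv2 : v * v = 1 := hV2 v hvV
  have hvS : v ∈ (S : Subgroup G) := hT'S hvT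
  have hVQ2 := mem_inf_four (omegaCenterOf (pCoreOf 2 L)) (pCoreOf 2 (K' ⊔ T')) z v hV4 hzV hzQ
    hz1 hvV hvQ
  -- `V = {1, z, v, v z}`
  have hVelts : ∀ w ∈ omegaCenterOf (pCoreOf 2 L), w ∉ pCoreOf 2 (K' ⊔ T') →
      w = v ∨ w = v * z := by
    intro w hw hwQ
    have hwv : w * v ∈ pCoreOf 2 (K' ⊔ T') := hD2 w (hVT hw) v hvT hwQ hvQ
    rcases hVQ2 (w * v) (mul_mem hw hvV) hwv with h | h
    · left
      have : w = v⁻¹ := eq_inv_of_mul_eq_one_left h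
      rw [this]; exact inv_eq_of_mul_eq_one_left hv2
    · right
      have hvinv : v⁻¹ = v := inv_eq_of_mul_eq_one_left hv2
      have : w = z * v⁻¹ := eq_mul_inv_of_mul_eq h
      rw [this, hvinv]; exact (hzc v hvS).symm
  -- `[Q₁, v] ≤ ⟨z⟩`
  have hQv : ∀ q ∈ pCoreOf 2 (K' ⊔ T'), v * q * v⁻¹ = q ∨ v * q * v⁻¹ = q * z := by
    intro q hq
    have hqS : q ∈ (S : Subgroup G) := hT'S (hQT hq)
    have h1 : q * v⁻¹ * q⁻¹ ∈ omegaCenterOf (pCoreOf 2 L) :=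
      (Subgroup.mem_normalizer_iff.mp (hSV hqS) v⁻¹).mp (inv_mem hvV)
    have hcV : v * q * v⁻¹ * q⁻¹ ∈ omegaCenterOf (pCoreOf 2 L) := by
      have := mul_mem hvV h1
      simpa [mul_assoc] using this
    have hvN : v ∈ Subgroup.normalizer (pCoreOf 2 (K' ⊔ T') : Set G) := hPQ (le_sup_right (a := K') hvT)
    have hcQ : v * q * v⁻¹ * q⁻¹ ∈ pCoreOf 2 (K' ⊔ T') :=
      mul_mem ((Subgroup.mem_normalizer_iff.mp hvN q).mp hq) (inv_mem hq)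
    rcases hVQ2 _ hcV hcQ with h | h
    · left; exact mul_inv_eq_one.mp h
    · right
      have : v * q * v⁻¹ = z * q := mul_inv_eq_iff_eq_mul.mp h
      rw [this]; exact (hzc q hqS).symm
  -- `k`
  obtain ⟨k, hkK, hk3, hkO, hKO⟩ := k3_core K' (pCoreOf 2 K')
    (Cfsg.Agent.H31.X.H54.pCoreOf_le K') (Cfsg.Agent.Helper55.Uq.le_normalizer_pCoreOf' K')
    (Cfsg.Agent.Helper55.Uq.pCoreOf_isPGroup K') hK'J.2.2.1
  have hkz : k * z * k⁻¹ ≠ z := by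
    intro h
    have hkL : k ∈ L := by
      refine hCu z hzV hz1 (Subgroup.mem_centralizer_iff.mpr ?_)
      intro y hy
      rw [Set.mem_singleton_iff] at hy
      subst hy
      have : k * y = y * k := by
        have := congrArg (· * k) h
        simpa [mul_assoc] using this
      exact this.symm
    apply hK'L
    intro g hg
    obtain ⟨o, ho, i, rfl⟩ := hKO g hg
    exact mul_mem (hSL (hT'S (hQT (hOQ ho)))) (pow_mem hkL i)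
  have hkN : k ∈ Subgroup.normalizer (pCoreOf 2 (K' ⊔ T') : Set G) := hPQ (le_sup_left (b := T') hkK)
  have hkQ : ∀ q ∈ pCoreOf 2 (K' ⊔ T'), k * q * k⁻¹ ∈ pCoreOf 2 (K' ⊔ T') := fun q hq =>
    (Subgroup.mem_normalizer_iff.mp hkN q).mp hq
  have hvk : v * k * v⁻¹ ∈ K' := (Subgroup.mem_normalizer_iff.mp (hTK hvT) k).mp hkK
  have hvk' : v * k * v⁻¹ * k ∈ pCoreOf 2 (K' ⊔ T') := hOQ (hInv v hvT hvQ k hkK)
  have hTQv : ∀ t ∈ T', t ∈ pCoreOf 2 (K' ⊔ T') ∨ t * v ∈ pCoreOf 2 (K' ⊔ T') := by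
    intro t ht
    by_cases h : t ∈ pCoreOf 2 (K' ⊔ T')
    · exact Or.inl h
    · exact Or.inr (hD2 t ht v hvT h hvQ)
  have hzT : ∀ t ∈ T', t * z = z * t := fun t ht => hzc t (hT'S ht)
  -- the key statement for `s ∈ N_S(T')`
  have key : ∀ s ∈ (S : Subgroup G), s ∈ Subgroup.normalizer (T' : Set G) →
      ∀ q ∈ pCoreOf 2 (K' ⊔ T'), s * q * s⁻¹ ∈ pCoreOf 2 (K' ⊔ T') := by
    intro s hsS hsT
    have hsT' : ∀ t ∈ T', s * t * s⁻¹ ∈ T' := fun t ht =>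
      (Subgroup.mem_normalizer_iff.mp hsT t).mp ht
    have hsvV : s * v * s⁻¹ ∈ omegaCenterOf (pCoreOf 2 L) :=
      (Subgroup.mem_normalizer_iff.mp (hSV hsS) v).mp hvV
    have hsvQ : s * v * s⁻¹ ∉ pCoreOf 2 (K' ⊔ T') := by
      intro hmem
      rcases hVQ2 _ hsvV hmem with h | h
      · have : v = 1 := by
          have := congrArg (fun y => s⁻¹ * y * s) h
          simpa [mul_assoc] using this
        exact hvQ (this ▸ one_mem _)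
      · have : v = z := by
          have h' := congrArg (fun y => s⁻¹ * y * s) h
          have hsz := hzc s hsS
          simp only [mul_assoc, inv_mul_cancel_left, inv_mul_cancel, mul_one] at h'
          rw [h', ← hsz, inv_mul_cancel_left]
        exact hvQ (this ▸ hzQ)
    exact hR T' (pCoreOf 2 (K' ⊔ T')) K' (pCoreOf 2 K') z v k s hQT hT'2 hvT hvQ hTQv hv2 hz2
      hzQ hzT hQv hkK hk3 hkz hkQ hOQ hKO hK'J.1 hvk hvk' hsT' (hVelts _ hsvV hsvQ)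
  rw [Subgroup.mem_normalizer_iff]
  intro h
  constructor
  · intro hh
    exact key x hxS hxT h hh
  · intro hh
    have := key x⁻¹ (inv_mem hxS) (inv_mem hxT) _ hh
    simpa [mul_assoc] using this

end Cfsg.Agent.H18.Jx

#print axioms Cfsg.Agent.H18.Jx.kbNorm_of
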