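import Cfsg.Agent.H18.JxKbNorm
import Cfsg.Agent.H66.JxPSide
import Cfsg.Agent.H73.JxBasic
import Cfsg.Agent.H86.R1Out
import Cfsg.Agent.H5.JxKA

/-!
# S2953, JY-KILL2: hypothesis-free wiring of (X5) KB-NORM, KB, KA and `kill2`

`kbNorm : StKBNorm` from `kbNorm_of` (H18.JxKbNorm) with helper86's `r1_out`, helper66's
`pside_explicit`, helper73's `star` / `pf` / `vne`; `ka` from helper5's `ka_of_pside`;
`kill2 : H64.Jy.StKill2` by helper52's `kill2_of`.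
-/

set_option autoImplicit false
open Cfsg

namespace Cfsg.Agent.H18.Jx

open Cfsg.Agent.H64.Jz Cfsg.Agent.H64.Jy Cfsg.Agent.H52.Jx

universe u

/-- The P-side facts in the shape of `StPSide`. -/
theorem pSide : StPSide.{u} := by
  intro G _ _ S M T K L hB
  obtain ⟨hD2, hInvD, -⟩ := Cfsg.Agent.H66.Jx.pside_explicit S M T K L hB
  have hTK : T ≤ Subgroup.normalizer (K : Set G) :=
    Cfsg.Agent.H64.Jz.normFinal S M T K L hB (Cfsg.Agent.H64.Jz.stMain S M T K L hB)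
  have hKNO : K ≤ Subgroup.normalizer (pCoreOf 2 K : Set G) :=
    Cfsg.Agent.Helper55.Uq.le_normalizer_pCoreOf' K
  have hTNO : T ≤ Subgroup.normalizer (pCoreOf 2 K : Set G) :=
    hTK.trans (Cfsg.Agent.H31.X.H54.normalizer_le_normalizer_pCoreOf K)
  have hOQ : pCoreOf 2 K ≤ pCoreOf 2 (K ⊔ T) :=
    Cfsg.Agent.H31.X.H54.le_pCoreOf ((Cfsg.Agent.H31.X.H54.pCoreOf_le K).trans le_sup_left)
      (sup_le hKNO hTNO) (Cfsg.Agent.Helper55.Uq.pCoreOf_isPGroup K)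
  refine ⟨hTK, hOQ, hD2, ?_⟩
  intro x hx hxD g hg
  have h1 : x * g * x⁻¹ * g ∈ pCoreOf 2 (K ⊔ T) := hInvD x hx hxD g hg
  have h2 : x * g * x⁻¹ * g ∈ K :=
    mul_mem ((Subgroup.mem_normalizer_iff.mp (hTK hx) g).mp hg) hg
  have hle : K ⊓ pCoreOf 2 (K ⊔ T) ≤ pCoreOf 2 K := by
    refine Cfsg.Agent.H31.X.H54.le_pCoreOf inf_le_left ?_ ?_
    · intro y hy
      rw [Subgroup.mem_normalizer_iff]
      intro h
      have hyN : y ∈ Subgroup.normalizer (pCoreOf 2 (K ⊔ T) : Set G) :=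
        Cfsg.Agent.Helper55.Uq.le_normalizer_pCoreOf' (K ⊔ T) (le_sup_left (b := T) hy)
      rw [Subgroup.mem_inf, Subgroup.mem_inf]
      constructor
      · rintro ⟨ha, hb⟩
        exact ⟨mul_mem (mul_mem hy ha) (inv_mem hy),
          (Subgroup.mem_normalizer_iff.mp hyN h).mp hb⟩
      · rintro ⟨ha, hb⟩
        refine ⟨?_, (Subgroup.mem_normalizer_iff.mp hyN h).mpr hb⟩
        have := mul_mem (mul_mem (inv_mem hy) ha) hy
        simpa [mul_assoc] using this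
    · exact (Cfsg.Agent.Helper55.Uq.pCoreOf_isPGroup (K ⊔ T)).to_le inf_le_right
  exact hle (Subgroup.mem_inf.mpr ⟨h2, h1⟩)

/-- (X5) KB-NORM. -/
theorem kbNorm : Cfsg.Agent.H52.Jx.StKBNorm.{u} :=
  kbNorm_of (fun T' Q₁ K' O z v k s => Cfsg.Agent.H86.R1.r1_out T' Q₁ K' O z v k s) pSide
    Cfsg.Agent.H73.Jx.pf Cfsg.Agent.H73.Jx.vne

/-- KB: the case `V ⊄ Q₁` is impossible. -/
theorem kb : Cfsg.Agent.H52.Jx.StKB.{u} :=
  Cfsg.Agent.H52.Jx.kb_of Cfsg.Agent.H73.Jx.star Cfsg.Agent.H73.Jx.pf kbNorm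

/-- KA: the case `V ≤ Q₁` is impossible (helper5's glue on helper82's count). -/
theorem ka : Cfsg.Agent.H52.Jx.StKA.{u} :=
  Cfsg.Agent.H5.Jx.ka_of_pside Cfsg.Agent.H73.Jx.pf
    (fun S M T K L hB => (Cfsg.Agent.H66.Jx.pside_explicit S M T K L hB).2.1)
    (fun S M T K L hB => (Cfsg.Agent.H66.Jx.pside_explicit S M T K L hB).1)

/-- JY-KILL2. -/
theorem kill2 : Cfsg.Agent.H64.Jy.StKill2.{u} := Cfsg.Agent.H52.Jx.kill2_of ka kb

example : Cfsg.Agent.H52.Jx.StKBNorm.{u} := kbNorm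
example : Cfsg.Agent.H64.Jy.StKill2.{u} := kill2

end Cfsg.Agent.H18.Jx

#print axioms Cfsg.Agent.H18.Jx.kbNorm
#print axioms Cfsg.Agent.H18.Jx.kill2
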