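import Mathlib
import Cfsg.Prelude.Def_Blocks
import Cfsg.Agent.H92.CoprimeHall
import Cfsg.Agent.H4.Blich1
import Cfsg.Agent.H4.IrrCount
import Cfsg.Agent.H44.SL2Sylow
import Cfsg.Agent.H44.SL2Card
import Cfsg.Agent.H64.BorelSL2
import Cfsg.Agent.H18.DkMx5
import Cfsg.Agent.H18.DkMk

/-!
# McKay equality for `SL₂(q)`, `q` odd: generic lemmas, the trivial, torus and Borel cases
(helper18)
-/

set_option autoImplicit false
set_option linter.unusedSectionVars false
set_option linter.unusedVariables false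
set_option linter.deprecated false
set_option linter.unusedSimpArgs false
set_option linter.style.haveILetI false
set_option linter.unnecessarySeqFocus false
set_option linter.unreachableTactic false
set_option linter.unusedTactic false

namespace Cfsg.Agent.H18.McK

open Cfsg Matrix Cfsg.Agent.H65.SL2 Cfsg.Agent.H29.Dk Cfsg.Agent.H18.Dk

universe u

/-- Transport of the count of `ℓ'`-degree irreducible characters along an isomorphism. -/
theorem card_prime_to_congr {A B : Type*} [Group A] [Group B] (e : A ≃* B) (ℓ : ℕ) :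
    Nat.card {χ : IrrCharacter A // ¬ ℓ ∣ charDegree (χ : A → ℂ)} =
      Nat.card {χ : IrrCharacter B // ¬ ℓ ∣ charDegree (χ : B → ℂ)} := by
  refine Nat.card_congr ((Cfsg.Agent.H92.irrCongr e).symm.subtypeEquiv fun β => ?_)
  have h : ((Cfsg.Agent.H92.irrCongr e).symm β).1 1 = β.1 1 := by
    show β.1 (e.symm 1) = β.1 1
    rw [map_one]
  rw [Cfsg.Agent.H82.charDegree_eq_of_one_eq h]

/-- With an abelian normal subgroup of index prime to `ℓ`, all irreducible characters have
`ℓ'`-degree (Itô). -/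
theorem card_prime_to_of_abelian_normal {N : Type u} [Group N] [Finite N] (ℓ : ℕ)
    (A : Subgroup N) [A.Normal] (hA : ∀ a ∈ A, ∀ b ∈ A, a * b = b * a) (hℓ : ¬ ℓ ∣ A.index) :
    Nat.card {χ : IrrCharacter N // ¬ ℓ ∣ charDegree (χ : N → ℂ)} = Nat.card (ConjClasses N) := by
  rw [← Cfsg.Agent.H4.card_irr_eq_card_conjClasses]
  apply Nat.card_congr
  exact Equiv.subtypeUnivEquiv
    (fun χ h => hℓ (h.trans (Cfsg.Agent.H4.irr_degree_dvd_index χ A hA)))

/-- A trivial Sylow subgroup: the normaliser is the whole group. -/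
theorem norm_count_triv {G : Type u} [Group G] [Finite G] (ℓ : ℕ) [Fact ℓ.Prime] (S : Sylow ℓ G)
    (h : ¬ ℓ ∣ Nat.card G) :
    Nat.card {ψ : IrrCharacter (Subgroup.normalizer ((S : Subgroup G) : Set G)) //
        ¬ ℓ ∣ charDegree (ψ : Subgroup.normalizer ((S : Subgroup G) : Set G) → ℂ)} =
      Nat.card {χ : IrrCharacter G // ¬ ℓ ∣ charDegree (χ : G → ℂ)} := by
  have hS : (S : Subgroup G) = ⊥ := by
    apply Subgroup.eq_bot_of_card_eq
    rw [Sylow.card_eq_multiplicity, Nat.factorization_eq_zero_of_not_dvd h, pow_zero]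
  have hN : Subgroup.normalizer ((S : Subgroup G) : Set G) = ⊤ := by
    rw [hS, eq_top_iff]
    intro x _
    rw [Subgroup.mem_normalizer_iff]
    intro n
    simp only [Subgroup.mem_bot]
    constructor
    · rintro rfl; simp
    · intro h1
      have : n = x⁻¹ * (x * n * x⁻¹) * x := by group
      rw [this, h1]; simp
  exact card_prime_to_congr ((MulEquiv.subgroupCongr hN).trans Subgroup.topEquiv) ℓ

section SL2

variable {F : Type*} [Field F] [Fintype F]

/-- The torus case: `ℓ` odd dividing `q - 1` or `q + 1`. -/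
theorem norm_count_torus (hodd : Odd (Fintype.card F)) (ℓ : ℕ) [Fact ℓ.Prime] (hℓ : ℓ ≠ 2)
    (S : Sylow ℓ (Matrix.SpecialLinearGroup (Fin 2) F))
    (hdvd : ℓ ∣ Fintype.card F - 1 ∨ ℓ ∣ Fintype.card F + 1) :
    2 * Nat.card {ψ : IrrCharacter (Subgroup.normalizer
        ((S : Subgroup (Matrix.SpecialLinearGroup (Fin 2) F)) :
          Set (Matrix.SpecialLinearGroup (Fin 2) F))) //
        ¬ ℓ ∣ charDegree (ψ : Subgroup.normalizer
          ((S : Subgroup (Matrix.SpecialLinearGroup (Fin 2) F)) :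
            Set (Matrix.SpecialLinearGroup (Fin 2) F)) → ℂ)} =
      (if ℓ ∣ Fintype.card F - 1 then Fintype.card F - 1 else Fintype.card F + 1) + 6 := by
  classical
  have hℓp : ℓ.Prime := Fact.out
  have h2 : (2 : F) ≠ 0 := Cfsg.Agent.H44.two_ne_zero_of_odd hodd
  obtain ⟨z, ht, hdz, -, hN⟩ := Cfsg.Agent.H44.sylow_SL2_odd hodd ℓ hℓ S hdvd
  rw [card_prime_to_congr (MulEquiv.subgroupCongr hN) ℓ]
  have hns := Cfsg.Agent.H44.sl2_nonScalar_of_trace_sq z ht
  have hidx := Cfsg.Agent.H44.sl2_index_subgroupOf_normalizer hodd ht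
  have hab : ∀ a ∈ (Subgroup.centralizer ({z} : Set (Matrix.SpecialLinearGroup (Fin 2) F))).subgroupOf
      (Subgroup.normalizer (Subgroup.centralizer ({z} : Set (Matrix.SpecialLinearGroup (Fin 2) F)) :
        Set (Matrix.SpecialLinearGroup (Fin 2) F))),
      ∀ b ∈ (Subgroup.centralizer ({z} : Set (Matrix.SpecialLinearGroup (Fin 2) F))).subgroupOf
      (Subgroup.normalizer (Subgroup.centralizer ({z} : Set (Matrix.SpecialLinearGroup (Fin 2) F)) :
        Set (Matrix.SpecialLinearGroup (Fin 2) F))), a * b = b * a := by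
    intro a ha b hb
    rw [Subgroup.mem_subgroupOf, Cfsg.Agent.H44.mem_centralizer_singleton_iff] at ha hb
    apply Subtype.ext
    exact Cfsg.Agent.H44.sl2_commute_of_commute hns ha.symm hb.symm
  have hl2 : ¬ ℓ ∣ 2 := by
    intro h
    exact hℓ ((Nat.prime_dvd_prime_iff_eq hℓp Nat.prime_two).1 h)
  rw [card_prime_to_of_abelian_normal ℓ _ hab (by rw [hidx]; exact hl2)]
  have hq1 : 1 < Fintype.card F := Fintype.one_lt_card
  have hno : ℓ ∣ Fintype.card F - 1 → ℓ ∣ Fintype.card F + 1 → False := by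
    intro hd hdz
    have e : Fintype.card F + 1 - (Fintype.card F - 1) = 2 := by omega
    have h3 : ℓ ∣ 2 := by rw [← e]; exact Nat.dvd_sub hdz hd
    exact hl2 h3
  have hcard : Nat.card (Subgroup.centralizer ({z} : Set (Matrix.SpecialLinearGroup (Fin 2) F))) =
      (if ℓ ∣ Fintype.card F - 1 then Fintype.card F - 1 else Fintype.card F + 1) := by
    by_cases hell : Cfsg.Agent.H44.Elliptic (z : Matrix (Fin 2) (Fin 2) F)
    · have hc := Cfsg.Agent.H44.sl2_card_centralizer_elliptic hodd z hell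
      rw [hc] at hdz
      rw [hc, if_neg (fun h => hno h hdz)]
    · have hc := Cfsg.Agent.H44.sl2_card_centralizer_split hodd z ht hell
      rw [hc] at hdz
      rw [hc, if_pos hdz]
  have h4 : 4 ≤ Nat.card (Subgroup.centralizer
      ({z} : Set (Matrix.SpecialLinearGroup (Fin 2) F))) := by
    have hl3 : 3 ≤ ℓ := by
      have := hℓp.two_le
      omega
    have hle : ℓ ≤ Nat.card (Subgroup.centralizer
        ({z} : Set (Matrix.SpecialLinearGroup (Fin 2) F))) := Nat.le_of_dvd Nat.card_pos hdz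
    rw [hcard] at hle ⊢
    obtain ⟨k, hk⟩ := hodd
    split_ifs at hle ⊢ <;> omega
  rw [Cfsg.Agent.H44.sl2_card_conjClasses_normalizer hodd ht h4, hcard]

/-- The normaliser of the unitriangular subgroup of `SL₂` is the Borel subgroup. -/
theorem normalizer_Un_SL :
    Subgroup.normalizer ((Un : Subgroup (Matrix.SpecialLinearGroup (Fin 2) F)) :
      Set (Matrix.SpecialLinearGroup (Fin 2) F)) = Bo := by
  apply le_antisymm
  · intro g hg
    rw [Subgroup.mem_normalizer_iff] at hg
    have h1 : g * uT 1 * g⁻¹ ∈ (Un : Subgroup (Matrix.SpecialLinearGroup (Fin 2) F)) :=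
      (hg (uT 1)).1 (uT_mem_Un 1)
    exact mem_Bo_of_conj (uT_mem_Un 1) (uT_ne_one one_ne_zero) (Un_le_Bo h1)
  · intro g hg
    rw [Subgroup.mem_normalizer_iff]
    intro h
    constructor
    · intro hu
      exact conj_mem_Un hg hu
    · intro hu
      have := conj_mem_Un (Subgroup.inv_mem _ hg) hu
      rw [inv_inv] at this
      have e : g⁻¹ * (g * h * g⁻¹) * g = h := by group
      rwa [e] at this

theorem Bo_eq_bor : (Bo : Subgroup (Matrix.SpecialLinearGroup (Fin 2) F)) =
    (Cfsg.upperTriangularGL 2 F).comap Matrix.SpecialLinearGroup.toGL := by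
  classical
  ext g
  rw [Cfsg.Agent.H64.BorelSL2.mem_bor, mem_Bo]

theorem card_conjClasses_Bo (h2 : (2 : F) ≠ 0) :
    Nat.card (ConjClasses ↥(Bo : Subgroup (Matrix.SpecialLinearGroup (Fin 2) F))) =
      Fintype.card F + 3 := by
  classical
  rw [Bo_eq_bor]
  exact Cfsg.Agent.H64.BorelSL2.card_conjClasses_bor h2

/-- The defining-characteristic case. -/
theorem norm_count_char (hodd : Odd (Fintype.card F)) (p : ℕ) [Fact p.Prime] [CharP F p]
    (S : Sylow p (Matrix.SpecialLinearGroup (Fin 2) F)) :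
    Nat.card {ψ : IrrCharacter (Subgroup.normalizer
        ((S : Subgroup (Matrix.SpecialLinearGroup (Fin 2) F)) :
          Set (Matrix.SpecialLinearGroup (Fin 2) F))) //
        ¬ p ∣ charDegree (ψ : Subgroup.normalizer
          ((S : Subgroup (Matrix.SpecialLinearGroup (Fin 2) F)) :
            Set (Matrix.SpecialLinearGroup (Fin 2) F)) → ℂ)} =
      Fintype.card F + 3 := by
  classical
  have hp : p.Prime := Fact.out
  have h2 : (2 : F) ≠ 0 := Cfsg.Agent.H44.two_ne_zero_of_odd hodd
  obtain ⟨n, -, hn⟩ := FiniteField.card F p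
  have hq1 : 1 < Fintype.card F := Fintype.one_lt_card
  have hpq : p ∣ Fintype.card F := by rw [hn]; exact dvd_pow_self p (by positivity)
  have hq2 : 1 ≤ Fintype.card F ^ 2 := Nat.one_le_pow _ _ (by omega)
  have hm : ¬ p ∣ Fintype.card F ^ 2 - 1 := by
    intro h
    have h1 : p ∣ Fintype.card F ^ 2 := Dvd.dvd.pow hpq (by norm_num)
    have h3 : p ∣ Fintype.card F ^ 2 - (Fintype.card F ^ 2 - 1) := Nat.dvd_sub h1 h
    have e : Fintype.card F ^ 2 - (Fintype.card F ^ 2 - 1) = 1 := by omega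
    rw [e] at h3
    exact hp.one_lt.ne' (Nat.dvd_one.1 h3)
  have hG : Nat.card (Matrix.SpecialLinearGroup (Fin 2) F) =
      p ^ (n : ℕ) * (Fintype.card F ^ 2 - 1) := by
    rw [Cfsg.Agent.H44.card_SL2, hn]
  have hS : Nat.card (S : Subgroup (Matrix.SpecialLinearGroup (Fin 2) F)) = p ^ (n : ℕ) := by
    rw [Sylow.card_eq_multiplicity, hG, factorization_prime_pow_mul p n _ hp hm]
  have hU : Nat.card (Un : Subgroup (Matrix.SpecialLinearGroup (Fin 2) F)) = p ^ (n : ℕ) := by
    rw [card_Un, hn]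
  obtain ⟨g, hg⟩ := conj_of_card_sylow p hG hm
    (Un : Subgroup (Matrix.SpecialLinearGroup (Fin 2) F))
    (S : Subgroup (Matrix.SpecialLinearGroup (Fin 2) F)) hU hS
  have hN : Subgroup.normalizer ((S : Subgroup (Matrix.SpecialLinearGroup (Fin 2) F)) :
      Set (Matrix.SpecialLinearGroup (Fin 2) F)) =
      (Bo : Subgroup (Matrix.SpecialLinearGroup (Fin 2) F)).map (MulAut.conj g).toMonoidHom := by
    rw [hg, normalizer_map_conj, normalizer_Un_SL]
  have e1 := (Bo : Subgroup (Matrix.SpecialLinearGroup (Fin 2) F)).equivMapOfInjective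
    (MulAut.conj g).toMonoidHom (MulAut.conj g).injective
  rw [card_prime_to_congr ((MulEquiv.subgroupCongr hN).trans e1.symm) p]
  -- Itô in the Borel subgroup
  haveI hnorm : ((Un : Subgroup (Matrix.SpecialLinearGroup (Fin 2) F)).subgroupOf Bo).Normal := by
    constructor
    intro u hu b
    rw [Subgroup.mem_subgroupOf] at hu ⊢
    exact conj_mem_Un b.2 hu
  have hab : ∀ a ∈ (Un : Subgroup (Matrix.SpecialLinearGroup (Fin 2) F)).subgroupOf Bo,
      ∀ b ∈ (Un : Subgroup (Matrix.SpecialLinearGroup (Fin 2) F)).subgroupOf Bo,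
      a * b = b * a := by
    intro a ha b hb
    rw [Subgroup.mem_subgroupOf] at ha hb
    apply Subtype.ext
    show (a : Matrix.SpecialLinearGroup (Fin 2) F) * b = b * a
    rw [eq_uT_of_mem_Un ha, eq_uT_of_mem_Un hb, ← uT_add, ← uT_add, add_comm]
  have hidx : ((Un : Subgroup (Matrix.SpecialLinearGroup (Fin 2) F)).subgroupOf Bo).index =
      Fintype.card F - 1 := by
    have h1 := Subgroup.card_mul_index
      ((Un : Subgroup (Matrix.SpecialLinearGroup (Fin 2) F)).subgroupOf Bo)
    rw [Nat.card_congr (Subgroup.subgroupOfEquivOfLe Un_le_Bo).toEquiv, card_Un, card_Bo] at h1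
    exact Nat.eq_of_mul_eq_mul_left (by omega) h1
  have hpi : ¬ p ∣ ((Un : Subgroup (Matrix.SpecialLinearGroup (Fin 2) F)).subgroupOf Bo).index := by
    rw [hidx]
    intro h
    have h3 : p ∣ Fintype.card F - (Fintype.card F - 1) := Nat.dvd_sub hpq h
    have e : Fintype.card F - (Fintype.card F - 1) = 1 := by omega
    rw [e] at h3
    exact hp.one_lt.ne' (Nat.dvd_one.1 h3)
  rw [card_prime_to_of_abelian_normal p _ hab hpi, card_conjClasses_Bo h2]

end SL2

end Cfsg.Agent.H18.McK
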