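import Mathlib
import Cfsg.Agent.H18.McK1
import Cfsg.Agent.H70.McKaySL2
import Cfsg.Agent.H11.McKayQ
import Cfsg.Agent.H11.McKayO24
import Cfsg.Agent.H81.McKayP2
import Cfsg.Agent.H61.SL2Norm

/-!
# McKay equality for `SL₂(q)`, `q` odd: the prime 2 and the assembly (helper18)
-/

set_option autoImplicit false
set_option linter.unusedSectionVars false
set_option linter.unusedVariables false
set_option linter.deprecated false
set_option linter.unusedSimpArgs false
set_option linter.style.haveILetI false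
set_option linter.unnecessarySeqFocus false
set_option linter.unreachableTactic false
set_option linter.unusedTactic false

namespace Cfsg.Agent.H18.McK

open Cfsg Matrix
open scoped commutatorElement

universe u

/-- A group of order 24 with a normal subgroup `S = ⟨x, y⟩` of order 8 and an element `w`
conjugating `x ↦ y ↦ xy` has commutator subgroup `S`, of index 3. -/
theorem commutator_index_aux {G : Type*} [Group G] (N S : Subgroup G) (hSN : S ≤ N)
    (hS'n : (S.subgroupOf N).Normal) (x y w : G)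
    (hcl : Subgroup.closure ({x, y} : Set G) = S) (hwN : w ∈ N)
    (hwx : w * x * w⁻¹ = y) (hwy : w * y * w⁻¹ = x * y)
    (hS8 : Nat.card S = 8) (hN : Nat.card N = 24) :
    (commutator N).index = 3 := by
  classical
  have hxS : x ∈ S := by rw [← hcl]; exact Subgroup.subset_closure (by simp)
  have hyS : y ∈ S := by rw [← hcl]; exact Subgroup.subset_closure (by simp)
  have hS'card : Nat.card (S.subgroupOf N) = 8 := by
    rw [Nat.card_congr (Subgroup.subgroupOfEquivOfLe hSN).toEquiv, hS8]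
  have hidx : (S.subgroupOf N).index = 3 := by
    have := (S.subgroupOf N).card_mul_index
    rw [hS'card, hN] at this
    omega
  -- commutator ≤ S'
  have hle1 : commutator N ≤ S.subgroupOf N := by
    have hq3 : Nat.card (N ⧸ S.subgroupOf N) = 3 := by
      rw [← Subgroup.index_eq_card]; exact hidx
    haveI : Fact (Nat.Prime 3) := ⟨by norm_num⟩
    haveI : IsCyclic (N ⧸ S.subgroupOf N) := isCyclic_of_prime_card (p := 3) hq3
    letI : CommGroup (N ⧸ S.subgroupOf N) := IsCyclic.commGroup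
    have := Abelianization.commutator_subset_ker (QuotientGroup.mk' (S.subgroupOf N))
    rwa [QuotientGroup.ker_mk'] at this
  -- S' ≤ commutator
  have hle2 : S.subgroupOf N ≤ commutator N := by
    have hxN : x ∈ N := hSN hxS
    have hyN : y ∈ N := hSN hyS
    have hcx : (⟨x, hxN⟩ : N) ∈ commutator N := by
      have h1 : ⁅(⟨w, hwN⟩ : N), (⟨y, hyN⟩ : N)⁆ ∈ commutator N := by
        rw [commutator_def]
        exact Subgroup.commutator_mem_commutator (Subgroup.mem_top _) (Subgroup.mem_top _)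
      have h2 : ⁅(⟨w, hwN⟩ : N), (⟨y, hyN⟩ : N)⁆ = ⟨x, hxN⟩ := by
        apply Subtype.ext
        show w * y * w⁻¹ * y⁻¹ = x
        rw [hwy]; group
      rwa [h2] at h1
    have hcy : (⟨y, hyN⟩ : N) ∈ commutator N := by
      have h1 : ⁅(⟨w, hwN⟩ : N), (⟨x, hxN⟩ : N)⁆ ∈ commutator N := by
        rw [commutator_def]
        exact Subgroup.commutator_mem_commutator (Subgroup.mem_top _) (Subgroup.mem_top _)
      have h2 : ⁅(⟨w, hwN⟩ : N), (⟨x, hxN⟩ : N)⁆ * ⟨x, hxN⟩ = ⟨y, hyN⟩ := by
        apply Subtype.ext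
        show w * x * w⁻¹ * x⁻¹ * x = y
        rw [hwx]; group
      rw [← h2]
      exact Subgroup.mul_mem _ h1 hcx
    have hmap : S ≤ (commutator N).map N.subtype := by
      rw [← hcl, Subgroup.closure_le]
      rintro z (rfl | rfl)
      · exact ⟨⟨z, hxN⟩, hcx, rfl⟩
      · exact ⟨⟨z, hyN⟩, hcy, rfl⟩
    intro g hg
    rw [Subgroup.mem_subgroupOf] at hg
    obtain ⟨h, hh, hhg⟩ := hmap hg
    have : h = g := Subtype.ext hhg
    rwa [this] at hh
  rw [le_antisymm hle1 hle2]
  exact hidx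

section SL2

variable {F : Type*} [Field F] [Fintype F]

/-- The commutator subgroup of the normaliser (of order 24) of a quaternion Sylow 2-subgroup of
order 8 of `SL₂(q)` has index 3. -/
theorem commutator_index_norm_small (hodd : Odd (Fintype.card F))
    (S : Sylow 2 (Matrix.SpecialLinearGroup (Fin 2) F))
    (hS8 : Nat.card (S : Subgroup (Matrix.SpecialLinearGroup (Fin 2) F)) = 8)
    (hN : Nat.card (Subgroup.normalizer
      ((S : Subgroup (Matrix.SpecialLinearGroup (Fin 2) F)) :
        Set (Matrix.SpecialLinearGroup (Fin 2) F))) = 24) :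
    (commutator (Subgroup.normalizer
      ((S : Subgroup (Matrix.SpecialLinearGroup (Fin 2) F)) :
        Set (Matrix.SpecialLinearGroup (Fin 2) F)))).index = 3 := by
  classical
  obtain ⟨x, y, w, hxS, hyS, hx2, hx4, hyx, hwx, hwy⟩ := Cfsg.Agent.H61.exists_q8_in_sylow hodd S
  have hxy : x * y ≠ y * x := by
    intro h
    apply hx2
    have h3 : y * x * y⁻¹ = x := by rw [← h, mul_inv_cancel_right]
    rw [h3] at hyx
    calc x * x = x * x⁻¹ := by rw [← hyx]
      _ = 1 := mul_inv_cancel x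
  have hcl : Subgroup.closure ({x, y} : Set (Matrix.SpecialLinearGroup (Fin 2) F)) =
      (S : Subgroup (Matrix.SpecialLinearGroup (Fin 2) F)) := by
    have hle : Subgroup.closure ({x, y} : Set (Matrix.SpecialLinearGroup (Fin 2) F)) ≤
        (S : Subgroup (Matrix.SpecialLinearGroup (Fin 2) F)) := by
      rw [Subgroup.closure_le]
      rintro z (rfl | rfl)
      · exact hxS
      · exact hyS
    apply Subgroup.eq_of_le_of_card_ge hle
    have hzx : Subgroup.zpowers x ≤
        Subgroup.closure ({x, y} : Set (Matrix.SpecialLinearGroup (Fin 2) F)) := by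
      rw [Subgroup.zpowers_le]
      exact Subgroup.subset_closure (by simp)
    have d1 : 4 ∣ Nat.card (Subgroup.closure
        ({x, y} : Set (Matrix.SpecialLinearGroup (Fin 2) F))) := by
      have := Subgroup.card_dvd_of_le hzx
      rwa [Nat.card_zpowers, hx4] at this
    have d2 : Nat.card (Subgroup.closure
        ({x, y} : Set (Matrix.SpecialLinearGroup (Fin 2) F))) ∣ 8 := by
      rw [← hS8]; exact Subgroup.card_dvd_of_le hle
    have hne4 : Nat.card (Subgroup.closure
        ({x, y} : Set (Matrix.SpecialLinearGroup (Fin 2) F))) ≠ 4 := by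
      intro h4
      have heq : Subgroup.zpowers x =
          Subgroup.closure ({x, y} : Set (Matrix.SpecialLinearGroup (Fin 2) F)) :=
        Subgroup.eq_of_le_of_card_ge hzx (by rw [Nat.card_zpowers, hx4, h4])
      have hy : y ∈ Subgroup.zpowers x := by
        rw [heq]; exact Subgroup.subset_closure (by simp)
      obtain ⟨k, rfl⟩ := Subgroup.mem_zpowers_iff.mp hy
      exact hxy ((Commute.refl x).zpow_right k).eq
    rw [hS8]
    have hpos : 0 < Nat.card (Subgroup.closure
        ({x, y} : Set (Matrix.SpecialLinearGroup (Fin 2) F))) := Nat.card_pos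
    have hle8 := Nat.le_of_dvd (by norm_num) d2
    obtain ⟨c, hc⟩ := d1
    have : c = 1 ∨ c = 2 := by
      rcases d2 with ⟨d, hd⟩
      rw [hc] at hd hle8
      omega
    omega
  have hwN : w ∈ Subgroup.normalizer ((S : Subgroup (Matrix.SpecialLinearGroup (Fin 2) F)) :
      Set (Matrix.SpecialLinearGroup (Fin 2) F)) := by
    apply Subgroup.mem_normalizer_fintype
    intro z hz
    have hz' : z ∈ Subgroup.closure ({x, y} : Set (Matrix.SpecialLinearGroup (Fin 2) F)) := by
      rw [hcl]; exact hz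
    have h1 : MulAut.conj w z ∈
        (Subgroup.closure ({x, y} : Set (Matrix.SpecialLinearGroup (Fin 2) F))).map
          (MulAut.conj w).toMonoidHom :=
      Subgroup.mem_map_of_mem _ hz'
    rw [MonoidHom.map_closure] at h1
    have h3 : Subgroup.closure ((MulAut.conj w).toMonoidHom ''
        ({x, y} : Set (Matrix.SpecialLinearGroup (Fin 2) F))) ≤
        (S : Subgroup (Matrix.SpecialLinearGroup (Fin 2) F)) := by
      rw [Subgroup.closure_le]
      rintro t ⟨s, (rfl | rfl), rfl⟩
      · show w * s * w⁻¹ ∈ (S : Subgroup (Matrix.SpecialLinearGroup (Fin 2) F))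
        rw [hwx]; exact hyS
      · show w * s * w⁻¹ ∈ (S : Subgroup (Matrix.SpecialLinearGroup (Fin 2) F))
        rw [hwy]; exact Subgroup.mul_mem _ hxS hyS
    exact h3 h1
  exact commutator_index_aux _ _ Subgroup.le_normalizer Subgroup.normal_in_normalizer
    x y w hcl hwN hwx hwy hS8 hN

/-- The prime 2: the normaliser of a Sylow 2-subgroup of `SL₂(q)`, `q` odd, has exactly four
irreducible characters of odd degree. -/
theorem norm_count_two (hodd : Odd (Fintype.card F))
    (S : Sylow 2 (Matrix.SpecialLinearGroup (Fin 2) F)) :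
    Nat.card {ψ : IrrCharacter (Subgroup.normalizer
        ((S : Subgroup (Matrix.SpecialLinearGroup (Fin 2) F)) :
          Set (Matrix.SpecialLinearGroup (Fin 2) F))) //
        ¬ 2 ∣ charDegree (ψ : Subgroup.normalizer
          ((S : Subgroup (Matrix.SpecialLinearGroup (Fin 2) F)) :
            Set (Matrix.SpecialLinearGroup (Fin 2) F)) → ℂ)} = 4 := by
  classical
  obtain ⟨n, ⟨e⟩⟩ := Cfsg.Agent.H61.sylow_sl2_quaternion hodd S
  haveI hNZ : NeZero (2 ^ n) := ⟨by positivity⟩
  have hScard : Nat.card (S : Subgroup (Matrix.SpecialLinearGroup (Fin 2) F)) = 4 * 2 ^ n := by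
    rw [Nat.card_congr e.toEquiv, Nat.card_eq_fintype_card, QuaternionGroup.card]
  have h8 : 2 ^ 3 ∣ Nat.card (Matrix.SpecialLinearGroup (Fin 2) F) := by
    rw [Cfsg.Agent.H44.card_SL2]
    obtain ⟨k, hk⟩ := hodd
    rw [hk]
    have h1 : (2 * k + 1) ^ 2 - 1 = 4 * (k * (k + 1)) := by
      have : (2 * k + 1) ^ 2 = 4 * (k * (k + 1)) + 1 := by ring
      omega
    rw [h1]
    obtain ⟨c, hc⟩ := (Nat.even_mul_succ_self k).two_dvd
    rw [hc]
    exact ⟨(2 * k + 1) * c, by ring⟩
  have h8S := S.pow_dvd_card_of_pow_dvd_card h8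
  rw [hScard] at h8S
  have hn1 : 1 ≤ n := by
    rcases Nat.eq_zero_or_pos n with h0 | h0
    · subst h0
      norm_num at h8S
    · exact h0
  rcases Nat.lt_or_ge n 2 with hlt | hge
  · have hn : n = 1 := by omega
    subst hn
    have e' : ↥(S : Subgroup (Matrix.SpecialLinearGroup (Fin 2) F)) ≃* QuaternionGroup 2 := e
    have hN24 := Cfsg.Agent.H61.sl2_normalizer_sylow_small hodd S e'
    exact Cfsg.Agent.H11.McKay.card_odd_degree_24 hN24
      (commutator_index_norm_small hodd S (by rw [hScard]; norm_num) hN24)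
  · have hNS := Cfsg.Agent.H61.sl2_normalizer_sylow_big hodd S n hge e
    rw [card_prime_to_congr ((MulEquiv.subgroupCongr hNS).trans e) 2]
    rw [Cfsg.Agent.H81.McKay.card_odd_degree_two_group (n + 2)
      (by rw [Nat.card_eq_fintype_card, QuaternionGroup.card]; ring)]
    exact Cfsg.Agent.H11.McKay.index_commutator_quaternion (2 ^ n) Nat.one_le_two_pow

/-- The arithmetic of the count on the `SL₂` side. -/
theorem arith_count (k ℓ : ℕ) (hℓ : ℓ.Prime) (hk : 1 ≤ k) (c : ℕ)
    (hc : c = (if ℓ ∣ 2 * k + 1 - 1 then 0 else (2 * k + 1 - 1) / 2) +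
      (if ℓ ∣ (2 * k + 1 - 1) / 2 then 0 else 2) + 1 +
      (if ℓ ∣ 2 * k + 1 then 0 else 1) +
      (if ℓ ∣ (2 * k + 1 + 1) / 2 then 0 else 2) +
      (if ℓ ∣ 2 * k + 1 + 1 then 0 else (2 * k + 1 - 3) / 2)) :
    (ℓ = 2 → c = 4) ∧ (ℓ ≠ 2 → ℓ ∣ 2 * k + 1 → c = 2 * k + 1 + 3) ∧
      (ℓ ≠ 2 → ℓ ∣ 2 * k + 1 - 1 → 2 * c = 2 * k + 1 - 1 + 6) ∧
      (ℓ ≠ 2 → ℓ ∣ 2 * k + 1 + 1 → 2 * c = 2 * k + 1 + 1 + 6) := by
  have e1 : 2 * k + 1 - 1 = 2 * k := by omega
  have e2 : (2 * k + 1 - 1) / 2 = k := by omega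
  have e3 : (2 * k + 1 + 1) / 2 = k + 1 := by omega
  have e4 : 2 * k + 1 + 1 = 2 * (k + 1) := by omega
  have e5 : (2 * k + 1 - 3) / 2 = k - 1 := by omega
  rw [e2, e3, e5, e1, e4] at hc
  rw [e1, e4]
  have hl2 : 2 ≤ ℓ := hℓ.two_le
  -- divisibility helper facts
  have hco : ℓ ≠ 2 → ∀ m, ℓ ∣ 2 * m → ℓ ∣ m := by
    intro h m hm
    rcases (Nat.Prime.dvd_mul hℓ).1 hm with h' | h'
    · exact absurd ((Nat.prime_dvd_prime_iff_eq hℓ Nat.prime_two).1 h') h
    · exact h'
  have hsub : ∀ a b, ℓ ∣ a → ℓ ∣ b → ℓ ∣ b - a := fun a b ha hb => Nat.dvd_sub hb ha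
  have hone : ¬ ℓ ∣ 1 := fun h => by
    have := Nat.le_of_dvd (by norm_num) h
    omega
  have htwo : ℓ ≠ 2 → ¬ ℓ ∣ 2 := fun h h' =>
    h ((Nat.prime_dvd_prime_iff_eq hℓ Nat.prime_two).1 h')
  refine ⟨?_, ?_, ?_, ?_⟩
  · rintro rfl
    have a1 : 2 ∣ 2 * k := ⟨k, rfl⟩
    have a2 : ¬ 2 ∣ 2 * k + 1 := by omega
    have a3 : 2 ∣ 2 * (k + 1) := ⟨k + 1, rfl⟩
    rw [if_pos a1, if_neg a2, if_pos a3] at hc
    split_ifs at hc <;> omega
  · intro h2 hq
    have a1 : ¬ ℓ ∣ 2 * k := fun h => hone (by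
      have := hsub _ _ h hq
      rwa [show 2 * k + 1 - 2 * k = 1 by omega] at this)
    have a2 : ¬ ℓ ∣ k := fun h => a1 (Dvd.dvd.mul_left h 2)
    have a3 : ¬ ℓ ∣ 2 * (k + 1) := fun h => hone (by
      have := hsub _ _ hq h
      rwa [show 2 * (k + 1) - (2 * k + 1) = 1 by omega] at this)
    have a4 : ¬ ℓ ∣ k + 1 := fun h => a3 (Dvd.dvd.mul_left h 2)
    rw [if_neg a1, if_neg a2, if_pos hq, if_neg a4, if_neg a3] at hc
    omega
  · intro h2 hq
    have a2 : ℓ ∣ k := hco h2 k hq
    have a0 : ¬ ℓ ∣ 2 * k + 1 := fun h => hone (by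
      have := hsub _ _ hq h
      rwa [show 2 * k + 1 - 2 * k = 1 by omega] at this)
    have a3 : ¬ ℓ ∣ 2 * (k + 1) := fun h => htwo h2 (by
      have := hsub _ _ hq h
      rwa [show 2 * (k + 1) - 2 * k = 2 by omega] at this)
    have a4 : ¬ ℓ ∣ k + 1 := fun h => a3 (Dvd.dvd.mul_left h 2)
    rw [if_pos hq, if_pos a2, if_neg a0, if_neg a4, if_neg a3] at hc
    omega
  · intro h2 hq
    have a4 : ℓ ∣ k + 1 := hco h2 (k + 1) hq
    have a0 : ¬ ℓ ∣ 2 * k + 1 := fun h => hone (by
      have := hsub _ _ h hq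
      rwa [show 2 * (k + 1) - (2 * k + 1) = 1 by omega] at this)
    have a1 : ¬ ℓ ∣ 2 * k := fun h => htwo h2 (by
      have := hsub _ _ h hq
      rwa [show 2 * (k + 1) - 2 * k = 2 by omega] at this)
    have a2 : ¬ ℓ ∣ k := fun h => a1 (Dvd.dvd.mul_left h 2)
    rw [if_neg a1, if_neg a2, if_neg a0, if_pos a4, if_pos hq] at hc
    omega

/-- **McKay equality for `SL₂(q)`, `q` odd, at every prime.** -/
theorem main_2436 (hodd : Odd (Fintype.card F)) (ℓ : ℕ) [Fact ℓ.Prime]
    (S : Sylow ℓ (Matrix.SpecialLinearGroup (Fin 2) F)) :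
    Nat.card {χ : IrrCharacter (Matrix.SpecialLinearGroup (Fin 2) F) //
        ¬ ℓ ∣ charDegree (χ : Matrix.SpecialLinearGroup (Fin 2) F → ℂ)} =
      Nat.card {ψ : IrrCharacter (Subgroup.normalizer
        ((S : Subgroup (Matrix.SpecialLinearGroup (Fin 2) F)) :
          Set (Matrix.SpecialLinearGroup (Fin 2) F))) //
        ¬ ℓ ∣ charDegree (ψ : Subgroup.normalizer
          ((S : Subgroup (Matrix.SpecialLinearGroup (Fin 2) F)) :
            Set (Matrix.SpecialLinearGroup (Fin 2) F)) → ℂ)} := by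
  classical
  have hℓp : ℓ.Prime := Fact.out
  have hG := Cfsg.Agent.H70.McK.mckay_sl2_count hodd ℓ
  have hq1 : 1 < Fintype.card F := Fintype.one_lt_card
  have hodd' := hodd
  obtain ⟨k, hk⟩ := hodd
  have hk1 : 1 ≤ k := by omega
  have hcardG := Cfsg.Agent.H44.card_SL2 (F := F)
  by_cases hdvd : ℓ ∣ Nat.card (Matrix.SpecialLinearGroup (Fin 2) F)
  · rw [hk] at hG
    obtain ⟨A1, A2, A3, A4⟩ := arith_count k ℓ hℓp hk1 _ hG
    by_cases h2 : ℓ = 2
    · subst h2
      rw [norm_count_two hodd' S]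
      exact A1 rfl
    · by_cases hq : ℓ ∣ Fintype.card F
      · obtain ⟨p, hp⟩ := CharP.exists F
        haveI : Fact p.Prime := ⟨CharP.char_is_prime F p⟩
        obtain ⟨n, -, hn⟩ := FiniteField.card F p
        have hℓeq : ℓ = p := by
          rw [hn] at hq
          exact (Nat.prime_dvd_prime_iff_eq hℓp (CharP.char_is_prime F p)).1
            (hℓp.dvd_of_dvd_pow hq)
        subst hℓeq
        rw [norm_count_char hodd' ℓ S, hk]
        rw [hk] at hq
        exact A2 h2 hq
      · have hT : ℓ ∣ Fintype.card F - 1 ∨ ℓ ∣ Fintype.card F + 1 := by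
          rw [hcardG] at hdvd
          rcases (Nat.Prime.dvd_mul hℓp).1 hdvd with h | h
          · exact absurd h hq
          · have hsq : Fintype.card F ^ 2 - 1 = (Fintype.card F - 1) * (Fintype.card F + 1) := by
              rw [hk]
              have e1 : 2 * k + 1 - 1 = 2 * k := by omega
              rw [e1]
              have : (2 * k + 1) ^ 2 = 2 * k * (2 * k + 1 + 1) + 1 := by ring
              omega
            rw [hsq] at h
            exact (Nat.Prime.dvd_mul hℓp).1 h
        have hN := norm_count_torus hodd' ℓ h2 S hT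
        rw [hk] at hN hT
        by_cases hm : ℓ ∣ 2 * k + 1 - 1
        · rw [if_pos hm] at hN
          have := A3 h2 hm
          omega
        · rw [if_neg hm] at hN
          have := A4 h2 (hT.resolve_left hm)
          omega
  · exact (norm_count_triv ℓ S hdvd).symm

end SL2

end Cfsg.Agent.H18.McK
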