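import Mathlib
import Cfsg.Agent.H95.OhDefs

/-!
# S5992-INV (helper18, for helper95)

An isometry `T` with `T * T = 1` of a nondegenerate space fixes nondegenerate subspaces of every
even dimension `2 ≤ m < dim V` of both types.
-/

set_option autoImplicit false

namespace Cfsg.Agent.H18.Oh

open Cfsg.Agent.H45 Cfsg.Agent.H42.Spd Cfsg.Agent.H42.Ti Cfsg.Agent.H14.Ot Cfsg.Agent.H95.Oh Module

universe u v

theorem isSquare_of_mul_right {F : Type u} [Field F] {a b : F} (hb : b ≠ 0)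
    (hab : IsSquare (a * b)) (hb' : IsSquare b) : IsSquare a := by
  obtain ⟨r, hr⟩ := hab
  obtain ⟨s, hs⟩ := hb'
  have hs0 : s ≠ 0 := by
    rintro rfl
    apply hb
    rw [hs, mul_zero]
  refine ⟨r / s, ?_⟩
  field_simp
  linear_combination hr - a * hs

theorem inv_core (hO : StOrtho.{u, v}) (hD : StDisc.{u, v}) (hS : StSubDisc.{u, v})
    {F : Type u} [Field F] [Fintype F] {V : Type v} [AddCommGroup V] [Module F V]
    [FiniteDimensional F V] (B : V →ₗ[F] V →ₗ[F] F) (T : Module.End F V) (h2 : (2 : F) ≠ 0)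
    (hsym : ∀ x y, B x y = B y x) (Z Z' : Submodule F V) (hZ : Z ⊓ perp B Z = ⊥)
    (hZ' : Z' ⊓ perp B Z' = ⊥) (horth : ∀ x ∈ Z, ∀ y ∈ Z', B x y = 0) (c c' : F)
    (hc : ∀ x ∈ Z, T x = c • x) (hc' : ∀ x ∈ Z', T x = c' • x)
    (hle : finrank F Z' ≤ finrank F Z) (m : ℕ) (pl : Prop) (hm : Even m) (hm2 : 2 ≤ m)
    (hdim : m + 1 ≤ finrank F Z + finrank F Z') :
    ∃ W : Submodule F V, W ∈ T.invtSubmodule ∧ W ⊓ perp B W = ⊥ ∧
      finrank F W = m ∧ (Plus B W ↔ pl) := by
  classical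
  obtain ⟨t, ht⟩ := hm
  obtain ⟨w', hw'Z, hw'o, hw'n, -⟩ := hO F V B h2 hsym Z' hZ'
  have hb'le : min (finrank F Z') (m - 1) ≤ finrank F Z' := min_le_left _ _
  obtain ⟨b', hb'def⟩ : ∃ b' : ℕ, b' = min (finrank F Z') (m - 1) := ⟨_, rfl⟩
  have hb'le' : b' ≤ finrank F Z' := by rw [hb'def]; exact hb'le
  obtain ⟨b, hbdef⟩ : ∃ b : ℕ, b = m - b' := ⟨_, rfl⟩
  have hb1 : 1 ≤ b := by omega
  have hb2 : b + 1 ≤ finrank F Z := by omega
  have hsum : b' + b = 2 * t := by omega
  let v' : Fin b' → V := fun a => w' (Fin.castLE hb'le' a)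
  have hv'Z : ∀ a, v' a ∈ Z' := fun a => hw'Z _
  have hv'o : ∀ a a', a ≠ a' → B (v' a) (v' a') = 0 := by
    intro a a' haa
    apply hw'o
    intro h
    apply haa
    exact Fin.castLE_injective hb'le' h
  have hv'n : ∀ a, B (v' a) (v' a) ≠ 0 := fun a => hw'n _
  have hδ' : (∏ a, B (v' a) (v' a)) ≠ 0 := Finset.prod_ne_zero_iff.mpr (fun a _ => hv'n a)
  have hchar : ringChar F ≠ 2 := by
    intro h
    apply h2
    have := ringChar.Nat.cast_ringChar (R := F)
    rw [h] at this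
    exact_mod_cast this
  obtain ⟨ε, hε0, hε⟩ : ∃ ε : F, ε ≠ 0 ∧ (IsSquare ε ↔ pl) := by
    by_cases hpl : pl
    · exact ⟨1, one_ne_zero, by simp [hpl]⟩
    · obtain ⟨a, ha⟩ := FiniteField.exists_nonsquare hchar
      refine ⟨a, ?_, by simp [ha, hpl]⟩
      rintro rfl
      exact ha (IsSquare.zero)
  have hδ0 : (-1 : F) ^ t * (∏ a, B (v' a) (v' a)) * ε ≠ 0 :=
    mul_ne_zero (mul_ne_zero (pow_ne_zero _ (neg_ne_zero.mpr one_ne_zero)) hδ') hε0
  obtain ⟨v, hvZ, hvo, hvn, hvsq⟩ := hS F V B h2 hsym Z hZ b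
    ((-1 : F) ^ t * (∏ a, B (v' a) (v' a)) * ε) hb1 hb2 hδ0
  let e : Fin b' ⊕ Fin b ≃ Fin (2 * t) := finSumFinEquiv.trans (finCongr hsum)
  let u : Fin (2 * t) → V := fun i => Sum.elim v' v (e.symm i)
  have hso : ∀ p q : Fin b' ⊕ Fin b, p ≠ q → B (Sum.elim v' v p) (Sum.elim v' v q) = 0 := by
    rintro (a | a) (a' | a') hpq
    · exact hv'o a a' (fun h => hpq (by rw [h]))
    · simp only [Sum.elim_inl, Sum.elim_inr]
      rw [hsym]
      exact horth _ (hvZ a') _ (hv'Z a)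
    · simp only [Sum.elim_inl, Sum.elim_inr]
      exact horth _ (hvZ a) _ (hv'Z a')
    · exact hvo a a' (fun h => hpq (by rw [h]))
  have hsn : ∀ p : Fin b' ⊕ Fin b, B (Sum.elim v' v p) (Sum.elim v' v p) ≠ 0 := by
    rintro (a | a)
    · exact hv'n a
    · exact hvn a
  have hsT : ∀ p : Fin b' ⊕ Fin b, ∃ k : F, T (Sum.elim v' v p) = k • Sum.elim v' v p := by
    rintro (a | a)
    · exact ⟨c', hc' _ (hv'Z a)⟩
    · exact ⟨c, hc _ (hvZ a)⟩
  have hu_o : ∀ i j, i ≠ j → B (u i) (u j) = 0 := fun i j hij =>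
    hso _ _ (e.symm.injective.ne hij)
  have hu_n : ∀ i, B (u i) (u i) ≠ 0 := fun i => hsn _
  have hu_T : ∀ i, ∃ k : F, T (u i) = k • u i := fun i => hsT _
  have hprod : ∏ i, B (u i) (u i) = (∏ a, B (v' a) (v' a)) * ∏ a, B (v a) (v a) := by
    rw [Fintype.prod_equiv e.symm (fun i => B (u i) (u i))
      (fun p => B (Sum.elim v' v p) (Sum.elim v' v p)) (fun i => rfl), Fintype.prod_sum_type]
    simp only [Sum.elim_inl, Sum.elim_inr]
  have key : ∀ (g : Fin (2 * t) → F) (j : Fin (2 * t)),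
      B (u j) (∑ i, g i • u i) = g j * B (u j) (u j) := by
    intro g j
    rw [map_sum, Finset.sum_eq_single j]
    · rw [map_smul, smul_eq_mul]
    · intro i _ hij
      rw [map_smul, hu_o j i (Ne.symm hij), smul_zero]
    · intro h
      exact absurd (Finset.mem_univ j) h
  have hLI : LinearIndependent F u := by
    rw [Fintype.linearIndependent_iff]
    intro g hg j
    have h1 := key g j
    rw [hg, map_zero] at h1
    rcases mul_eq_zero.mp h1.symm with h | h
    · exact h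
    · exact absurd h (hu_n j)
  refine ⟨Submodule.span F (Set.range u), ?_, ?_, ?_, ?_⟩
  · rw [Module.End.mem_invtSubmodule, Submodule.span_le]
    rintro _ ⟨i, rfl⟩
    show T (u i) ∈ Submodule.span F (Set.range u)
    obtain ⟨k, hk⟩ := hu_T i
    rw [hk]
    exact Submodule.smul_mem _ k (Submodule.subset_span ⟨i, rfl⟩)
  · rw [eq_bot_iff]
    rintro x ⟨hxW, hxP⟩
    obtain ⟨g, rfl⟩ := (Submodule.mem_span_range_iff_exists_fun F).mp hxW
    have hg : ∀ j, g j = 0 := by
      intro j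
      have h1 := key g j
      have h3 : B (u j) (∑ i, g i • u i) = 0 := hxP (u j) (Submodule.subset_span ⟨j, rfl⟩)
      rw [h3] at h1
      rcases mul_eq_zero.mp h1.symm with h | h
      · exact h
      · exact absurd h (hu_n j)
    rw [Submodule.mem_bot]
    apply Finset.sum_eq_zero
    intro i _
    rw [hg i, zero_smul]
  · rw [finrank_span_eq_card hLI, Fintype.card_fin]
    omega
  · rw [hD F V B h2 hsym t u hu_o hu_n, hprod, ← hε]
    have hX0 : (-1 : F) ^ t * ((∏ a, B (v' a) (v' a)) * ∏ a, B (v a) (v a)) ≠ 0 :=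
      mul_ne_zero (pow_ne_zero _ (neg_ne_zero.mpr one_ne_zero))
        (mul_ne_zero hδ' (Finset.prod_ne_zero_iff.mpr (fun a _ => hvn a)))
    have hXε : IsSquare ((-1 : F) ^ t * ((∏ a, B (v' a) (v' a)) * ∏ a, B (v a) (v a)) * ε) := by
      have e1 : (-1 : F) ^ t * ((∏ a, B (v' a) (v' a)) * ∏ a, B (v a) (v a)) * ε =
          (-1 : F) ^ t * (∏ a, B (v' a) (v' a)) * ε * ∏ a, B (v a) (v a) := by ring
      rw [e1]
      exact hvsq
    constructor
    · intro hX
      have hXε' : IsSquare (ε * ((-1 : F) ^ t * ((∏ a, B (v' a) (v' a)) * ∏ a, B (v a) (v a)))) := by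
        rw [mul_comm]; exact hXε
      exact isSquare_of_mul_right hX0 hXε' hX
    · intro hε'
      exact isSquare_of_mul_right hε0 hXε hε'

theorem inv (hO : StOrtho.{u, v}) (hD : StDisc.{u, v}) (hS : StSubDisc.{u, v}) :
    StInv.{u, v} := by
  intro F _ _ V _ _ _ B T h2 hsym hnd hiso hTT m pl hm hm2 hdim
  classical
  let Vp : Submodule F V := LinearMap.ker (T - 1)
  let Vm : Submodule F V := LinearMap.ker (T + 1)
  have hp : ∀ x ∈ Vp, T x = (1 : F) • x := by
    intro x hx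
    have h1 : (T - 1) x = 0 := LinearMap.mem_ker.mp hx
    rw [LinearMap.sub_apply, Module.End.one_apply, sub_eq_zero] at h1
    rw [one_smul]
    exact h1
  have hmn : ∀ x ∈ Vm, T x = (-1 : F) • x := by
    intro x hx
    have h1 : (T + 1) x = 0 := LinearMap.mem_ker.mp hx
    rw [LinearMap.add_apply, Module.End.one_apply] at h1
    rw [neg_one_smul]
    exact eq_neg_of_add_eq_zero_left h1
  have horth : ∀ x ∈ Vp, ∀ y ∈ Vm, B x y = 0 := by
    intro x hx y hy
    have h1 := hiso x y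
    rw [hp x hx, hmn y hy, one_smul, neg_one_smul, map_neg] at h1
    have h3 : (2 : F) * B x y = 0 := by linear_combination -h1
    exact (mul_eq_zero.mp h3).resolve_left h2
  have hT2 : ∀ x, T (T x) = x := by
    intro x
    have h1 := congrArg (fun f : Module.End F V => f x) hTT
    simpa using h1
  have hsup : Vp ⊔ Vm = ⊤ := by
    rw [eq_top_iff]
    intro x _
    rw [Submodule.mem_sup]
    refine ⟨(2 : F)⁻¹ • (x + T x), ?_, (2 : F)⁻¹ • (x - T x), ?_, ?_⟩
    · show (2 : F)⁻¹ • (x + T x) ∈ LinearMap.ker (T - 1)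
      rw [LinearMap.mem_ker, LinearMap.sub_apply, Module.End.one_apply, map_smul, map_add, hT2,
        add_comm, sub_self]
    · show (2 : F)⁻¹ • (x - T x) ∈ LinearMap.ker (T + 1)
      rw [LinearMap.mem_ker, LinearMap.add_apply, Module.End.one_apply, map_smul, map_sub, hT2,
        ← smul_add]
      simp
    · rw [← smul_add]
      have h1 : x + T x + (x - T x) = (2 : F) • x := by
        rw [two_smul]; abel
      rw [h1, smul_smul, inv_mul_cancel₀ h2, one_smul]
  have hinf : Vp ⊓ Vm = ⊥ := by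
    rw [eq_bot_iff]
    rintro x ⟨hx1, hx2⟩
    have h1 := hp x hx1
    have h3 := hmn x hx2
    rw [h1, one_smul, neg_one_smul] at h3
    have h4 : (2 : F) • x = 0 := by
      rw [two_smul]
      nth_rewrite 1 [h3]
      exact neg_add_cancel x
    rw [Submodule.mem_bot]
    rcases smul_eq_zero.mp h4 with h | h
    · exact absurd h h2
    · exact h
  have hfin : finrank F Vp + finrank F Vm = finrank F V := by
    have h1 := Submodule.finrank_sup_add_finrank_inf_eq Vp Vm
    rw [hsup, hinf, finrank_top, finrank_bot, add_zero] at h1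
    exact h1.symm
  have hndg : ∀ (Z Z' : Submodule F V), Z ⊔ Z' = ⊤ → (∀ x ∈ Z, ∀ y ∈ Z', B x y = 0) →
      Z ⊓ perp B Z = ⊥ := by
    intro Z Z' hs ho
    rw [eq_bot_iff]
    rintro x ⟨hxZ, hxP⟩
    rw [Submodule.mem_bot]
    apply hnd
    intro y
    have hy : y ∈ Z ⊔ Z' := by rw [hs]; trivial
    obtain ⟨z, hz, z', hz', rfl⟩ := Submodule.mem_sup.mp hy
    rw [map_add, ho x hxZ z' hz', add_zero, hsym]
    exact hxP z hz
  have horth' : ∀ x ∈ Vm, ∀ y ∈ Vp, B x y = 0 := fun x hx y hy => by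
    rw [hsym]; exact horth y hy x hx
  have hZp := hndg Vp Vm hsup horth
  have hZm := hndg Vm Vp (by rw [sup_comm]; exact hsup) horth'
  rcases le_total (finrank F Vm) (finrank F Vp) with hle | hle
  · exact inv_core hO hD hS B T h2 hsym Vp Vm hZp hZm horth 1 (-1) hp hmn hle m pl hm hm2
      (by omega)
  · exact inv_core hO hD hS B T h2 hsym Vm Vp hZm hZp horth' (-1) 1 hmn hp hle m pl hm hm2
      (by omega)

example : StOrtho.{u, v} → StDisc.{u, v} → StSubDisc.{u, v} → StInv.{u, v} := inv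

end Cfsg.Agent.H18.Oh
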