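import Mathlib
import Cfsg.Agent.H95.OhDefs

/-!
# S5992-ORTHO (helper18, for helper95)

A nondegenerate subspace has an orthogonal basis of nonsingular vectors.
-/

set_option autoImplicit false

namespace Cfsg.Agent.H18.Oh

open Cfsg.Agent.H45 Cfsg.Agent.H42.Spd Cfsg.Agent.H42.Ti Cfsg.Agent.H14.Ot Cfsg.Agent.H95.Oh Module

universe u v

/-- Field-generic version of `ortho` (no finiteness of the field needed). -/
theorem ortho_gen {F : Type u} [Field F] {V : Type v} [AddCommGroup V] [Module F V]
    [FiniteDimensional F V] (B : V →ₗ[F] V →ₗ[F] F) (h2 : (2 : F) ≠ 0)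
    (hsym : ∀ x y, B x y = B y x) (W : Submodule F V) (hW : W ⊓ perp B W = ⊥) :
    ∃ v : Fin (Module.finrank F W) → V, (∀ a, v a ∈ W) ∧ (∀ a b, a ≠ b → B (v a) (v b) = 0) ∧
      (∀ a, B (v a) (v a) ≠ 0) ∧ Submodule.span F (Set.range v) = W := by
  classical
  have : Invertible (2 : F) := invertibleOfNonzero h2
  let BW : LinearMap.BilinForm F W := B.domRestrict₁₂ W W
  have hBW : ∀ x y : W, BW x y = B x y := fun x y => rfl
  have hBsym : LinearMap.IsSymm BW := by
    refine LinearMap.isSymm_def.mpr (fun x y => ?_)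
    rw [RingHom.id_apply, hBW, hBW]
    exact hsym _ _
  obtain ⟨v, hv⟩ := LinearMap.BilinForm.exists_orthogonal_basis hBsym
  rw [LinearMap.isOrthoᵢ_def] at hv
  refine ⟨fun a => (v a : V), fun a => (v a).2, fun a b hab => ?_, fun a h => ?_, ?_⟩
  · have := hv a b hab
    rw [hBW] at this
    exact this
  · -- `v a` is orthogonal to `W`
    have h1 : (v a : V) ∈ W ⊓ perp B W := by
      refine ⟨(v a).2, ?_⟩
      intro u hu
      have h3 : ∀ w : W, BW w (v a) = 0 := by
        intro w
        rw [← v.sum_repr w, map_sum, LinearMap.sum_apply]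
        apply Finset.sum_eq_zero
        intro b _
        rw [map_smul, LinearMap.smul_apply]
        by_cases hba : b = a
        · subst hba
          rw [hBW, h, smul_zero]
        · rw [hv b a hba, smul_zero]
      exact h3 ⟨u, hu⟩
    rw [hW] at h1
    have h4 : (v a : V) = 0 := (Submodule.mem_bot F).mp h1
    exact v.ne_zero a (Subtype.ext h4)
  · have h5 : Set.range (fun a => (v a : V)) = W.subtype '' Set.range v := by
      ext x
      simp [Set.mem_image]
    rw [h5, Submodule.span_image, v.span_eq, Submodule.map_top, Submodule.range_subtype]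

theorem ortho : StOrtho.{u, v} := by
  intro F _ _ V _ _ _ B h2 hsym W hW
  exact ortho_gen B h2 hsym W hW

example : StOrtho.{u, v} := ortho

end Cfsg.Agent.H18.Oh
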