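import Mathlib
import Cfsg.Agent.H9.S77Defs

/-!
# S0429-STEINER: the planes of srg(77,16,0,4) and the blocks `blk G v` form an S(3,6,22)
-/

set_option autoImplicit false
open Finset Classical Cfsg.Agent.H9.S77

namespace Cfsg.Agent.H18.S77
universe u

theorem steiner : Cfsg.Agent.H9.S77.PieceSteiner.{u} := by
  intro V _ G h hSix hPair hN22 hThree
  have hplane : ∀ C : planes G, IsPlane G C.1 := fun C => by
    have := C.2
    simpa [planes] using this
  have hblk_mem : ∀ v (C : planes G), C ∈ blk G v ↔ v ∈ C.1 := by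
    intro v C
    simp [blk]
  have hblk_card : ∀ v, (blk G v).card = 6 := by
    intro v
    rw [← hSix v]
    apply Finset.card_bij (fun C _ => C.1)
    · intro C hC
      exact Finset.mem_filter.mpr ⟨C.2, (hblk_mem v C).mp hC⟩
    · intro C _ D _ hCD
      exact Subtype.ext hCD
    · intro D hD
      rw [Finset.mem_filter] at hD
      exact ⟨⟨D, hD.1⟩, (hblk_mem v ⟨D, hD.1⟩).mpr hD.2, rfl⟩
  have hnoadj : ∀ v w (C : planes G), v ∈ C.1 → w ∈ C.1 → ¬ G.Adj v w :=
    fun v w C hv hw => (hplane C).1 v hv w hw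
  have hcommon : ∀ v w, v ≠ w → ¬ G.Adj v w → ∃ C : planes G, v ∈ C.1 ∧ w ∈ C.1 := by
    intro v w hvw hadj
    have h2 := hPair v w ⟨hvw, hadj⟩
    have hne : ((planes G).filter (fun C => v ∈ C ∧ w ∈ C)).Nonempty := by
      rw [← Finset.card_pos, h2]; norm_num
    obtain ⟨C, hC⟩ := hne
    rw [Finset.mem_filter] at hC
    exact ⟨⟨C, hC.1⟩, hC.2⟩
  refine ⟨?_, ⟨?_, ?_⟩, ?_, ?_⟩
  · rw [Fintype.card_coe]; exact hN22
  · rintro b ⟨v, rfl⟩
    exact hblk_card v
  · intro s hs
    obtain ⟨A, B, C, hAB, hAC, hBC, rfl⟩ := Finset.card_eq_three.mp hs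
    have h1 := hThree A.1 A.2 B.1 B.2 C.1 C.2 (fun e => hAB (Subtype.ext e))
      (fun e => hAC (Subtype.ext e)) (fun e => hBC (Subtype.ext e))
    obtain ⟨v, hv⟩ := Finset.card_eq_one.mp h1
    have hvm : v ∈ A.1 ∩ B.1 ∩ C.1 := by rw [hv]; exact Finset.mem_singleton_self v
    simp only [Finset.mem_inter] at hvm
    refine ⟨blk G v, ⟨⟨v, rfl⟩, ?_⟩, ?_⟩
    · intro D hD
      simp only [Finset.mem_insert, Finset.mem_singleton] at hD
      rw [hblk_mem]
      rcases hD with rfl | rfl | rfl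
      · exact hvm.1.1
      · exact hvm.1.2
      · exact hvm.2
    · rintro b ⟨⟨w, rfl⟩, hsub⟩
      have hwA : w ∈ A.1 := (hblk_mem w A).mp (hsub (by simp))
      have hwB : w ∈ B.1 := (hblk_mem w B).mp (hsub (by simp))
      have hwC : w ∈ C.1 := (hblk_mem w C).mp (hsub (by simp))
      have hwm : w ∈ A.1 ∩ B.1 ∩ C.1 := by
        simp only [Finset.mem_inter]; exact ⟨⟨hwA, hwB⟩, hwC⟩
      rw [hv] at hwm
      rw [Finset.mem_singleton.mp hwm]
  · intro v w hvw
    by_contra hne
    have hiff : ∀ C : planes G, v ∈ C.1 ↔ w ∈ C.1 := by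
      intro C
      rw [← hblk_mem v C, ← hblk_mem w C, hvw]
    by_cases hadj : G.Adj v w
    · have hne' : (blk G v).Nonempty := by
        rw [← Finset.card_pos, hblk_card v]; norm_num
      obtain ⟨C, hC⟩ := hne'
      have hvC := (hblk_mem v C).mp hC
      exact hnoadj v w C hvC ((hiff C).mp hvC) hadj
    · have h2 := hPair v w ⟨hne, hadj⟩
      have h6 := hSix v
      have he : (planes G).filter (fun C => v ∈ C ∧ w ∈ C) =
          (planes G).filter (fun C => v ∈ C) := by
        apply Finset.filter_congr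
        intro C hC
        have := hiff ⟨C, hC⟩
        constructor
        · exact fun hh => hh.1
        · exact fun hh => ⟨hh, this.mp hh⟩
      rw [he, h6] at h2
      omega
  · intro v w
    constructor
    · intro hadj
      refine ⟨G.ne_of_adj hadj, ?_⟩
      rw [Finset.disjoint_left]
      intro C hCv hCw
      exact hnoadj v w C ((hblk_mem v C).mp hCv) ((hblk_mem w C).mp hCw) hadj
    · rintro ⟨hne, hdis⟩
      by_contra hadj
      obtain ⟨C, hCv, hCw⟩ := hcommon v w hne hadj
      exact (Finset.disjoint_left.mp hdis) ((hblk_mem v C).mpr hCv) ((hblk_mem w C).mpr hCw)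

example : Cfsg.Agent.H9.S77.PieceSteiner.{u} := steiner

end Cfsg.Agent.H18.S77
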