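import Mathlib
import Cfsg.Agent.H9.S77Defs

/-!
# S0429-THREE: three distinct planes of srg(77,16,0,4) have exactly one common vertex
-/

set_option autoImplicit false
open Finset Classical Cfsg.Agent.H9.S77

namespace Cfsg.Agent.H18.S77
universe u

theorem three : Cfsg.Agent.H9.S77.PieceThree.{u} := by
  intro V _ G h hSix hPair hN22 hMeet C₁ hC₁ C₂ hC₂ C₃ hC₃ h12 h13 h23
  have hP₁ : IsPlane G C₁ := by simpa [planes] using hC₁
  have hLcard : (C₁ ∩ C₂).card = 5 := hMeet C₁ hC₁ C₂ hC₂ h12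
  have hC₂' : C₂ ∈ (planes G).erase C₁ := Finset.mem_erase.mpr ⟨Ne.symm h12, hC₂⟩
  have hRcard : (((planes G).erase C₁).erase C₂).card = 20 := by
    rw [Finset.card_erase_of_mem hC₂', Finset.card_erase_of_mem hC₁, hN22]
  have hle : ∀ C ∈ ((planes G).erase C₁).erase C₂, ((C₁ ∩ C₂) ∩ C).card ≤ 1 := by
    intro C hC
    rw [Finset.card_le_one]
    intro a ha b hb
    by_contra hab
    simp only [Finset.mem_inter] at ha hb
    have hNA : NA G a b := ⟨hab, hP₁.1 a ha.1.1 b hb.1.1⟩
    have h2 := hPair a b hNA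
    have hCne2 : C ≠ C₂ := Finset.ne_of_mem_erase hC
    have hCne1 : C ≠ C₁ := Finset.ne_of_mem_erase (Finset.mem_of_mem_erase hC)
    have hCpl : C ∈ planes G := Finset.mem_of_mem_erase (Finset.mem_of_mem_erase hC)
    have hsub : ({C₁, C₂, C} : Finset (Finset V)) ⊆
        (planes G).filter (fun C => a ∈ C ∧ b ∈ C) := by
      intro D hD
      simp only [Finset.mem_insert, Finset.mem_singleton] at hD
      rw [Finset.mem_filter]
      rcases hD with rfl | rfl | rfl
      · exact ⟨hC₁, ha.1.1, hb.1.1⟩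
      · exact ⟨hC₂, ha.1.2, hb.1.2⟩
      · exact ⟨hCpl, ha.2, hb.2⟩
    have hc3 : ({C₁, C₂, C} : Finset (Finset V)).card = 3 := by
      rw [Finset.card_insert_of_notMem, Finset.card_insert_of_notMem, Finset.card_singleton]
      · simpa using hCne2.symm
      · simp only [Finset.mem_insert, Finset.mem_singleton, not_or]
        exact ⟨h12, hCne1.symm⟩
    have := Finset.card_le_card hsub
    omega
  have hsum : ∑ C ∈ ((planes G).erase C₁).erase C₂, ((C₁ ∩ C₂) ∩ C).card = 20 := by
    have h1 : ∀ C : Finset V, ((C₁ ∩ C₂) ∩ C).card = ∑ x ∈ C₁ ∩ C₂, if x ∈ C then 1 else 0 := by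
      intro C
      rw [← Finset.filter_mem_eq_inter, Finset.card_filter]
    simp only [h1]
    rw [Finset.sum_comm]
    have h2 : ∀ x ∈ C₁ ∩ C₂,
        (∑ C ∈ ((planes G).erase C₁).erase C₂, if x ∈ C then 1 else 0) = 4 := by
      intro x hx
      rw [← Finset.card_filter]
      have hx' := Finset.mem_inter.mp hx
      have he : (((planes G).erase C₁).erase C₂).filter (fun C => x ∈ C) =
          (((planes G).filter (fun C => x ∈ C)).erase C₁).erase C₂ := by
        ext D; simp only [Finset.mem_filter, Finset.mem_erase]; tauto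
      rw [he, Finset.card_erase_of_mem, Finset.card_erase_of_mem, hSix x]
      · exact Finset.mem_filter.mpr ⟨hC₁, hx'.1⟩
      · exact Finset.mem_erase.mpr ⟨Ne.symm h12, Finset.mem_filter.mpr ⟨hC₂, hx'.2⟩⟩
    rw [Finset.sum_congr rfl h2, Finset.sum_const, hLcard]
    rfl
  have hall : ∀ C ∈ ((planes G).erase C₁).erase C₂, ((C₁ ∩ C₂) ∩ C).card = 1 := by
    refine (Finset.sum_eq_sum_iff_of_le hle).mp ?_
    rw [hsum, Finset.sum_const, hRcard]
    rfl
  exact hall C₃ (Finset.mem_erase.mpr ⟨Ne.symm h23, Finset.mem_erase.mpr ⟨Ne.symm h13, hC₃⟩⟩)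

example : Cfsg.Agent.H9.S77.PieceThree.{u} := three

end Cfsg.Agent.H18.S77
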