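import Mathlib
import Cfsg.Agent.H42.SpdDefs
import Cfsg.Agent.H31.DecCommon

/-!
`SPD-CYC` (S5961, helper42's team project): a linear map of prime order `r` permuting the
summands of a decomposition nontrivially moves at least `(r - 1) a` dimensions and fixes at
least `a`.
-/

set_option autoImplicit false

namespace Cfsg.Agent.H18.Spd

open Cfsg.Agent.H45 Cfsg.Agent.H42.Spd Cfsg.Agent.H31.Dec Module

universe u v

theorem cyc : StCyc.{u, v} := by
  intro F _ V _ _ _ T r hr hT a t D hD hind σ hσ hex
  classical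
  obtain ⟨j, hj⟩ := hex
  rcases Nat.eq_zero_or_pos a with ha | ha
  · subst ha
    simp
  have hD0 : ∀ j, D j ≠ ⊥ := by
    intro j h0
    have h1 := hD j
    rw [h0, finrank_bot] at h1
    omega
  have hinj : Function.Injective D := hind.injective hD0
  have hσr : (σ ^ r) j = j := sigma_pow_r T r hT D σ hσ hinj j
  have hne : ∀ i k, i < r → k < r → i ≠ k → (σ ^ i) j ≠ (σ ^ k) j :=
    fun i k hi hk hik h => hik (sigma_pow_inj σ r hr j hσr hj i k hi hk h)
  have hTinj : Function.Injective T := by
    intro x y hxy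
    have h1 : (T ^ r) x = (T ^ r) y := by
      rw [← Nat.sub_add_cancel hr.pos, pow_succ, Module.End.mul_apply, Module.End.mul_apply, hxy]
    rwa [hT, Module.End.one_apply, Module.End.one_apply] at h1
  have hmemK : ∀ v, v ∈ LinearMap.ker (T - 1) ↔ T v = v :=
    fun v => Cfsg.Agent.H99.El.mem_ker_sub_one T v
  have hTD : ∀ i, ∀ d ∈ D ((σ ^ i) j), T d ∈ D ((σ ^ (i + 1)) j) := by
    intro i d hd
    have h1 : T d ∈ (D ((σ ^ i) j)).map T := Submodule.mem_map_of_mem hd
    rw [hσ, ← Equiv.Perm.mul_apply, ← pow_succ'] at h1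
    exact h1
  -- the block `k` is disjoint from the sum of the blocks `< m` when `m ≤ k < r`
  have hdisjG : ∀ m k, m ≤ k → k < r →
      D ((σ ^ k) j) ⊓ (⨆ i ∈ Finset.range m, D ((σ ^ i) j)) = ⊥ := by
    intro m k hk hkr
    have h1 := hind ((σ ^ k) j)
    rw [disjoint_iff] at h1
    apply le_antisymm _ bot_le
    rw [← h1]
    apply inf_le_inf_left
    apply iSup₂_le
    intro i hi
    rw [Finset.mem_range] at hi
    exact le_iSup₂ (f := fun l (_ : l ≠ (σ ^ k) j) => D l) ((σ ^ i) j)
      (hne i k (by omega) hkr (by omega))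
  have hmapG : ∀ m, ∀ x ∈ ⨆ i ∈ Finset.range m, D ((σ ^ i) j),
      T x ∈ ⨆ i ∈ Finset.range (m + 1), D ((σ ^ i) j) := by
    intro m
    have h1 : (⨆ i ∈ Finset.range m, D ((σ ^ i) j))
        ≤ (⨆ i ∈ Finset.range (m + 1), D ((σ ^ i) j)).comap T := by
      apply iSup₂_le
      intro i hi d hd
      rw [Finset.mem_range] at hi
      rw [Submodule.mem_comap]
      exact (le_iSup₂ (f := fun l (_ : l ∈ Finset.range (m + 1)) => D ((σ ^ l) j)) (i + 1)
        (Finset.mem_range.mpr (by omega))) (hTD i d hd)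
    exact fun x hx => h1 hx
  have hsplit : ∀ m, (⨆ i ∈ Finset.range (m + 1), D ((σ ^ i) j))
      = D ((σ ^ m) j) ⊔ ⨆ i ∈ Finset.range m, D ((σ ^ i) j) := by
    intro m
    rw [Finset.range_add_one, Finset.iSup_insert]
  constructor
  · have key : ∀ m, m + 1 ≤ r →
        (⨆ i ∈ Finset.range m, D ((σ ^ i) j)) ⊓ LinearMap.ker (T - 1) = ⊥ ∧
        finrank F ↥(⨆ i ∈ Finset.range m, D ((σ ^ i) j)) = m * a := by
      intro m
      induction m with
      | zero =>
        intro _
        have h0 : (⨆ i ∈ Finset.range 0, D ((σ ^ i) j)) = ⊥ := by simp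
        rw [h0]
        exact ⟨bot_inf_eq _, by rw [finrank_bot, zero_mul]⟩
      | succ m ih =>
        intro hm
        obtain ⟨ih1, ih2⟩ := ih (by omega)
        constructor
        · apply le_antisymm _ bot_le
          rintro v ⟨hv, hvK0⟩
          have hvK := (hmemK v).mp hvK0
          have hv' := hv
          rw [hsplit m] at hv'
          obtain ⟨e, he, x, hx, rfl⟩ := Submodule.mem_sup.mp hv'
          have hTx := hmapG m x hx
          have hTe := hTD m e he
          have hTe2 : T e ∈ ⨆ i ∈ Finset.range (m + 1), D ((σ ^ i) j) := by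
            have h3 : T e = e + x - T x := by
              rw [map_add] at hvK
              rw [← hvK]
              abel
            rw [h3]
            exact Submodule.sub_mem _ hv hTx
          have h0 : T e ∈ D ((σ ^ (m + 1)) j) ⊓ (⨆ i ∈ Finset.range (m + 1), D ((σ ^ i) j)) :=
            ⟨hTe, hTe2⟩
          rw [hdisjG (m + 1) (m + 1) le_rfl (by omega), Submodule.mem_bot] at h0
          have he0 : e = 0 := hTinj (by rw [h0, map_zero])
          rw [he0, zero_add] at hvK ⊢
          have : x ∈ (⨆ i ∈ Finset.range m, D ((σ ^ i) j)) ⊓ LinearMap.ker (T - 1) :=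
            ⟨hx, (hmemK x).mpr hvK⟩
          rw [ih1] at this
          exact this
        · rw [hsplit m]
          have h := Submodule.finrank_sup_add_finrank_inf_eq (D ((σ ^ m) j))
            (⨆ i ∈ Finset.range m, D ((σ ^ i) j))
          rw [hdisjG m m le_rfl (by omega), finrank_bot, add_zero, hD, ih2] at h
          rw [h]
          ring
    obtain ⟨k1, k2⟩ := key (r - 1) (by have := hr.pos; omega)
    obtain ⟨X, hX⟩ : ∃ X, X = ⨆ i ∈ Finset.range (r - 1), D ((σ ^ i) j) := ⟨_, rfl⟩
    rw [← hX] at k1 k2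
    rw [← k2]
    let g : ↥X →ₗ[F] ↥(LinearMap.range (T - 1)) :=
      ((T - 1).domRestrict X).codRestrict (LinearMap.range (T - 1))
        (fun x => LinearMap.mem_range_self _ _)
    have hg : Function.Injective g := by
      rw [← LinearMap.ker_eq_bot, LinearMap.ker_eq_bot']
      intro x hx
      have h1 : (T - 1) (x : V) = 0 := congrArg Subtype.val hx
      have h2 : (x : V) ∈ X ⊓ LinearMap.ker (T - 1) := ⟨x.2, LinearMap.mem_ker.mpr h1⟩
      rw [k1, Submodule.mem_bot] at h2
      exact Subtype.ext h2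
    exact LinearMap.finrank_le_finrank_of_injective hg
  · rw [← hD j]
    let g : ↥(D j) →ₗ[F] ↥(LinearMap.ker (T - 1)) :=
      ((phi T r).domRestrict (D j)).codRestrict (LinearMap.ker (T - 1))
        (fun x => phi_mem_ker T r hT _)
    have hg : Function.Injective g := by
      rw [← LinearMap.ker_eq_bot, LinearMap.ker_eq_bot']
      intro d hd
      have h1 : phi T r (d : V) = 0 := congrArg Subtype.val hd
      rw [phi_apply] at h1
      obtain ⟨r', rfl⟩ : ∃ r', r = r' + 1 := ⟨r - 1, by have := hr.pos; omega⟩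
      rw [Finset.sum_range_succ', pow_zero, Module.End.one_apply] at h1
      have h2 : (d : V) = -∑ i ∈ Finset.range r', (T ^ (i + 1)) (d : V) :=
        eq_neg_of_add_eq_zero_right h1
      have h3 : (d : V) ∈ D j ⊓ ⨆ k, ⨆ (_ : k ≠ j), D k := by
        refine ⟨d.2, ?_⟩
        rw [h2]
        apply Submodule.neg_mem
        apply Submodule.sum_mem
        intro i hi
        rw [Finset.mem_range] at hi
        have h4 : (T ^ (i + 1)) (d : V) ∈ D ((σ ^ (i + 1)) j) :=
          pow_apply_mem T D σ hσ (i + 1) j d d.2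
        exact (le_iSup₂ (f := fun l (_ : l ≠ j) => D l) ((σ ^ (i + 1)) j)
          (sigma_pow_ne σ (r' + 1) hr j hσr hj (i + 1) (by omega) (by omega))) h4
      have h5 := hind j
      rw [disjoint_iff] at h5
      rw [h5, Submodule.mem_bot] at h3
      exact Subtype.ext h3
    exact LinearMap.finrank_le_finrank_of_injective hg

example : Cfsg.Agent.H42.Spd.StCyc.{u, v} := cyc

end Cfsg.Agent.H18.Spd
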