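import Mathlib
import Cfsg.Agent.H42.SpdDefs
import Cfsg.Agent.H31.DecCommon

/-!
`SPD-KSUM` (S5961, helper42's team project): for an invariant decomposition the fixed space is
the direct sum of the fixed spaces of the summands.
-/

set_option autoImplicit false

namespace Cfsg.Agent.H18.Spd

open Cfsg.Agent.H45 Cfsg.Agent.H42.Spd Module

universe u v

theorem ksum : StKsum.{u, v} := by
  intro F _ V _ _ _ T t D hind htop hinv
  classical
  obtain ⟨K, hK⟩ : ∃ K, K = LinearMap.ker (T - 1) := ⟨_, rfl⟩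
  have hmemK : ∀ v, v ∈ K ↔ T v = v := by
    intro v
    rw [hK]
    exact Cfsg.Agent.H99.El.mem_ker_sub_one T v
  have hind' : iSupIndep (fun j => D j ⊓ K) := hind.mono (fun j => inf_le_left)
  have hsup : (⨆ j, D j ⊓ K) = K := by
    apply le_antisymm
    · exact iSup_le (fun j => inf_le_right)
    · intro v hv
      have hv1 : v ∈ ⨆ j ∈ (Finset.univ : Finset (Fin t)), D j := by
        simp [htop]
      obtain ⟨μ, hμ⟩ := (Submodule.mem_iSup_finset_iff_exists_sum D v).mp hv1
      have hTv := (hmemK v).mp hv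
      have h0 : ∑ j ∈ (Finset.univ : Finset (Fin t)), (T (μ j : V) - (μ j : V)) = 0 := by
        rw [Finset.sum_sub_distrib, ← map_sum, hμ, hTv, sub_self]
      have hz := (iSupIndep_iff_finsetSum_eq_zero_imp_eq_zero D).mp hind Finset.univ
        (fun j => T (μ j : V) - (μ j : V))
        (fun j _ => (D j).sub_mem ((Module.End.mem_invtSubmodule _).mp (hinv j) (μ j).2) (μ j).2)
        h0
      rw [← hμ]
      apply Submodule.sum_mem
      intro j _
      apply Submodule.mem_iSup_of_mem j
      exact ⟨(μ j).2, (hmemK _).mpr (sub_eq_zero.mp (hz j (Finset.mem_univ j)))⟩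
  have h1 := Cfsg.Agent.H31.Dec.finrank_biSup_indep (fun j => D j ⊓ K) hind' Finset.univ
  have h2 : (⨆ h ∈ (Finset.univ : Finset (Fin t)), D h ⊓ K) = ⨆ j, D j ⊓ K := by simp
  rw [h2, hsup] at h1
  unfold kk
  rw [← hK, h1]

example : Cfsg.Agent.H42.Spd.StKsum.{u, v} := ksum

end Cfsg.Agent.H18.Spd
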