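import Mathlib
import Cfsg.Agent.H23.StbDefs

/-!
# S2125-SYL (helper18, for helper23)

An automorphism `θ` of `G = D.group F` maps the Sylow `p`-subgroup `U ∩ G` to a conjugate of it:
some `g` has `Pres (conjL g θ) U U`.
-/

set_option autoImplicit false

namespace Cfsg.Agent.H18.Stb

open Cfsg.Lie Cfsg.Agent.H23 Cfsg.Agent.H23.Stb
open scoped Pointwise

universe u

theorem syl : StSyl.{u} := by
  intro D F _ _ p _ θ hP
  obtain ⟨P, hP⟩ := hP
  classical
  let _ : Fintype F := Fintype.ofFinite F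
  have : Finite ↥(D.group F) := inferInstance
  obtain ⟨g, hg⟩ := MulAction.exists_smul_eq ↥(D.group F)
    ((θ : MulAut ↥(D.group F)) • P) P
  refine ⟨g, ?_⟩
  intro y
  have h1 : ∀ x : ↥(D.group F), (x : GL D.Idx F) ∈ D.posUnipotent F ↔
      x ∈ (P : Subgroup ↥(D.group F)) := by
    intro x
    rw [hP, Subgroup.mem_subgroupOf]
  rw [h1, h1, conjL_apply]
  have h2 : (P : Subgroup ↥(D.group F)) = MulAut.conj g •
      ((θ : MulAut ↥(D.group F)) • (P : Subgroup ↥(D.group F))) := by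
    conv_lhs => rw [← hg]
    rfl
  have h3 : g * θ y * g⁻¹ ∈ MulAut.conj g •
      ((θ : MulAut ↥(D.group F)) • (P : Subgroup ↥(D.group F))) ↔
      y ∈ (P : Subgroup ↥(D.group F)) := by
    have e1 : g * θ y * g⁻¹ = MulAut.conj g • ((θ : MulAut ↥(D.group F)) • y) := rfl
    rw [e1, Subgroup.smul_mem_pointwise_smul_iff, Subgroup.smul_mem_pointwise_smul_iff]
  rw [← h2] at h3
  exact h3

example : StSyl.{u} := syl

end Cfsg.Agent.H18.Stb
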