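import Mathlib
import Cfsg.Agent.H18.SubSYM

/-!
Common tools for the witness pieces of `S5965` (helper99's team project): ranks of
`diagonal d - μ`, and the roots of unity fixed by the `q₀`-power map.
-/

set_option autoImplicit false

namespace Cfsg.Agent.H18.Sub

variable {F : Type*} [Field F] [Fintype F]

theorem rank_diag_sub {K : Type*} [Field K] [DecidableEq K] {n : ℕ} (d : Fin n → K) (μ : K) :
    (Matrix.diagonal d - μ • (1 : Matrix (Fin n) (Fin n) K)).rank
      = ∑ i, (if d i ≠ μ then 1 else 0) := by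
  rw [Matrix.smul_one_eq_diagonal, Matrix.diagonal_sub, Matrix.rank_diagonal, Fintype.card_subtype,
    Finset.card_filter]
  refine Finset.sum_congr rfl (fun i _ => ?_)
  by_cases h : d i = μ
  · rw [if_neg (by rw [h, sub_self]; exact not_not.mpr rfl), if_neg (not_not.mpr h)]
  · rw [if_pos (sub_ne_zero.mpr h), if_pos h]

/-- An `r`-th root of unity fixed by the `q₀`-power map is `1` when `r ∤ q₀ - 1`. -/
theorem eq_one_of_pow_card (F₀ : Subfield F) (r : ℕ) (hr : r.Prime)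
    (hNR : ¬ r ∣ Nat.card ↥F₀ - 1) (θ : F) (hq : θ ^ Nat.card ↥F₀ = θ) (hθ : θ ^ r = 1) :
    θ = 1 := by
  have hθ0 : θ ≠ 0 := by
    rintro rfl
    rw [zero_pow hr.ne_zero] at hθ
    exact zero_ne_one hθ
  have hpos : 0 < Nat.card ↥F₀ := Nat.card_pos
  have h1 : θ ^ (Nat.card ↥F₀ - 1) = 1 := by
    have h2 : θ ^ (Nat.card ↥F₀ - 1) * θ = 1 * θ := by
      rw [← pow_succ, Nat.sub_add_cancel hpos, hq, one_mul]
    exact mul_right_cancel₀ hθ0 h2
  have h3 := pow_gcd_eq_one.mpr ⟨hθ, h1⟩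
  rw [(Nat.Prime.coprime_iff_not_dvd hr).mpr hNR, pow_one] at h3
  exact h3

theorem pow_card_injective (F₀ : Subfield F) (a b : F)
    (h : a ^ Nat.card ↥F₀ = b ^ Nat.card ↥F₀) : a = b := by
  obtain ⟨σ, hσ⟩ := exists_frob F₀
  apply σ.injective
  rw [hσ, hσ, h]

end Cfsg.Agent.H18.Sub
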