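import Mathlib
import Cfsg.Agent.H18.SubWit

/-!
`S5965-WA` (helper99's team project): a witness `diag (u', u, …, u)`.
-/

set_option autoImplicit false

open scoped MatrixGroups

namespace Cfsg.Agent.H18.Sub

variable {F : Type*} [Field F] [Fintype F]

theorem exists_witness_A (F₀ : Subfield F) (n r : ℕ) (hn : 3 ≤ n) (hr : r.Prime)
    (hNR : ¬ r ∣ Nat.card ↥F₀ - 1) (u : F) (hu : u ≠ 0) (h1 : u ^ n ≠ 1)
    (hr1 : (u ^ n) ^ r = 1) :
    ∃ M : Matrix (Fin n) (Fin n) F, M.det = 1 ∧ M ^ r = (u ^ r) • (1 : Matrix (Fin n) (Fin n) F) ∧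
      (∀ z : F, M ≠ z • (1 : Matrix (Fin n) (Fin n) F)) ∧
      ¬ ∃ τ : F, τ ≠ 0 ∧ ∀ ν : F, (M - ν • (1 : Matrix (Fin n) (Fin n) F)).rank
        = (M - (τ * ν ^ Nat.card ↥F₀) • (1 : Matrix (Fin n) (Fin n) F)).rank := by
  classical
  obtain ⟨k, rfl⟩ : ∃ k, n = k + 1 := ⟨n - 1, by omega⟩
  have hk : 2 ≤ k := by omega
  obtain ⟨u', hu'⟩ : ∃ u', u' = (u ^ k)⁻¹ := ⟨_, rfl⟩
  have huk : u ^ k ≠ 0 := pow_ne_zero _ hu
  have hu'0 : u' ≠ 0 := by rw [hu']; exact inv_ne_zero huk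
  have hθe : u * u'⁻¹ = u ^ (k + 1) := by rw [hu', inv_inv, pow_succ']
  have hu'u : u' ≠ u := by
    intro h
    apply h1
    rw [← hθe, h, mul_inv_cancel₀ hu]
  obtain ⟨d, hd⟩ : ∃ d : Fin (k + 1) → F, d = Fin.cons u' (fun _ : Fin k => u) := ⟨_, rfl⟩
  have hd0 : d 0 = u' := by rw [hd]; rfl
  have hds : ∀ i : Fin k, d i.succ = u := by intro i; rw [hd]; rfl
  have hR : ∀ μ : F, (Matrix.diagonal d - μ • (1 : Matrix (Fin (k + 1)) (Fin (k + 1)) F)).rank
      = (if u' ≠ μ then 1 else 0) + k * (if u ≠ μ then 1 else 0) := by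
    intro μ
    rw [rank_diag_sub, Fin.sum_univ_succ, hd0]
    simp only [hds, Finset.sum_const, Finset.card_univ, Fintype.card_fin, smul_eq_mul]
  refine ⟨Matrix.diagonal d, ?_, ?_, ?_, ?_⟩
  · rw [Matrix.det_diagonal, Fin.prod_univ_succ, hd0]
    simp only [hds, Finset.prod_const, Finset.card_univ, Fintype.card_fin]
    rw [hu', inv_mul_cancel₀ huk]
  · rw [Matrix.diagonal_pow, Matrix.smul_one_eq_diagonal]
    congr 1
    funext i
    rw [Pi.pow_apply]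
    refine Fin.cases ?_ (fun j => ?_) i
    · rw [hd0, hu', inv_pow]
      symm
      apply eq_inv_of_mul_eq_one_left
      rw [← mul_pow, ← pow_succ']
      exact hr1
    · rw [hds]
  · intro z h
    have e0 := congrFun (congrFun h 0) 0
    have e1 := congrFun (congrFun h (Fin.succ ⟨0, by omega⟩)) (Fin.succ ⟨0, by omega⟩)
    simp only [Matrix.diagonal_apply_eq, Matrix.smul_apply, Matrix.one_apply_eq, smul_eq_mul,
      mul_one] at e0 e1
    rw [hd0] at e0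
    rw [hds] at e1
    exact hu'u (e0.trans e1.symm)
  · rintro ⟨τ, hτ0, hτ⟩
    have hRu : (Matrix.diagonal d - u • (1 : Matrix (Fin (k + 1)) (Fin (k + 1)) F)).rank = 1 := by
      rw [hR, if_pos hu'u, if_neg (not_not.mpr rfl), mul_zero, add_zero]
    have hRu' : (Matrix.diagonal d - u' • (1 : Matrix (Fin (k + 1)) (Fin (k + 1)) F)).rank
        = k := by
      rw [hR, if_neg (not_not.mpr rfl), if_pos (Ne.symm hu'u), mul_one, zero_add]
    have e1 : τ * u ^ Nat.card ↥F₀ = u := by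
      by_contra hne
      have h2 := hτ u
      rw [hRu, hR, if_pos (Ne.symm hne)] at h2
      split_ifs at h2 <;> omega
    have e2 : τ * u' ^ Nat.card ↥F₀ = u' := by
      by_contra hne
      have h2 := hτ u'
      rw [hRu', hR, if_pos (Ne.symm hne)] at h2
      split_ifs at h2 <;> omega
    have a1 : u ^ Nat.card ↥F₀ = τ⁻¹ * u := (eq_inv_mul_iff_mul_eq₀ hτ0).mpr e1
    have a2 : u' ^ Nat.card ↥F₀ = τ⁻¹ * u' := (eq_inv_mul_iff_mul_eq₀ hτ0).mpr e2
    have hθ : (u * u'⁻¹) ^ Nat.card ↥F₀ = u * u'⁻¹ := by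
      rw [mul_pow, inv_pow, a1, a2]
      field_simp
    have hθr : (u * u'⁻¹) ^ r = 1 := by rw [hθe]; exact hr1
    have h3 := eq_one_of_pow_card F₀ r hr hNR (u * u'⁻¹) hθ hθr
    rw [hθe] at h3
    exact h1 h3

end Cfsg.Agent.H18.Sub
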