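import Mathlib

set_option autoImplicit false
open scoped Kronecker

namespace Cfsg.Agent.H18.Ten

theorem exists_norm_eq {F : Type*} [Field F] [Fintype F] (h2 : (2 : F) ≠ 0) (z : F)
    (hz0 : z ≠ 0) (d : F) : ∃ α β : F, α ^ 2 - z * β ^ 2 = d := by
  have hchar : ringChar F ≠ 2 := by
    intro h
    apply h2
    have := (ringChar.spec F 2).mpr (by rw [h])
    exact_mod_cast this
  have hf : (Polynomial.X ^ 2 - Polynomial.C d : Polynomial F).degree = 2 :=
    Polynomial.degree_X_pow_sub_C (by norm_num) d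
  have hg : (Polynomial.C (-z) * Polynomial.X ^ 2 : Polynomial F).degree = 2 :=
    Polynomial.degree_C_mul_X_pow 2 (neg_ne_zero.mpr hz0)
  obtain ⟨α, β, h⟩ := FiniteField.exists_root_sum_quadratic hf hg
    (FiniteField.odd_card_of_char_ne_two hchar)
  refine ⟨α, β, ?_⟩
  simp at h
  linear_combination h

/-- S5979-CEN -/
theorem exists_centralizer_det {F : Type*} [Field F] [Fintype F] (h2 : (2 : F) ≠ 0) {n b : ℕ}
    (hb : 0 < b) (e : Fin n ≃ Fin 2 × Fin b) (z : F) (hz : ∀ y : F, y ^ 2 ≠ z) (d : F)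
    (hd : d ≠ 0) :
    ∃ h : Matrix (Fin n) (Fin n) F, h.det = d ∧
      h * Matrix.reindex e.symm e.symm
          ((!![0, z; 1, 0] : Matrix (Fin 2) (Fin 2) F) ⊗ₖ (1 : Matrix (Fin b) (Fin b) F))
        = Matrix.reindex e.symm e.symm
          ((!![0, z; 1, 0] : Matrix (Fin 2) (Fin 2) F) ⊗ₖ (1 : Matrix (Fin b) (Fin b) F)) * h := by
  classical
  have hz0 : z ≠ 0 := by
    intro h; exact hz 0 (by rw [h]; ring)
  obtain ⟨α, β, hαβ⟩ := exists_norm_eq h2 z hz0 d
  obtain ⟨C, hC⟩ : ∃ C : Matrix (Fin 2) (Fin 2) F, C = !![0, z; 1, 0] := ⟨_, rfl⟩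
  obtain ⟨N, hN⟩ : ∃ N : Matrix (Fin 2) (Fin 2) F, N = !![α, β * z; β, α] := ⟨_, rfl⟩
  have hNC : N * C = C * N := by
    rw [hN, hC, Matrix.mul_fin_two, Matrix.mul_fin_two]
    congr 1
    ext i j; fin_cases i <;> fin_cases j <;> simp <;> ring
  have hdetN : N.det = d := by rw [hN, Matrix.det_fin_two_of]; linear_combination hαβ
  have hkron : C ⊗ₖ (1 : Matrix (Fin b) (Fin b) F) = Matrix.blockDiagonal (fun _ : Fin b => C) := by
    ext ⟨i, j⟩ ⟨i', j'⟩
    simp [Matrix.kroneckerMap_apply, Matrix.blockDiagonal_apply, Matrix.one_apply]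
  rw [← hC, hkron]
  let M : Fin b → Matrix (Fin 2) (Fin 2) F := fun j => if j = ⟨0, hb⟩ then N else 1
  refine ⟨Matrix.reindex e.symm e.symm (Matrix.blockDiagonal M), ?_, ?_⟩
  · rw [Matrix.det_reindex_self, Matrix.det_blockDiagonal]
    rw [Finset.prod_eq_single (⟨0, hb⟩ : Fin b)]
    · simp [M, hdetN]
    · intro j _ hj; simp [M, hj]
    · intro h; exact absurd (Finset.mem_univ _) h
  · simp only [Matrix.reindex_apply, Equiv.symm_symm]
    rw [Matrix.submatrix_mul_equiv, Matrix.submatrix_mul_equiv, ← Matrix.blockDiagonal_mul,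
      ← Matrix.blockDiagonal_mul]
    congr 2
    funext j
    by_cases hj : j = ⟨0, hb⟩ <;> simp [M, hj, hNC]

end Cfsg.Agent.H18.Ten

section check
open Cfsg.Agent.H18.Ten in
example {F : Type*} [Field F] [Fintype F] (h2 : (2 : F) ≠ 0) {n b : ℕ}
    (hb : 0 < b) (e : Fin n ≃ Fin 2 × Fin b) (z : F) (hz : ∀ y : F, y ^ 2 ≠ z) (d : F)
    (hd : d ≠ 0) :
    ∃ h : Matrix (Fin n) (Fin n) F, h.det = d ∧
      h * Matrix.reindex e.symm e.symm
          ((!![0, z; 1, 0] : Matrix (Fin 2) (Fin 2) F) ⊗ₖ (1 : Matrix (Fin b) (Fin b) F))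
        = Matrix.reindex e.symm e.symm
          ((!![0, z; 1, 0] : Matrix (Fin 2) (Fin 2) F) ⊗ₖ (1 : Matrix (Fin b) (Fin b) F)) * h :=
  exists_centralizer_det h2 hb e z hz d hd
end check
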