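import Mathlib

set_option autoImplicit false
open scoped Kronecker

namespace Cfsg.Agent.H18.Ten

open Matrix

/-- a non-scalar matrix moves some vector off its line -/
theorem exists_indep_of_not_scalar {F : Type*} [Field F] {n : Type*} [Fintype n] [DecidableEq n]
    (A : Matrix n n F) (hA : ¬ ∃ α : F, A = α • (1 : Matrix n n F)) :
    ∃ u : n → F, ∀ x y : F, x • u + y • (A *ᵥ u) = 0 → x = 0 ∧ y = 0 := by
  by_contra hcon
  push Not at hcon
  -- every vector is an eigenvector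
  have heig : ∀ u : n → F, ∃ c : F, A *ᵥ u = c • u := by
    intro u
    obtain ⟨x, y, hxy, hne⟩ := hcon u
    by_cases hy : y = 0
    · subst hy
      have hx : x ≠ 0 := fun hx => by simp [hx] at hne
      have hu : u = 0 := by
        rw [zero_smul, add_zero] at hxy
        exact (smul_eq_zero.mp hxy).resolve_left hx
      exact ⟨0, by rw [hu]; simp⟩
    · refine ⟨-(x / y), ?_⟩
      have h1 : y • (A *ᵥ u) = -(x • u) := by
        rw [eq_neg_iff_add_eq_zero, add_comm]; exact hxy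
      have h2 : A *ᵥ u = y⁻¹ • (y • (A *ᵥ u)) := by
        rw [smul_smul, inv_mul_cancel₀ hy, one_smul]
      rw [h2, h1, smul_neg, smul_smul, neg_smul, div_eq_mul_inv, mul_comm]
  choose c hc using fun i : n => heig (Pi.single i 1)
  have hentry : ∀ i j : n, A j i = if j = i then c i else 0 := by
    intro i j
    have := congrFun (hc i) j
    rw [Matrix.mulVec_single_one] at this
    simp only [Matrix.col_apply, Pi.smul_apply, smul_eq_mul, Pi.single_apply] at this
    rw [this]; split_ifs <;> simp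
  have hconst : ∀ i j : n, c i = c j := by
    intro i j
    by_cases hij : i = j
    · rw [hij]
    obtain ⟨t, ht⟩ := heig (Pi.single i 1 + Pi.single j 1)
    rw [Matrix.mulVec_add, Matrix.mulVec_single_one, Matrix.mulVec_single_one] at ht
    have h1 := congrFun ht i
    have h2 := congrFun ht j
    simp only [Pi.add_apply, Matrix.col_apply, Pi.smul_apply, smul_eq_mul, Pi.single_apply] at h1 h2
    rw [hentry i i, hentry j i, if_pos rfl, if_neg hij] at h1
    rw [hentry i j, hentry j j, if_pos rfl, if_neg (Ne.symm hij)] at h2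
    simp [hij, Ne.symm hij] at h1 h2
    rw [h1, h2]
  apply hA
  rcases isEmpty_or_nonempty n with hn | ⟨⟨i₀⟩⟩
  · exact ⟨0, by ext i; exact (hn.false i).elim⟩
  · refine ⟨c i₀, ?_⟩
    ext j i
    rw [hentry i j, Matrix.smul_apply, Matrix.one_apply, hconst i i₀]
    split_ifs <;> simp

theorem kron_mulVec_tensor {F : Type*} [Field F] {a b : ℕ} (A : Matrix (Fin a) (Fin a) F)
    (B : Matrix (Fin b) (Fin b) F) (u : Fin a → F) (w : Fin b → F) (p : Fin a × Fin b) :
    ((A ⊗ₖ B) *ᵥ (fun q : Fin a × Fin b => u q.1 * w q.2)) p = (A *ᵥ u) p.1 * (B *ᵥ w) p.2 := by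
  simp only [Matrix.mulVec, dotProduct, Matrix.kroneckerMap_apply, Fintype.sum_prod_type]
  rw [Finset.sum_mul_sum]
  apply Finset.sum_congr rfl; intro i _
  apply Finset.sum_congr rfl; intro j _
  ring

theorem le_rank_left {F : Type*} [Field F] {a b : ℕ} (A : Matrix (Fin a) (Fin a) F)
    (B : Matrix (Fin b) (Fin b) F) (hB : IsUnit B.det) (μ : F) (u : Fin a → F)
    (hu : ∀ x y : F, x • u + y • (A *ᵥ u) = 0 → x = 0 ∧ y = 0) :
    b ≤ (A ⊗ₖ B - μ • (1 : Matrix (Fin a × Fin b) (Fin a × Fin b) F)).rank := by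
  obtain ⟨K, hK⟩ : ∃ K, K = A ⊗ₖ B - μ • (1 : Matrix (Fin a × Fin b) (Fin a × Fin b) F) :=
    ⟨_, rfl⟩
  rw [← hK]
  let T : (Fin b → F) →ₗ[F] (Fin a × Fin b → F) :=
    { toFun := fun w p => u p.1 * w p.2
      map_add' := by intro w w'; ext p; simp [mul_add]
      map_smul' := by intro c w; ext p; simp; ring }
  have hKT : ∀ (w : Fin b → F) (p : Fin a × Fin b),
      (K *ᵥ (T w)) p = (A *ᵥ u) p.1 * (B *ᵥ w) p.2 - μ * (u p.1 * w p.2) := by
    intro w p
    rw [hK, Matrix.sub_mulVec, Pi.sub_apply, Matrix.smul_mulVec, Matrix.one_mulVec]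
    simp only [Pi.smul_apply, smul_eq_mul]
    congr 1
    exact kron_mulVec_tensor A B u w p
  have hinj : Function.Injective (K.mulVecLin ∘ₗ T) := by
    rw [← LinearMap.ker_eq_bot, LinearMap.ker_eq_bot']
    intro w hw
    have h0 : ∀ p, (K *ᵥ (T w)) p = 0 := fun p => by
      have := congrFun hw p
      simpa using this
    have hBw : B *ᵥ w = 0 := by
      funext j
      have := hu (-(μ * w j)) ((B *ᵥ w) j) (by
        funext i
        have h1 := h0 (i, j)
        rw [hKT] at h1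
        simp only [Pi.add_apply, Pi.smul_apply, smul_eq_mul, Pi.zero_apply]
        linear_combination h1)
      exact this.2
    exact Matrix.eq_zero_of_mulVec_eq_zero hB.ne_zero hBw
  calc b = Module.finrank F (Fin b → F) := by simp
    _ = Module.finrank F (LinearMap.range (K.mulVecLin ∘ₗ T)) :=
        (LinearMap.finrank_range_of_inj hinj).symm
    _ ≤ Module.finrank F (LinearMap.range K.mulVecLin) :=
        Submodule.finrank_mono (LinearMap.range_comp_le_range _ _)
    _ = K.rank := rfl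

theorem le_rank_right {F : Type*} [Field F] {a b : ℕ} (A : Matrix (Fin a) (Fin a) F)
    (B : Matrix (Fin b) (Fin b) F) (hA : IsUnit A.det) (μ : F) (w : Fin b → F)
    (hw : ∀ x y : F, x • w + y • (B *ᵥ w) = 0 → x = 0 ∧ y = 0) :
    a ≤ (A ⊗ₖ B - μ • (1 : Matrix (Fin a × Fin b) (Fin a × Fin b) F)).rank := by
  obtain ⟨K, hK⟩ : ∃ K, K = A ⊗ₖ B - μ • (1 : Matrix (Fin a × Fin b) (Fin a × Fin b) F) :=
    ⟨_, rfl⟩
  rw [← hK]
  let T : (Fin a → F) →ₗ[F] (Fin a × Fin b → F) :=
    { toFun := fun v p => v p.1 * w p.2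
      map_add' := by intro v v'; ext p; simp [add_mul]
      map_smul' := by intro c v; ext p; simp; ring }
  have hKT : ∀ (v : Fin a → F) (p : Fin a × Fin b),
      (K *ᵥ (T v)) p = (A *ᵥ v) p.1 * (B *ᵥ w) p.2 - μ * (v p.1 * w p.2) := by
    intro v p
    rw [hK, Matrix.sub_mulVec, Pi.sub_apply, Matrix.smul_mulVec, Matrix.one_mulVec]
    simp only [Pi.smul_apply, smul_eq_mul]
    congr 1
    exact kron_mulVec_tensor A B v w p
  have hinj : Function.Injective (K.mulVecLin ∘ₗ T) := by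
    rw [← LinearMap.ker_eq_bot, LinearMap.ker_eq_bot']
    intro v hv
    have h0 : ∀ p, (K *ᵥ (T v)) p = 0 := fun p => by
      have := congrFun hv p
      simpa using this
    have hAv : A *ᵥ v = 0 := by
      funext i
      have := hw (-(μ * v i)) ((A *ᵥ v) i) (by
        funext j
        have h1 := h0 (i, j)
        rw [hKT] at h1
        simp only [Pi.add_apply, Pi.smul_apply, smul_eq_mul, Pi.zero_apply]
        linear_combination h1)
      exact this.2
    exact Matrix.eq_zero_of_mulVec_eq_zero hA.ne_zero hAv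
  calc a = Module.finrank F (Fin a → F) := by simp
    _ = Module.finrank F (LinearMap.range (K.mulVecLin ∘ₗ T)) :=
        (LinearMap.finrank_range_of_inj hinj).symm
    _ ≤ Module.finrank F (LinearMap.range K.mulVecLin) :=
        Submodule.finrank_mono (LinearMap.range_comp_le_range _ _)
    _ = K.rank := rfl

/-- S5979-RANK (1) -/
theorem le_rank_kronecker_sub {F : Type*} [Field F] {a b : ℕ} (A : Matrix (Fin a) (Fin a) F)
    (B : Matrix (Fin b) (Fin b) F) (hA : IsUnit A.det) (hB : IsUnit B.det) (μ : F) :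
    ((¬ ∃ α : F, A = α • (1 : Matrix (Fin a) (Fin a) F)) →
      b ≤ (A ⊗ₖ B - μ • (1 : Matrix (Fin a × Fin b) (Fin a × Fin b) F)).rank) ∧
    ((¬ ∃ β : F, B = β • (1 : Matrix (Fin b) (Fin b) F)) →
      a ≤ (A ⊗ₖ B - μ • (1 : Matrix (Fin a × Fin b) (Fin a × Fin b) F)).rank) := by
  constructor
  · intro h
    obtain ⟨u, hu⟩ := exists_indep_of_not_scalar A h
    exact le_rank_left A B hB μ u hu
  · intro h
    obtain ⟨w, hw⟩ := exists_indep_of_not_scalar B h
    exact le_rank_right A B hA μ w hw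

theorem rank_one_kronecker {F : Type*} [Field F] {a b : ℕ} (C : Matrix (Fin b) (Fin b) F) :
    ((1 : Matrix (Fin a) (Fin a) F) ⊗ₖ C).rank = a * C.rank := by
  classical
  obtain ⟨L, L', D, hC⟩ := Matrix.Pivot.exists_list_transvec_mul_diagonal_mul_list_transvec C
  obtain ⟨P, hP⟩ : ∃ P, P = (L.map Matrix.TransvectionStruct.toMatrix).prod := ⟨_, rfl⟩
  obtain ⟨Q, hQ⟩ : ∃ Q, Q = (L'.map Matrix.TransvectionStruct.toMatrix).prod := ⟨_, rfl⟩
  rw [← hP, ← hQ] at hC
  have hPdet : P.det = 1 := by rw [hP]; exact Matrix.TransvectionStruct.det_toMatrix_prod L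
  have hQdet : Q.det = 1 := by rw [hQ]; exact Matrix.TransvectionStruct.det_toMatrix_prod L'
  have hrC : C.rank = Fintype.card {j // D j ≠ 0} := by
    rw [hC, Matrix.rank_mul_eq_left_of_isUnit_det Q _ (by rw [hQdet]; exact isUnit_one),
      Matrix.rank_mul_eq_right_of_isUnit_det P _ (by rw [hPdet]; exact isUnit_one),
      Matrix.rank_diagonal]
  have h1 : (1 : Matrix (Fin a) (Fin a) F) ⊗ₖ C =
      ((1 : Matrix (Fin a) (Fin a) F) ⊗ₖ P) * ((1 : Matrix (Fin a) (Fin a) F) ⊗ₖ diagonal D) *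
        ((1 : Matrix (Fin a) (Fin a) F) ⊗ₖ Q) := by
    rw [← Matrix.mul_kronecker_mul, ← Matrix.mul_kronecker_mul, mul_one, mul_one, ← hC]
  have hP' : IsUnit ((1 : Matrix (Fin a) (Fin a) F) ⊗ₖ P).det := by
    rw [Matrix.det_kronecker, hPdet]; simp
  have hQ' : IsUnit ((1 : Matrix (Fin a) (Fin a) F) ⊗ₖ Q).det := by
    rw [Matrix.det_kronecker, hQdet]; simp
  have h2 : (1 : Matrix (Fin a) (Fin a) F) ⊗ₖ diagonal D =
      diagonal (fun p : Fin a × Fin b => D p.2) := by
    rw [← Matrix.diagonal_one, Matrix.diagonal_kronecker_diagonal]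
    congr 1
    funext p
    simp
  rw [h1, Matrix.rank_mul_eq_left_of_isUnit_det _ _ hQ',
    Matrix.rank_mul_eq_right_of_isUnit_det _ _ hP', h2, Matrix.rank_diagonal, hrC]
  have e : {p : Fin a × Fin b // D p.2 ≠ 0} ≃ Fin a × {j // D j ≠ 0} :=
    { toFun := fun x => (x.1.1, ⟨x.1.2, x.2⟩)
      invFun := fun y => ⟨(y.1, y.2.1), y.2.2⟩
      left_inv := fun x => by simp
      right_inv := fun y => by simp }
  rw [Fintype.card_congr e, Fintype.card_prod, Fintype.card_fin]

/-- S5979-RANK (2) -/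
theorem rank_scalar_kronecker_sub {F : Type*} [Field F] {a b : ℕ} (α : F)
    (B : Matrix (Fin b) (Fin b) F) (μ : F) :
    (((α • (1 : Matrix (Fin a) (Fin a) F)) ⊗ₖ B)
        - μ • (1 : Matrix (Fin a × Fin b) (Fin a × Fin b) F)).rank
      = a * (α • B - μ • (1 : Matrix (Fin b) (Fin b) F)).rank := by
  rw [← rank_one_kronecker (a := a)]
  congr 1
  ext ⟨i, j⟩ ⟨i', j'⟩
  simp only [Matrix.sub_apply, Matrix.kroneckerMap_apply, Matrix.smul_apply, Matrix.one_apply,
    smul_eq_mul, Prod.mk.injEq]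
  by_cases hi : i = i' <;> by_cases hj : j = j' <;> simp [hi, hj]

theorem one_kronecker_pow {F : Type*} [Field F] {a b : ℕ} (C : Matrix (Fin b) (Fin b) F)
    (k : ℕ) : ((1 : Matrix (Fin a) (Fin a) F) ⊗ₖ C) ^ k = (1 : Matrix (Fin a) (Fin a) F) ⊗ₖ (C ^ k) := by
  induction k with
  | zero => simp
  | succ k ih => rw [pow_succ, ih, ← Matrix.mul_kronecker_mul, mul_one, pow_succ]

/-- S5979-RANK (3) -/
theorem scalar_kronecker_pow_eq_one {F : Type*} [Field F] {a b : ℕ} (ha : 0 < a) (α : F)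
    (B : Matrix (Fin b) (Fin b) F) (k : ℕ)
    (h : ((α • (1 : Matrix (Fin a) (Fin a) F)) ⊗ₖ B) ^ k = 1) : (α • B) ^ k = 1 := by
  have h1 : (α • (1 : Matrix (Fin a) (Fin a) F)) ⊗ₖ B = (1 : Matrix (Fin a) (Fin a) F) ⊗ₖ (α • B) := by
    rw [Matrix.smul_kronecker, Matrix.kronecker_smul]
  rw [h1, one_kronecker_pow] at h
  ext j j'
  have := congrFun (congrFun h (⟨0, ha⟩, j)) (⟨0, ha⟩, j')
  simp only [Matrix.kroneckerMap_apply, Matrix.one_apply, Prod.mk.injEq, true_and, if_true,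
    one_mul] at this
  rw [this, Matrix.one_apply]

end Cfsg.Agent.H18.Ten

section check
open Cfsg.Agent.H18.Ten in
example {F : Type*} [Field F] {a b : ℕ} (A : Matrix (Fin a) (Fin a) F)
    (B : Matrix (Fin b) (Fin b) F) (hA : IsUnit A.det) (hB : IsUnit B.det) (μ : F) :
    ((¬ ∃ α : F, A = α • (1 : Matrix (Fin a) (Fin a) F)) →
      b ≤ (A ⊗ₖ B - μ • (1 : Matrix (Fin a × Fin b) (Fin a × Fin b) F)).rank) ∧
    ((¬ ∃ β : F, B = β • (1 : Matrix (Fin b) (Fin b) F)) →
      a ≤ (A ⊗ₖ B - μ • (1 : Matrix (Fin a × Fin b) (Fin a × Fin b) F)).rank) :=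
  le_rank_kronecker_sub A B hA hB μ
open Cfsg.Agent.H18.Ten in
example {F : Type*} [Field F] {a b : ℕ} (α : F)
    (B : Matrix (Fin b) (Fin b) F) (μ : F) :
    (((α • (1 : Matrix (Fin a) (Fin a) F)) ⊗ₖ B)
        - μ • (1 : Matrix (Fin a × Fin b) (Fin a × Fin b) F)).rank
      = a * (α • B - μ • (1 : Matrix (Fin b) (Fin b) F)).rank :=
  rank_scalar_kronecker_sub α B μ
open Cfsg.Agent.H18.Ten in
example {F : Type*} [Field F] {a b : ℕ} (ha : 0 < a) (α : F)
    (B : Matrix (Fin b) (Fin b) F) (k : ℕ)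
    (h : ((α • (1 : Matrix (Fin a) (Fin a) F)) ⊗ₖ B) ^ k = 1) : (α • B) ^ k = 1 :=
  scalar_kronecker_pow_eq_one ha α B k h
end check
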