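import Mathlib
import Cfsg.Agent.H77.TmDefs2

/-!
# S5987-COMPLPLUS (helper18, for helper77)

Witt cancellation, one direction: if `C ⟂ U`, `U` is nondegenerate with a totally singular `L` of
half its dimension, and `C ⊔ U` has a totally singular `M` of half its dimension, then `C` has a
totally singular subspace of half its dimension.
-/

set_option autoImplicit false

namespace Cfsg.Agent.H18.Tm

open Cfsg.Agent.H45 Cfsg.Agent.H77.Tm Module

universe u v

/-- In a nondegenerate subspace `U`, `dim (U ∩ X^⊥) + dim X = dim U` for `X ≤ U`. -/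
theorem finrank_perp_add {F : Type u} [Field F] {V : Type v} [AddCommGroup V] [Module F V]
    [FiniteDimensional F V] (B : V →ₗ[F] V →ₗ[F] F) (hsym : ∀ x y, B x y = B y x)
    (U X : Submodule F V) (hU : U ⊓ perp B U = ⊥) (hXU : X ≤ U) :
    finrank F ↥(U ⊓ perp B X) + finrank F ↥X = finrank F ↥U := by
  let BU : LinearMap.BilinForm F ↥U := B.domRestrict₁₂ U U
  have hBU : ∀ x y : ↥U, BU x y = B x y := fun _ _ => rfl
  have hnd : BU.Nondegenerate := by
    have hr : ∀ y : ↥U, (∀ x : ↥U, BU x y = 0) → y = 0 := by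
      intro y hy
      have h1 : (y : V) ∈ U ⊓ perp B U := ⟨y.2, fun u hu => hy ⟨u, hu⟩⟩
      rw [hU] at h1
      exact Subtype.ext ((Submodule.mem_bot F).mp h1)
    refine ⟨fun x hx => hr x (fun y => ?_), hr⟩
    rw [hBU, hsym]
    exact hx y
  let W : Submodule F ↥U := X.comap U.subtype
  have h1 := LinearMap.BilinForm.finrank_orthogonal hnd W
  have hW : finrank F ↥W = finrank F ↥X := (Submodule.comapSubtypeEquivOfLe hXU).finrank_eq
  have hO : finrank F ↥(BU.orthogonal W) = finrank F ↥(U ⊓ perp B X) := by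
    have e : (BU.orthogonal W).map U.subtype = U ⊓ perp B X := by
      ext y
      constructor
      · rintro ⟨u, hu, rfl⟩
        exact ⟨u.2, fun x hx => hu ⟨x, hXU hx⟩ hx⟩
      · rintro ⟨hyU, hyP⟩
        exact ⟨⟨y, hyU⟩, fun n hn => hyP n.1 hn, rfl⟩
    rw [← e, Submodule.finrank_map_subtype_eq]
  have hle : finrank F ↥W ≤ finrank F ↥U := Submodule.finrank_le W
  omega

/-- A subspace contains subspaces of every smaller dimension. -/
theorem exists_le_finrank_eq {F : Type u} [Field F] {V : Type v} [AddCommGroup V] [Module F V]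
    [FiniteDimensional F V] (N₀ : Submodule F V) (n : ℕ) (hn : n ≤ finrank F ↥N₀) :
    ∃ N : Submodule F V, N ≤ N₀ ∧ finrank F ↥N = n := by
  let b := Module.finBasis F ↥N₀
  let w : Fin n → V := fun i => ((b (Fin.castLE hn i) : ↥N₀) : V)
  have hli : LinearIndependent F w := by
    have h1 : LinearIndependent F (fun i : Fin n => b (Fin.castLE hn i)) :=
      b.linearIndependent.comp _ (Fin.castLE_injective hn)
    exact h1.map' N₀.subtype (Submodule.ker_subtype N₀)
  refine ⟨Submodule.span F (Set.range w), ?_, ?_⟩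
  · rw [Submodule.span_le]
    rintro _ ⟨i, rfl⟩
    exact (b (Fin.castLE hn i)).2
  · rw [finrank_span_eq_card hli, Fintype.card_fin]

theorem complPlus : StComplPlus.{u, v} := by
  intro F _ V _ _ _ Q C U L M hCU hU hLU hL hLdim hMW hM hMdim
  classical
  have hBp : ∀ x y, pol Q x y = QuadraticMap.polar ⇑Q x y := fun _ _ => rfl
  have hsym : ∀ x y, pol Q x y = pol Q y x := fun x y => by
    rw [hBp, hBp, QuadraticMap.polar_comm]
  have hts : ∀ (X : Submodule F V), TS Q X → ∀ x ∈ X, ∀ y ∈ X,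
      QuadraticMap.polar ⇑Q x y = 0 := by
    intro X hX x hx y hy
    simp only [QuadraticMap.polar]
    rw [hX _ (X.add_mem hx hy), hX x hx, hX y hy]
    ring
  have hCU0 : C ⊓ U = ⊥ := by
    rw [eq_bot_iff]
    rintro x ⟨hxC, hxU⟩
    have h1 : x ∈ U ⊓ perp (pol Q) U :=
      ⟨hxU, fun u hu => by rw [hBp, QuadraticMap.polar_comm]; exact hCU x hxC u hu⟩
    rw [hU] at h1
    exact h1
  have hCL0 : C ⊓ L = ⊥ := by
    rw [eq_bot_iff]
    exact (inf_le_inf_left C hLU).trans hCU0.le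
  have dCU : finrank F ↥(C ⊔ U) = finrank F ↥C + finrank F ↥U := by
    have h1 := Submodule.finrank_sup_add_finrank_inf_eq C U
    rw [hCU0, finrank_bot, add_zero] at h1
    exact h1
  have dCL : finrank F ↥(C ⊔ L) = finrank F ↥C + finrank F ↥L := by
    have h1 := Submodule.finrank_sup_add_finrank_inf_eq C L
    rw [hCL0, finrank_bot, add_zero] at h1
    exact h1
  obtain ⟨M₁, hM₁⟩ : ∃ M₁ : Submodule F V, M₁ = M ⊓ (C ⊔ L) := ⟨_, rfl⟩
  have hM₁L : ∀ m ∈ M₁, ∀ l ∈ L, QuadraticMap.polar ⇑Q m l = 0 := by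
    intro m hm l hl
    rw [hM₁] at hm
    obtain ⟨c, hc, l', hl', rfl⟩ := Submodule.mem_sup.mp hm.2
    rw [QuadraticMap.polar_add_left, hCU c hc l (hLU hl), hts L hL l' hl' l hl, add_zero]
  obtain ⟨M', hM'⟩ : ∃ M' : Submodule F V, M' = M₁ ⊔ L := ⟨_, rfl⟩
  have hM'ts : TS Q M' := by
    intro x hx
    rw [hM'] at hx
    obtain ⟨m, hm, l, hl, rfl⟩ := Submodule.mem_sup.mp hx
    have h1 : Q (m + l) = Q m + Q l + QuadraticMap.polar ⇑Q m l := by
      simp only [QuadraticMap.polar]; ring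
    have hmM : m ∈ M := by rw [hM₁] at hm; exact hm.1
    rw [h1, hM m hmM, hL l hl, hM₁L m hm l hl]
    simp
  have hLM' : L ≤ M' := by rw [hM']; exact le_sup_right
  have hM'le : M' ≤ C ⊔ L := by
    rw [hM', hM₁]
    exact sup_le inf_le_right le_sup_right
  obtain ⟨N₀, hN₀⟩ : ∃ N₀ : Submodule F V, N₀ = M' ⊓ C := ⟨_, rfl⟩
  have hmod : M' = N₀ ⊔ L := by
    have h1 : (L ⊔ C) ⊓ M' = L ⊔ C ⊓ M' := sup_inf_assoc_of_le C hLM'
    have h2 : (L ⊔ C) ⊓ M' = M' := by
      rw [sup_comm]; exact inf_eq_right.mpr hM'le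
    rw [h2] at h1
    rw [hN₀, sup_comm, inf_comm]
    exact h1
  have d1 : finrank F ↥M' ≤ finrank F ↥N₀ + finrank F ↥L := by
    have h1 := Submodule.finrank_add_le_finrank_add_finrank N₀ L
    rw [← hmod] at h1
    exact h1
  have hM₁L' : M₁ ⊓ L = M ⊓ L := by
    rw [hM₁, inf_assoc, inf_eq_right.mpr (le_sup_right : L ≤ C ⊔ L)]
  have d2 : finrank F ↥M' + finrank F ↥(M ⊓ L) = finrank F ↥M₁ + finrank F ↥L := by
    have h1 := Submodule.finrank_sup_add_finrank_inf_eq M₁ L
    rw [hM₁L', ← hM'] at h1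
    exact h1
  have d3 : finrank F ↥(M ⊔ (C ⊔ L)) + finrank F ↥M₁ = finrank F ↥M + finrank F ↥(C ⊔ L) := by
    have h1 := Submodule.finrank_sup_add_finrank_inf_eq M (C ⊔ L)
    rw [← hM₁] at h1
    exact h1
  have hP := finrank_perp_add (pol Q) hsym U (M ⊓ L) hU (inf_le_right.trans hLU)
  have d4 : finrank F ↥(M ⊔ (C ⊔ L)) ≤
      finrank F ↥C + finrank F ↥(U ⊓ perp (pol Q) (M ⊓ L)) := by
    have hle : M ⊔ (C ⊔ L) ≤ C ⊔ (U ⊓ perp (pol Q) (M ⊓ L)) := by
      refine sup_le ?_ (sup_le le_sup_left (le_sup_of_le_right ?_))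
      · intro m hm
        obtain ⟨c, hc, u, hu, rfl⟩ := Submodule.mem_sup.mp (hMW hm)
        refine Submodule.mem_sup.mpr ⟨c, hc, u, ⟨hu, ?_⟩, rfl⟩
        intro x hx
        have h1 : QuadraticMap.polar ⇑Q x (c + u) = 0 := hts M hM x hx.1 _ hm
        rw [QuadraticMap.polar_add_right] at h1
        have h2 : QuadraticMap.polar ⇑Q x c = 0 := by
          rw [QuadraticMap.polar_comm]; exact hCU c hc x (hLU hx.2)
        rw [h2, zero_add] at h1
        exact h1
      · intro l hl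
        exact ⟨hLU hl, fun x hx => hts L hL x hx.2 l hl⟩
    exact (Submodule.finrank_mono hle).trans (Submodule.finrank_add_le_finrank_add_finrank _ _)
  have hML : finrank F ↥(M ⊓ L) ≤ finrank F ↥L := Submodule.finrank_mono inf_le_right
  have hN₀dim : finrank F ↥C ≤ 2 * finrank F ↥N₀ := by omega
  obtain ⟨n, hn⟩ : ∃ n, finrank F ↥C = 2 * n := ⟨finrank F ↥M - finrank F ↥L, by omega⟩
  obtain ⟨N, hNle, hNdim⟩ := exists_le_finrank_eq N₀ n (by omega)
  refine ⟨N, ?_, ?_, by omega⟩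
  · intro x hx
    have h1 := hNle hx
    rw [hN₀] at h1
    exact h1.2
  · intro x hx
    have h1 := hNle hx
    rw [hN₀] at h1
    exact hM'ts x h1.1

example : StComplPlus.{u, v} := complPlus

end Cfsg.Agent.H18.Tm
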