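import Mathlib
import Cfsg.Agent.H77.TmDefs2
import Cfsg.Agent.H49.InvOmega
import Cfsg.Agent.H49.MinusForm

/-!
# S5987-TUPLES (helper18, for helper77)

The number of linearly independent `m`-tuples of pairwise orthogonal singular vectors of the
minus-type space of dimension `2 k + 2`, `m ≤ k`, is
`∏_{j<m} q^j (q^(k+1-j) + 1) (q^(k-j) - 1)`.  Port of helper99's `H99/OtTuples.lean`.
-/

set_option autoImplicit false

namespace Cfsg.Agent.H18.Tm

open Cfsg.Agent.H45 Cfsg.Agent.H77.Tq Cfsg.Agent.H77.Tm Module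

universe u

/-- Over a finite field an anisotropic binary form has nonzero discriminant (any characteristic). -/
theorem aniso_disc_ne {F : Type u} [Field F] [Fintype F] {a b : F} (h : Aniso a b) :
    a ^ 2 - 4 * b ≠ 0 := by
  intro hd
  by_cases h2 : (2 : F) = 0
  · have h4 : (4 : F) = 0 := by linear_combination 2 * h2
    have ha : a = 0 := by
      have h5 : a ^ 2 = 0 := by linear_combination hd + b * h4
      exact (pow_eq_zero_iff two_ne_zero).mp h5
    have hchar : ringChar F = 2 :=
      CharP.ringChar_of_prime_eq_zero Nat.prime_two (by exact_mod_cast h2)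
    obtain ⟨s, hs⟩ := FiniteField.isSquare_of_char_two hchar b
    have h6 := h s 1 (by rw [ha, hs]; linear_combination (s * s) * h2)
    exact one_ne_zero h6.2
  · have h6 := h (-a / 2) 1 (by field_simp; linear_combination -hd)
    exact one_ne_zero h6.2

theorem zeros_arith (q e z : ℕ) (hq : 0 < q) (he : 1 ≤ e)
    (hz : z + q ^ e = q ^ (2 * e - 1) + q ^ (e - 1)) :
    z = (q ^ e + 1) * (q ^ (e - 1) - 1) + 1 := by
  obtain ⟨e', rfl⟩ : ∃ e', e = e' + 1 := ⟨e - 1, by omega⟩
  have h1 : 2 * (e' + 1) - 1 = (e' + 1) + e' := by omega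
  have e1 : q ^ (e' + 1) = q ^ e' * q := pow_succ q e'
  have e2 : q ^ (2 * (e' + 1) - 1) = q ^ e' * q * q ^ e' := by rw [h1, pow_add, pow_succ]
  have e3 : e' + 1 - 1 = e' := by omega
  rw [e2, e1, e3] at hz
  rw [e1, e3]
  obtain ⟨A', hA'⟩ : ∃ A', q ^ e' = A' + 1 :=
    ⟨q ^ e' - 1, by have := pow_pos hq e'; omega⟩
  rw [hA'] at hz ⊢
  simp only [Nat.add_sub_cancel]
  have h2 : z + (A' + 1) * q = (((A' + 1) * q + 1) * A' + 1) + (A' + 1) * q := by
    rw [hz]; ring
  exact Nat.add_right_cancel h2

/-- The singular vectors orthogonal to, but not in the span of, an independent totally singular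
`m`-tuple (`m < k`) of a nondegenerate quadratic space of dimension `2 k + 2` and Witt index
`≤ k`. -/
theorem tm_fib_card (hZ : StZerosM.{u, u}) {F : Type u} [Field F] [Fintype F]
    {V : Type u} [AddCommGroup V] [Module F V] [FiniteDimensional F V] (Q : QuadraticForm F V)
    (hnd : (QuadraticMap.polarBilin Q).Nondegenerate) (k m : ℕ)
    (hdim : Module.finrank F V = 2 * (k + 1)) (hm : m + 1 ≤ k)
    (hts : ∀ U : Submodule F V, (∀ u ∈ U, Q u = 0) → Module.finrank F U ≤ k)
    (v : Fin m → V) (hLI : LinearIndependent F v) (hsing : ∀ a, Q (v a) = 0)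
    (horth : ∀ a b, QuadraticMap.polar ⇑Q (v a) (v b) = 0) :
    Nat.card {w : V // w ∉ Submodule.span F (Set.range v) ∧ Q w = 0 ∧
        ∀ a, QuadraticMap.polar ⇑Q (v a) w = 0} =
      Fintype.card F ^ m *
        ((Fintype.card F ^ (k + 1 - m) + 1) * (Fintype.card F ^ (k - m) - 1)) := by
  classical
  have hfinV : Finite V := Module.finite_of_finite F
  obtain ⟨B, hB⟩ : ∃ B : LinearMap.BilinForm F V, B = QuadraticMap.polarBilin Q := ⟨_, rfl⟩
  have hBa : ∀ x y, B x y = QuadraticMap.polar ⇑Q x y := by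
    intro x y
    rw [hB]
    rfl
  have hrefl : B.IsRefl := by
    intro x y h
    rw [hBa] at h ⊢
    rw [QuadraticMap.polar_comm]
    exact h
  have hndB : B.Nondegenerate := by
    rw [hB]
    exact hnd
  obtain ⟨S, hS⟩ : ∃ S : Submodule F V, S = Submodule.span F (Set.range v) := ⟨_, rfl⟩
  obtain ⟨K, hK⟩ : ∃ K : Submodule F V, K = LinearMap.BilinForm.orthogonal B S := ⟨_, rfl⟩
  rw [← hS]
  have hmemK : ∀ w, (∀ a, QuadraticMap.polar ⇑Q (v a) w = 0) ↔ w ∈ K := by
    intro w
    rw [hK, LinearMap.BilinForm.mem_orthogonal_iff]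
    constructor
    · intro h n hn
      show B n w = 0
      rw [hS] at hn
      refine Submodule.span_induction ?_ ?_ ?_ ?_ hn
      · rintro _ ⟨a, rfl⟩
        rw [hBa]
        exact h a
      · simp
      · intro x y _ _ hx hy
        rw [map_add, LinearMap.add_apply, hx, hy, add_zero]
      · intro c x _ hx
        rw [map_smul, LinearMap.smul_apply, hx, smul_zero]
    · intro h a
      rw [← hBa]
      exact h (v a) (by rw [hS]; exact Submodule.subset_span ⟨a, rfl⟩)
  have hSK : S ≤ K := by
    intro w hw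
    rw [← hmemK]
    intro a
    rw [hS] at hw
    refine Submodule.span_induction ?_ ?_ ?_ ?_ hw
    · rintro _ ⟨b, rfl⟩
      exact horth a b
    · simp
    · intro x y _ _ hx hy
      rw [QuadraticMap.polar_add_right, hx, hy, add_zero]
    · intro c x _ hx
      rw [QuadraticMap.polar_smul_right, hx, smul_zero]
  have hKS : ∀ s ∈ S, ∀ k ∈ K, QuadraticMap.polar ⇑Q s k = 0 := by
    intro s hs k hk
    rw [← hBa]
    rw [hK, LinearMap.BilinForm.mem_orthogonal_iff] at hk
    exact hk s hs
  have hQS : ∀ s ∈ S, Q s = 0 := by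
    intro s hs
    have hgen : ∀ t ∈ Submodule.span F (Set.range v), t ∈ S ∧ Q t = 0 := by
      intro t ht
      induction ht using Submodule.span_induction with
      | mem x hx =>
        obtain ⟨a, rfl⟩ := hx
        exact ⟨by rw [hS]; exact Submodule.subset_span ⟨a, rfl⟩, hsing a⟩
      | zero => exact ⟨Submodule.zero_mem _, map_zero Q⟩
      | add x y _ _ ihx ihy =>
        refine ⟨Submodule.add_mem _ ihx.1 ihy.1, ?_⟩
        rw [QuadraticMap.map_add ⇑Q, ihx.2, ihy.2, hKS x ihx.1 y (hSK ihy.1), add_zero, add_zero]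
      | smul c x _ ihx =>
        refine ⟨Submodule.smul_mem _ c ihx.1, ?_⟩
        rw [QuadraticMap.map_smul, ihx.2, smul_zero]
    exact (hgen s (by rw [← hS]; exact hs)).2
  have hSr : Module.finrank F S = m := by
    rw [hS, finrank_span_eq_card hLI, Fintype.card_fin]
  have hKr : Module.finrank F K = 2 * (k + 1) - m := by
    rw [hK, LinearMap.BilinForm.finrank_orthogonal hndB, hSr, hdim]
  obtain ⟨S', hS'⟩ : ∃ S' : Submodule F K, S' = Submodule.comap K.subtype S := ⟨_, rfl⟩
  have hmemS' : ∀ x : K, x ∈ S' ↔ (x : V) ∈ S := by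
    intro x
    rw [hS']
    rfl
  obtain ⟨C', hC'⟩ := Submodule.exists_isCompl S'
  have hS'r : Module.finrank F S' = m := by
    rw [hS', ← hSr]
    exact (Submodule.comapSubtypeEquivOfLe hSK).finrank_eq
  have hC'r : Module.finrank F C' = 2 * (k + 1 - m) := by
    have := Submodule.finrank_add_eq_of_isCompl hC'
    rw [hS'r, hKr] at this
    omega
  obtain ⟨Q', hQ'⟩ : ∃ Q' : QuadraticForm F C', ∀ c : C', Q' c = Q ((c : K) : V) :=
    ⟨Q.comp (K.subtype ∘ₗ C'.subtype), fun c => rfl⟩
  have hpolar' : ∀ x y : C', QuadraticMap.polar ⇑Q' x y =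
      QuadraticMap.polar ⇑Q ((x : K) : V) ((y : K) : V) := by
    intro x y
    simp only [QuadraticMap.polar, hQ']
    rfl
  have hKK : LinearMap.BilinForm.orthogonal B K = S := by
    rw [hK]
    exact LinearMap.BilinForm.orthogonal_orthogonal hndB hrefl S
  have hndC : ∀ x : C', (∀ y : C', QuadraticMap.polar ⇑Q' x y = 0) → x = 0 := by
    intro x hx
    have h1 : ((x : K) : V) ∈ LinearMap.BilinForm.orthogonal B K := by
      rw [LinearMap.BilinForm.mem_orthogonal_iff]
      intro k hk
      show B k ((x : K) : V) = 0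
      have hk' : (⟨k, hk⟩ : K) ∈ S' ⊔ C' := by
        rw [hC'.sup_eq_top]
        exact Submodule.mem_top
      obtain ⟨s, hs, c, hc, hsc⟩ := Submodule.mem_sup.mp hk'
      have hk2 : k = ((s : K) : V) + ((c : K) : V) := by
        have := congrArg Subtype.val hsc
        rw [Submodule.coe_add] at this
        exact this.symm
      rw [hk2, map_add, LinearMap.add_apply, hBa, hBa,
        hKS (s : V) ((hmemS' s).mp hs) _ (x : K).2]
      have h3 := hx ⟨c, hc⟩
      rw [hpolar', QuadraticMap.polar_comm] at h3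
      rw [h3, add_zero]
    rw [hKK] at h1
    have h3 : (x : K) ∈ S' ⊓ C' := ⟨(hmemS' _).mpr h1, x.2⟩
    rw [hC'.inf_eq_bot, Submodule.mem_bot] at h3
    exact Subtype.ext h3
  -- `C'` has no totally singular subspace of half its dimension
  have hnoTS : ∀ U' : Submodule F C', TS Q' U' → Module.finrank F ↥U' < k + 1 - m := by
    intro U' hU'
    let f : ↥C' →ₗ[F] V := K.subtype ∘ₗ C'.subtype
    have hf : Function.Injective f :=
      (Submodule.injective_subtype K).comp (Submodule.injective_subtype C')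
    have hfc : ∀ c : C', f c = ((c : K) : V) := fun c => rfl
    have hX : ∀ x ∈ S ⊔ U'.map f, Q x = 0 := by
      intro x hx
      obtain ⟨s, hs, y, hy, rfl⟩ := Submodule.mem_sup.mp hx
      obtain ⟨c, hc, rfl⟩ := hy
      rw [QuadraticMap.map_add ⇑Q, hQS s hs, hfc, ← hQ', hU' c hc, hKS s hs _ (c : K).2]
      simp
    have hinf : S ⊓ U'.map f = ⊥ := by
      rw [eq_bot_iff]
      rintro x ⟨hxS, c, hc, rfl⟩
      have h3 : (c : K) ∈ S' ⊓ C' := ⟨(hmemS' _).mpr hxS, c.2⟩
      rw [hC'.inf_eq_bot, Submodule.mem_bot] at h3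
      rw [Submodule.mem_bot, hfc, h3]
      rfl
    have h4 := Submodule.finrank_sup_add_finrank_inf_eq S (U'.map f)
    rw [hinf, finrank_bot, add_zero, hSr,
      ← (Submodule.equivMapOfInjective f hf U').finrank_eq] at h4
    have h5 := hts _ hX
    omega
  have hZC := hZ F C' Q' (k + 1 - m) hC'r hndC hnoTS
  have hqpos : 0 < Fintype.card F := Fintype.card_pos
  have hZC' : Nat.card {c : C' // Q' c = 0} =
      (Fintype.card F ^ (k + 1 - m) + 1) * (Fintype.card F ^ (k - m) - 1) + 1 := by
    have h6 := zeros_arith (Fintype.card F) (k + 1 - m) _ hqpos (by omega) hZC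
    have h7 : k + 1 - m - 1 = k - m := by omega
    rw [h7] at h6
    exact h6
  have hS'c : Nat.card S' = Fintype.card F ^ m := by
    rw [← Nat.card_eq_fintype_card (α := F)]
    conv_rhs => rw [← hS'r]
    exact Module.natCard_eq_pow_finrank (K := F) (V := S')
  -- the zeros in `K`
  have hZK : Nat.card {x : K // Q (x : V) = 0} =
      Nat.card {c : C' // Q' c = 0} * Fintype.card F ^ m := by
    have h1 : Nat.card {p : C' × S' // Q' p.1 = 0} = Nat.card {x : K // Q (x : V) = 0} := by
      refine Nat.card_congr ((Submodule.prodEquivOfIsCompl C' S' hC'.symm).toEquiv.subtypeEquiv ?_)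
      intro p
      have h5 : ((Submodule.prodEquivOfIsCompl C' S' hC'.symm p : K) : V) =
          ((p.1 : K) : V) + ((p.2 : K) : V) := by
        rw [Submodule.coe_prodEquivOfIsCompl']
        rfl
      show Q' p.1 = 0 ↔ Q ((Submodule.prodEquivOfIsCompl C' S' hC'.symm p : K) : V) = 0
      rw [h5, QuadraticMap.map_add ⇑Q, hQS _ ((hmemS' p.2).mp p.2.2), QuadraticMap.polar_comm,
        hKS _ ((hmemS' p.2).mp p.2.2) _ (p.1 : K).2, hQ', add_zero, add_zero]
    rw [← h1, Nat.card_congr (Equiv.prodSubtypeFstEquivSubtypeProd (p := fun c : C' => Q' c = 0)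
      (β := S')), Nat.card_prod, hS'c]
  have hset : {w : V | w ∉ S ∧ Q w = 0 ∧ ∀ a, QuadraticMap.polar ⇑Q (v a) w = 0} =
      {w : V | w ∈ K ∧ Q w = 0} \ (S : Set V) := by
    ext w
    simp only [Set.mem_ofPred_eq, Set.mem_sdiff, SetLike.mem_coe, hmemK]
    tauto
  have hcard : Nat.card {w : V // w ∉ S ∧ Q w = 0 ∧ ∀ a, QuadraticMap.polar ⇑Q (v a) w = 0} =
      ({w : V | w ∈ K ∧ Q w = 0} \ (S : Set V)).ncard := by
    rw [← hset]
    rfl
  have hZc : ({w : V | w ∈ K ∧ Q w = 0}).ncard =
      Nat.card {c : C' // Q' c = 0} * Fintype.card F ^ m := by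
    rw [← Nat.card_coe_set_eq, ← hZK]
    exact Nat.card_congr
      (Equiv.subtypeSubtypeEquivSubtypeInter (fun w => w ∈ K) (fun w => Q w = 0)).symm
  have hSc : (S : Set V).ncard = Fintype.card F ^ m := by
    rw [← Nat.card_coe_set_eq, ← Nat.card_eq_fintype_card]
    conv_rhs => rw [← hSr]
    exact Module.natCard_eq_pow_finrank (K := F) (V := S)
  have hSZ : (S : Set V) ⊆ {w : V | w ∈ K ∧ Q w = 0} := fun s hs => ⟨hSK hs, hQS s hs⟩
  rw [hcard, Set.ncard_sdiff hSZ (Set.toFinite _), hZc, hSc, hZC', Nat.add_mul, one_mul,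
    Nat.add_sub_cancel, mul_comm]

theorem tuplesM (hZ : StZerosM.{u, u}) : StTuplesM.{u} := by
  classical
  intro F _ _ k m a b hab
  rw [← Cfsg.Agent.H49.QMin_coe (F := F) k a b]
  have hd : a ^ 2 - 4 * b ≠ 0 := aniso_disc_ne hab
  have hdim : Module.finrank F (MI k → F) = 2 * (k + 1) := Cfsg.Agent.H49.finrank_minus k
  have htsV : ∀ U : Submodule F (MI k → F), (∀ u ∈ U, (Cfsg.Agent.H49.QMin k F a b) u = 0) →
      Module.finrank F U ≤ k := fun U hU => Cfsg.Agent.H49.QMin_ts_le k a b hab hd U hU
  induction m with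
  | zero =>
    intro _
    rw [Finset.prod_range_zero]
    have : Unique {v : Fin 0 → (MI k → F) // LinearIndependent F v ∧
        (∀ i, (Cfsg.Agent.H49.QMin k F a b) (v i) = 0) ∧
        ∀ i j, QuadraticMap.polar ⇑(Cfsg.Agent.H49.QMin k F a b) (v i) (v j) = 0} :=
      { default := ⟨fun i => i.elim0, linearIndependent_empty_type, fun a => a.elim0,
          fun a => a.elim0⟩
        uniq := fun x => Subtype.ext (Subsingleton.elim _ _) }
    exact Nat.card_unique
  | succ m ih =>
    intro hm
    have ih' := ih (by omega)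
    rw [Finset.prod_range_succ, ← ih']
    let g : {v : Fin (m + 1) → (MI k → F) // LinearIndependent F v ∧
        (∀ i, (Cfsg.Agent.H49.QMin k F a b) (v i) = 0) ∧
        ∀ i j, QuadraticMap.polar ⇑(Cfsg.Agent.H49.QMin k F a b) (v i) (v j) = 0} →
        {v : Fin m → (MI k → F) // LinearIndependent F v ∧
        (∀ i, (Cfsg.Agent.H49.QMin k F a b) (v i) = 0) ∧
        ∀ i j, QuadraticMap.polar ⇑(Cfsg.Agent.H49.QMin k F a b) (v i) (v j) = 0} :=
      fun u => ⟨Fin.init u.1, u.2.1.comp _ (Fin.castSucc_injective m),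
        fun a => u.2.2.1 a.castSucc, fun a b => u.2.2.2 a.castSucc b.castSucc⟩
    have hfib : ∀ v : {v : Fin m → (MI k → F) // LinearIndependent F v ∧
        (∀ i, (Cfsg.Agent.H49.QMin k F a b) (v i) = 0) ∧
        ∀ i j, QuadraticMap.polar ⇑(Cfsg.Agent.H49.QMin k F a b) (v i) (v j) = 0},
        Nat.card {u // g u = v} = Fintype.card F ^ m *
          ((Fintype.card F ^ (k + 1 - m) + 1) * (Fintype.card F ^ (k - m) - 1)) := by
      intro v
      rw [← tm_fib_card hZ (Cfsg.Agent.H49.QMin k F a b) (Cfsg.Agent.H49.QMin_nondeg k a b hd) k m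
        hdim (by omega) htsV v.1 v.2.1 v.2.2.1 v.2.2.2]
      refine Nat.card_congr ?_
      refine
        { toFun := fun u => ⟨u.1.1 (Fin.last m), ?_, ?_, ?_⟩
          invFun := fun w => ⟨⟨Fin.snoc v.1 w.1, ?_, ?_, ?_⟩, ?_⟩
          left_inv := ?_
          right_inv := ?_ }
      · have h1 : Fin.init u.1.1 = v.1 := congrArg Subtype.val u.2
        have h2' := u.1.2.1
        rw [← Fin.snoc_init_self u.1.1, linearIndependent_finSnoc, h1] at h2'
        exact h2'.2
      · exact u.1.2.2.1 (Fin.last m)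
      · intro a
        have h1 : Fin.init u.1.1 = v.1 := congrArg Subtype.val u.2
        rw [← h1]
        exact u.1.2.2.2 a.castSucc (Fin.last m)
      · exact linearIndependent_finSnoc.mpr ⟨v.2.1, w.2.1⟩
      · intro a
        induction a using Fin.lastCases with
        | last =>
          rw [Fin.snoc_last]
          exact w.2.2.1
        | cast a =>
          rw [Fin.snoc_castSucc]
          exact v.2.2.1 a
      · intro a b
        induction a using Fin.lastCases with
        | last =>
          induction b using Fin.lastCases with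
          | last =>
            rw [Fin.snoc_last, QuadraticMap.polar_self, w.2.2.1, smul_zero]
          | cast b =>
            rw [Fin.snoc_last, Fin.snoc_castSucc, QuadraticMap.polar_comm]
            exact w.2.2.2 b
        | cast a =>
          induction b using Fin.lastCases with
          | last =>
            rw [Fin.snoc_last, Fin.snoc_castSucc]
            exact w.2.2.2 a
          | cast b =>
            rw [Fin.snoc_castSucc, Fin.snoc_castSucc]
            exact v.2.2.2 a b
      · refine Subtype.ext ?_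
        show Fin.init (Fin.snoc (α := fun _ => (MI k → F)) v.1 w.1) = v.1
        exact Fin.init_snoc _ _
      · intro u
        have h1 : Fin.init u.1.1 = v.1 := congrArg Subtype.val u.2
        refine Subtype.ext (Subtype.ext ?_)
        show Fin.snoc v.1 (u.1.1 (Fin.last m)) = u.1.1
        rw [← h1]
        exact Fin.snoc_init_self _
      · intro w
        refine Subtype.ext ?_
        show Fin.snoc (α := fun _ => (MI k → F)) v.1 w.1 (Fin.last m) = w.1
        exact Fin.snoc_last _ _
    have : Fintype {v : Fin m → (MI k → F) // LinearIndependent F v ∧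
        (∀ i, (Cfsg.Agent.H49.QMin k F a b) (v i) = 0) ∧
        ∀ i j, QuadraticMap.polar ⇑(Cfsg.Agent.H49.QMin k F a b) (v i) (v j) = 0} := Fintype.ofFinite _
    rw [← Nat.card_congr (Equiv.sigmaFiberEquiv g), Nat.card_sigma,
      Finset.sum_congr rfl (fun v _ => hfib v), Finset.sum_const, Finset.card_univ,
      smul_eq_mul, Nat.card_eq_fintype_card]

example (hZ : StZerosM.{u, u}) : StTuplesM.{u} := tuplesM hZ

end Cfsg.Agent.H18.Tm
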