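import Mathlib
import Cfsg.Agent.Lib.Helper96.TqPlusDefs
import Cfsg.Agent.H49.Disc
import Cfsg.Agent.H49.Plus
import Cfsg.Agent.H40.TqDisc

/-!
# S5977-DISC (helper18, for helper96)

Plus-type twin of helper40's `Cfsg.Agent.H40.Tq.disc`: for the plus-type form in adapted
coordinates, if all `α_l` but the last are nonsquares of `L`, the last one is a square iff
`(-1)^n` is a nonsquare of `F`.
-/

set_option autoImplicit false
open scoped MatrixGroups
open scoped Matrix

namespace Cfsg.Agent.H18.Tqp

open Cfsg.Agent.H77.Tq Cfsg.Agent.Lib.Helper96.TqP Cfsg.Agent.H40.Tq Module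

universe u

theorem discP (hN : StNormSq.{u}) : StDiscP.{u} := by
  intro F _ _ d K L _ _ _ n ψ φ α h2F hKC hns l hl
  classical
  have h2 : finrank F L = 2 := plane_finrank F L hKC.card
  have hn : n = d := by
    have h := hKC.dim
    simp only [Fintype.card_sum, Fintype.card_fin] at h
    omega
  obtain ⟨δ, η, hδ, hδ0, hδq, hδ2, hη0, hηns⟩ := disc_delta F L h2F h2
  have htr1 : Algebra.trace F L (1 : L) = 2 := by
    have := Algebra.trace_algebraMap (S := L) (1 : F)
    rw [map_one, h2] at this
    rw [this]; simp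
  have hli : LinearIndependent F ![(1 : L), δ] := by
    rw [LinearIndependent.pair_iff]
    intro s t hst
    have h3 := congrArg (Algebra.trace F L) hst
    rw [map_add, map_smul, map_smul, htr1, hδ, map_zero, smul_zero, add_zero, smul_eq_mul] at h3
    have hs : s = 0 := by
      rcases mul_eq_zero.mp h3 with h | h
      · exact h
      · exact absurd h h2F
    refine ⟨hs, ?_⟩
    rw [hs, zero_smul, zero_add] at hst
    rcases smul_eq_zero.mp hst with h | h
    · exact h
    · exact absurd h hδ0
  let B₂ : Basis (Fin 2) F L :=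
    basisOfLinearIndependentOfCardEqFinrank hli (by rw [Fintype.card_fin, h2])
  have hB0 : B₂ 0 = 1 := by simp [B₂]
  have hB1 : B₂ 1 = δ := by simp [B₂]
  let bb : Basis (Fin 2 × Fin n) F (Fin d ⊕ Fin d → F) :=
    ((Pi.basis (fun _ : Fin n => B₂)).map φ).reindex
      ((Equiv.sigmaEquivProd (Fin n) (Fin 2)).trans (Equiv.prodComm _ _))
  have hbb : ∀ (k : Fin n) (i : Fin 2), bb (i, k) = φ (Pi.single k (B₂ i)) := by
    intro k i
    simp [bb, Pi.basis_apply]
  obtain ⟨e, he0, hdet⟩ := Cfsg.Agent.H49.gram_det_basis (Cfsg.quadFormPlus d F)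
    (Cfsg.Agent.H49.hypGram d F) (Cfsg.Agent.H49.polar_quadFormPlus d F) bb
  rw [Cfsg.Agent.H49.det_hypGram] at hdet
  have hG : (Matrix.of fun i j : Fin 2 × Fin n =>
      QuadraticMap.polar (Cfsg.quadFormPlus d F) (bb i) (bb j)) =
      Matrix.blockDiagonal (fun k : Fin n => Matrix.of (fun i j : Fin 2 =>
        Algebra.trace F L (α k * B₂ i * B₂ j))) := by
    ext ⟨i, k⟩ ⟨j, k'⟩
    rw [Matrix.of_apply, hbb, hbb]
    have hform := hKC.form (Pi.single k (B₂ i)) (Pi.single k' (B₂ j))
    rw [Cfsg.Agent.H49.QP_coe] at hform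
    rw [hform]
    by_cases hkk : k = k'
    · subst hkk
      rw [Matrix.blockDiagonal_apply_eq, Matrix.of_apply]
      congr 1
      rw [Finset.sum_eq_single k]
      · simp
      · intro l' _ hl'
        simp [hl']
      · intro h; exact absurd (Finset.mem_univ k) h
    · rw [Matrix.blockDiagonal_apply_ne _ _ _ hkk]
      have e0 : (∑ l', α l' * (Pi.single k (B₂ i) : Fin n → L) l' *
          (Pi.single k' (B₂ j) : Fin n → L) l') = 0 := by
        apply Finset.sum_eq_zero
        intro l' _
        by_cases h1 : l' = k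
        · subst h1
          simp [hkk]
        · simp [Pi.single_apply, h1]
      rw [e0, map_zero]
  rw [hG, Matrix.det_blockDiagonal] at hdet
  have hblk : ∀ k : Fin n, (Matrix.of (fun i j : Fin 2 =>
      Algebra.trace F L (α k * B₂ i * B₂ j))).det = 4 * η * Algebra.norm F (α k) := by
    intro k
    rw [Matrix.det_fin_two, Matrix.of_apply, Matrix.of_apply, Matrix.of_apply, Matrix.of_apply,
      hB0, hB1]
    exact disc_block F L h2 δ η hδq hδ2 (α k)
  rw [Finset.prod_congr rfl (fun k _ => hblk k)] at hdet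
  -- quadratic characters
  have hχ4 : quadraticChar F 4 = 1 := by
    have e : (4 : F) = 2 ^ 2 := by norm_num
    rw [e]; exact quadraticChar_sq_one' h2F
  have hχη : quadraticChar F η = -1 := quadraticChar_neg_one_iff_not_isSquare.mpr hηns
  have hNk : ∀ k : Fin n, k ≠ l → quadraticChar F (Algebra.norm F (α k)) = -1 := by
    intro k hk
    apply quadraticChar_neg_one_iff_not_isSquare.mpr
    rw [← hN F L h2F hKC.card (α k) (hKC.ne k)]
    apply hns
    have h3 : (k : ℕ) ≠ (l : ℕ) := fun h => hk (Fin.ext h)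
    have h4 := k.2
    omega
  have hL : quadraticChar F (∏ k, 4 * η * Algebra.norm F (α k)) =
      - quadraticChar F (Algebra.norm F (α l)) := by
    rw [map_prod, Fintype.prod_eq_single l]
    · rw [map_mul, map_mul, hχ4, hχη]; ring
    · intro k hk
      rw [map_mul, map_mul, hχ4, hχη, hNk k hk]; norm_num
  have hR : quadraticChar F (e ^ 2 * (-1) ^ d) = quadraticChar F ((-1 : F) ^ n) := by
    rw [hn, map_mul, quadraticChar_sq_one' he0, one_mul]
  rw [hdet, hR] at hL
  have hfin : quadraticChar F (Algebra.norm F (α l)) = - quadraticChar F ((-1 : F) ^ n) := by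
    rw [hL, neg_neg]
  rw [hN F L h2F hKC.card (α l) (hKC.ne l)]
  have hN0 : Algebra.norm F (α l) ≠ 0 := Algebra.norm_ne_zero_iff.mpr (hKC.ne l)
  have h10 : ((-1 : F) ^ n) ≠ 0 := pow_ne_zero _ (neg_ne_zero.mpr one_ne_zero)
  rw [← quadraticChar_one_iff_isSquare hN0, ← quadraticChar_neg_one_iff_not_isSquare, hfin]
  constructor
  · intro h
    exact neg_eq_iff_eq_neg.mp h
  · intro h
    rw [h, neg_neg]

example : StNormSq.{u} → StDiscP.{u} := discP

end Cfsg.Agent.H18.Tqp
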