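import Mathlib
import Cfsg.Agent.Lib.Helper96.TqPlusDefs
import Cfsg.Agent.H49.Refl

/-!
# S5977-REFLN (helper18, for helper96)

`y` an isometry of `Q` of square `-1` normalising `K`, `P` a `y`- and `K`-invariant plane,
`u₁, u₂ ∈ P` nonsingular: the conjugates of `y` by `r_{u₁}` and by `r_{u₁} r_{u₂}` normalise `K`.
-/

set_option autoImplicit false
open scoped MatrixGroups
open scoped Matrix

namespace Cfsg.Agent.H18.Tqp

open Cfsg.Agent.H77.Tq Cfsg.Agent.Lib.Helper96.TqP Cfsg.Agent.H49 Module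

universe u

section
variable {F : Type u} [Field F] {ι : Type} [Fintype ι] [DecidableEq ι]
  (Q : QuadraticForm F (ι → F))

/-- `u ⊥ y u` for an isometry `y` of square `-1`. -/
theorem polar_sq_neg_one (h2 : (2 : F) ≠ 0) (y : ↥(Cfsg.isometryGroup F ⇑Q))
    (hy2 : ((y : GL ι F) : Matrix ι ι F) * ((y : GL ι F) : Matrix ι ι F) = -1) (u : ι → F) :
    QuadraticMap.polar ⇑Q u (((y : GL ι F) : Matrix ι ι F) *ᵥ u) = 0 := by
  have h1 := isometry_polar Q y u (((y : GL ι F) : Matrix ι ι F) *ᵥ u)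
  rw [Matrix.mulVec_mulVec, hy2, Matrix.neg_mulVec, Matrix.one_mulVec,
    QuadraticMap.polar_neg_right, QuadraticMap.polar_comm] at h1
  have h3 : (2 : F) * QuadraticMap.polar ⇑Q u (((y : GL ι F) : Matrix ι ι F) *ᵥ u) = 0 := by
    linear_combination -h1
  exact (mul_eq_zero.mp h3).resolve_left h2

/-- The product of the reflections in `u` and `y u`. -/
def eps (y : ↥(Cfsg.isometryGroup F ⇑Q)) (u : ι → F) : ↥(Cfsg.isometryGroup F ⇑Q) :=
  reflG Q u * reflG Q (((y : GL ι F) : Matrix ι ι F) *ᵥ u)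

theorem eps_mulVec (h2 : (2 : F) ≠ 0) (y : ↥(Cfsg.isometryGroup F ⇑Q))
    (hy2 : ((y : GL ι F) : Matrix ι ι F) * ((y : GL ι F) : Matrix ι ι F) = -1) (u x : ι → F) :
    (((eps Q y u : ↥(Cfsg.isometryGroup F ⇑Q)) : GL ι F) : Matrix ι ι F) *ᵥ x =
      x - (Q u)⁻¹ • (QuadraticMap.polar ⇑Q u x • u +
        QuadraticMap.polar ⇑Q (((y : GL ι F) : Matrix ι ι F) *ᵥ u) x •
          (((y : GL ι F) : Matrix ι ι F) *ᵥ u)) := by
  unfold eps
  rw [coe_mul_mulVec, reflG_coe, reflG_coe, reflectionMatrix_mulVec, reflectionMatrix_mulVec,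
    isometry_apply y u, QuadraticMap.polar_sub_right, QuadraticMap.polar_smul_right,
    polar_sq_neg_one Q h2 y hy2 u]
  funext i
  simp only [Pi.sub_apply, Pi.smul_apply, Pi.add_apply, smul_eq_mul]
  ring

/-- `r_u y r_u⁻¹ = ε_u y`. -/
theorem refl_conj_eq (y : ↥(Cfsg.isometryGroup F ⇑Q)) (u : ι → F) :
    reflG Q u * y * (reflG Q u)⁻¹ = eps Q y u * y := by
  have e1 : y * reflG Q u = reflG Q (((y : GL ι F) : Matrix ι ι F) *ᵥ u) * y :=
    mul_inv_eq_iff_eq_mul.mp (conj_reflG Q y u)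
  rw [reflG_inv, mul_assoc, e1, ← mul_assoc]
  rfl

/-- `r_u` and `r_{y u}` commute. -/
theorem refl_comm (h2 : (2 : F) ≠ 0) (y : ↥(Cfsg.isometryGroup F ⇑Q))
    (hy2 : ((y : GL ι F) : Matrix ι ι F) * ((y : GL ι F) : Matrix ι ι F) = -1) (u : ι → F) :
    reflG Q u * reflG Q (((y : GL ι F) : Matrix ι ι F) *ᵥ u) =
      reflG Q (((y : GL ι F) : Matrix ι ι F) *ᵥ u) * reflG Q u := by
  have e1 := conj_reflG Q (reflG Q u) (((y : GL ι F) : Matrix ι ι F) *ᵥ u)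
  rw [reflG_coe, reflectionMatrix_mulVec, polar_sq_neg_one Q h2 y hy2 u, mul_zero, zero_smul,
    sub_zero] at e1
  exact mul_inv_eq_iff_eq_mul.mp e1

theorem eps_mul_self (h2 : (2 : F) ≠ 0) (y : ↥(Cfsg.isometryGroup F ⇑Q))
    (hy2 : ((y : GL ι F) : Matrix ι ι F) * ((y : GL ι F) : Matrix ι ι F) = -1) (u : ι → F) :
    eps Q y u * eps Q y u = 1 := by
  unfold eps
  nth_rewrite 1 [refl_comm Q h2 y hy2 u]
  rw [mul_assoc, ← mul_assoc (reflG Q u), reflG_mul_self, one_mul, reflG_mul_self]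

theorem refl_conj_eps (h2 : (2 : F) ≠ 0) (y : ↥(Cfsg.isometryGroup F ⇑Q))
    (hy2 : ((y : GL ι F) : Matrix ι ι F) * ((y : GL ι F) : Matrix ι ι F) = -1) (u : ι → F) :
    reflG Q u * eps Q y u * (reflG Q u)⁻¹ = eps Q y u := by
  unfold eps
  rw [reflG_inv, ← mul_assoc (reflG Q u), reflG_mul_self, one_mul]
  exact (refl_comm Q h2 y hy2 u).symm

/-- An invertible matrix commuting with `K` normalises `K`. -/
theorem mem_normalizer_of_commute (K : Subalgebra F (Matrix ι ι F)) (g : GL ι F)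
    (h : ∀ a ∈ K, (g : Matrix ι ι F) * a = a * (g : Matrix ι ι F)) :
    g ∈ Cfsg.Geo.subalgebraNormalizer K := by
  show ∀ k : Matrix ι ι F, k ∈ K ↔
    (g : Matrix ι ι F) * k * ((g⁻¹ : GL ι F) : Matrix ι ι F) ∈ K
  intro k
  constructor
  · intro hk
    rw [h k hk, mul_assoc, Units.mul_inv, mul_one]
    exact hk
  · intro hk
    have h1 := h _ hk
    have h2 : (g : Matrix ι ι F) * k * ((g⁻¹ : GL ι F) : Matrix ι ι F) * (g : Matrix ι ι F)
        = (g : Matrix ι ι F) * k := by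
      rw [mul_assoc, Units.inv_mul, mul_one]
    have h3 : (g : Matrix ι ι F) * k * ((g⁻¹ : GL ι F) : Matrix ι ι F) = k := by
      have h4 := congrArg (fun m => ((g⁻¹ : GL ι F) : Matrix ι ι F) * m) (h1.trans h2)
      simp only [← mul_assoc, Units.inv_mul, one_mul] at h4
      exact h4
    rw [h3] at hk
    exact hk

/-- Coordinates in the plane `P` with respect to `u, y u`. -/
theorem exists_coord (h2 : (2 : F) ≠ 0) (y : ↥(Cfsg.isometryGroup F ⇑Q))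
    (hy2 : ((y : GL ι F) : Matrix ι ι F) * ((y : GL ι F) : Matrix ι ι F) = -1)
    (P : Submodule F (ι → F)) (hP : Module.finrank F P = 2)
    (hyP : ∀ v ∈ P, ((y : GL ι F) : Matrix ι ι F) *ᵥ v ∈ P) (u : ι → F) (huP : u ∈ P)
    (hu : Q u ≠ 0) :
    ∀ w ∈ P, ∃ a b : F, w = a • u + b • (((y : GL ι F) : Matrix ι ι F) *ᵥ u) := by
  classical
  have hperp := polar_sq_neg_one Q h2 y hy2 u
  have hQy : Q (((y : GL ι F) : Matrix ι ι F) *ᵥ u) = Q u := isometry_apply y u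
  have hli : LinearIndependent F ![(⟨u, huP⟩ : P), ⟨_, hyP u huP⟩] := by
    rw [LinearIndependent.pair_iff]
    intro s t hst
    have h3 : s • u + t • (((y : GL ι F) : Matrix ι ι F) *ᵥ u) = 0 := by
      have := congrArg Subtype.val hst
      simpa using this
    have h4 := congrArg (fun w => QuadraticMap.polar ⇑Q u w) h3
    have h5 := congrArg (fun w => QuadraticMap.polar ⇑Q (((y : GL ι F) : Matrix ι ι F) *ᵥ u) w) h3
    simp only [QuadraticMap.polar_add_right, QuadraticMap.polar_smul_right, smul_eq_mul,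
      hperp, polar_self', QuadraticMap.polar_zero_right, mul_zero, add_zero] at h4
    rw [QuadraticMap.polar_comm] at hperp
    simp only [QuadraticMap.polar_add_right, QuadraticMap.polar_smul_right, smul_eq_mul,
      hperp, polar_self', QuadraticMap.polar_zero_right, mul_zero, zero_add, hQy] at h5
    have h6 : (2 * Q u) ≠ 0 := mul_ne_zero h2 hu
    exact ⟨(mul_eq_zero.mp h4).resolve_right h6, (mul_eq_zero.mp h5).resolve_right h6⟩
  let B : Basis (Fin 2) F P :=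
    basisOfLinearIndependentOfCardEqFinrank hli (by rw [Fintype.card_fin, hP])
  have hB0 : B 0 = ⟨u, huP⟩ := by simp [B]
  have hB1 : B 1 = ⟨_, hyP u huP⟩ := by simp [B]
  intro w hw
  have h7 := B.sum_repr ⟨w, hw⟩
  rw [Fin.sum_univ_two, hB0, hB1] at h7
  refine ⟨B.repr ⟨w, hw⟩ 0, B.repr ⟨w, hw⟩ 1, ?_⟩
  have h8 := congrArg Subtype.val h7
  simpa using h8.symm

/-- `ε_u` does not depend on the nonsingular vector `u ∈ P`. -/
theorem eps_indep (h2 : (2 : F) ≠ 0) (y : ↥(Cfsg.isometryGroup F ⇑Q))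
    (hy2 : ((y : GL ι F) : Matrix ι ι F) * ((y : GL ι F) : Matrix ι ι F) = -1)
    (P : Submodule F (ι → F)) (hP : Module.finrank F P = 2)
    (hyP : ∀ v ∈ P, ((y : GL ι F) : Matrix ι ι F) *ᵥ v ∈ P) (u₁ : ι → F) (hu₁P : u₁ ∈ P)
    (hu₁ : Q u₁ ≠ 0) (u₂ : ι → F) (hu₂P : u₂ ∈ P) (hu₂ : Q u₂ ≠ 0) :
    eps Q y u₂ = eps Q y u₁ := by
  apply isometry_ext
  intro x
  rw [eps_mulVec Q h2 y hy2, eps_mulVec Q h2 y hy2]
  obtain ⟨a, b, hab⟩ := exists_coord Q h2 y hy2 P hP hyP u₁ hu₁P hu₁ u₂ hu₂P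
  have hperp := polar_sq_neg_one Q h2 y hy2 u₁
  have hQy : Q (((y : GL ι F) : Matrix ι ι F) *ᵥ u₁) = Q u₁ := isometry_apply y u₁
  have hyu₂ : ((y : GL ι F) : Matrix ι ι F) *ᵥ u₂ =
      a • (((y : GL ι F) : Matrix ι ι F) *ᵥ u₁) - b • u₁ := by
    rw [hab, Matrix.mulVec_add, Matrix.mulVec_smul, Matrix.mulVec_smul, Matrix.mulVec_mulVec,
      hy2, Matrix.neg_mulVec, Matrix.one_mulVec]
    funext i
    simp only [Pi.sub_apply, Pi.smul_apply, Pi.add_apply, Pi.neg_apply, smul_eq_mul]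
    ring
  have hQ : Q u₂ = (a * a + b * b) * Q u₁ := by
    have e : Q (a • u₁ + b • (((y : GL ι F) : Matrix ι ι F) *ᵥ u₁)) =
        Q (a • u₁) + Q (b • (((y : GL ι F) : Matrix ι ι F) *ᵥ u₁)) +
          QuadraticMap.polar ⇑Q (a • u₁) (b • (((y : GL ι F) : Matrix ι ι F) *ᵥ u₁)) := by
      simp only [QuadraticMap.polar]; ring
    rw [hab, e, QuadraticMap.map_smul, QuadraticMap.map_smul, QuadraticMap.polar_smul_left,
      QuadraticMap.polar_smul_right, hperp, hQy]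
    simp only [smul_eq_mul]
    ring
  have hab0 : a * a + b * b ≠ 0 := by
    intro h
    apply hu₂
    rw [hQ, h, zero_mul]
  have hp : QuadraticMap.polar ⇑Q u₂ x = a * QuadraticMap.polar ⇑Q u₁ x +
      b * QuadraticMap.polar ⇑Q (((y : GL ι F) : Matrix ι ι F) *ᵥ u₁) x := by
    rw [hab, QuadraticMap.polar_add_left, QuadraticMap.polar_smul_left,
      QuadraticMap.polar_smul_left]
    simp only [smul_eq_mul]
  have hq : QuadraticMap.polar ⇑Q (((y : GL ι F) : Matrix ι ι F) *ᵥ u₂) x =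
      a * QuadraticMap.polar ⇑Q (((y : GL ι F) : Matrix ι ι F) *ᵥ u₁) x -
        b * QuadraticMap.polar ⇑Q u₁ x := by
    rw [hyu₂, QuadraticMap.polar_sub_left, QuadraticMap.polar_smul_left,
      QuadraticMap.polar_smul_left]
    simp only [smul_eq_mul]
  have hab0' : a ^ 2 + b ^ 2 ≠ 0 := by
    rw [pow_two, pow_two]; exact hab0
  rw [hp, hq, hQ, hyu₂, hab]
  funext i
  simp only [Pi.sub_apply, Pi.smul_apply, Pi.add_apply, smul_eq_mul]
  field_simp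
  ring

/-- `ε_u` commutes with `K`. -/
theorem eps_comm (h2 : (2 : F) ≠ 0) (y : ↥(Cfsg.isometryGroup F ⇑Q))
    (hy2 : ((y : GL ι F) : Matrix ι ι F) * ((y : GL ι F) : Matrix ι ι F) = -1)
    (K : Subalgebra F (Matrix ι ι F))
    (hadj : Cfsg.Geo.IsSelfAdjointFor (QuadraticMap.polar ⇑Q) K)
    (P : Submodule F (ι → F)) (hP : Module.finrank F P = 2)
    (hyP : ∀ v ∈ P, ((y : GL ι F) : Matrix ι ι F) *ᵥ v ∈ P)
    (hKP : ∀ a ∈ K, ∀ v ∈ P, a *ᵥ v ∈ P) (u : ι → F) (huP : u ∈ P)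
    (hu : Q u ≠ 0) (a : Matrix ι ι F) (ha : a ∈ K) :
    (((eps Q y u : ↥(Cfsg.isometryGroup F ⇑Q)) : GL ι F) : Matrix ι ι F) * a =
      a * (((eps Q y u : ↥(Cfsg.isometryGroup F ⇑Q)) : GL ι F) : Matrix ι ι F) := by
  apply matrix_ext_mulVec
  intro x
  rw [← Matrix.mulVec_mulVec, ← Matrix.mulVec_mulVec, eps_mulVec Q h2 y hy2,
    eps_mulVec Q h2 y hy2]
  obtain ⟨α, β, hαβ⟩ := exists_coord Q h2 y hy2 P hP hyP u huP hu (a *ᵥ u) (hKP a ha u huP)
  obtain ⟨γ, δ, hγδ⟩ := exists_coord Q h2 y hy2 P hP hyP u huP hu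
    (a *ᵥ (((y : GL ι F) : Matrix ι ι F) *ᵥ u)) (hKP a ha _ (hyP u huP))
  have hperp := polar_sq_neg_one Q h2 y hy2 u
  have hperp' : QuadraticMap.polar ⇑Q (((y : GL ι F) : Matrix ι ι F) *ᵥ u) u = 0 := by
    rw [QuadraticMap.polar_comm]; exact hperp
  have hQy : Q (((y : GL ι F) : Matrix ι ι F) *ᵥ u) = Q u := isometry_apply y u
  have e1 : QuadraticMap.polar ⇑Q u (a *ᵥ x) = QuadraticMap.polar ⇑Q (a *ᵥ u) x :=
    (hadj a ha u x).symm
  have e2 : QuadraticMap.polar ⇑Q (((y : GL ι F) : Matrix ι ι F) *ᵥ u) (a *ᵥ x) =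
      QuadraticMap.polar ⇑Q (a *ᵥ (((y : GL ι F) : Matrix ι ι F) *ᵥ u)) x :=
    (hadj a ha _ x).symm
  have hβγ : β = γ := by
    have e3 := hadj a ha u (((y : GL ι F) : Matrix ι ι F) *ᵥ u)
    rw [hαβ, hγδ] at e3
    simp only [QuadraticMap.polar_add_left, QuadraticMap.polar_smul_left,
      QuadraticMap.polar_add_right, QuadraticMap.polar_smul_right, smul_eq_mul, hperp,
      polar_self', hQy, mul_zero, zero_add, add_zero] at e3
    have h6 : (2 * Q u) ≠ 0 := mul_ne_zero h2 hu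
    exact mul_right_cancel₀ h6 e3
  subst hβγ
  rw [e1, e2, Matrix.mulVec_sub, Matrix.mulVec_smul, Matrix.mulVec_add, Matrix.mulVec_smul,
    Matrix.mulVec_smul, hαβ, hγδ]
  simp only [QuadraticMap.polar_add_left, QuadraticMap.polar_smul_left, smul_eq_mul]
  funext i
  simp only [Pi.sub_apply, Pi.smul_apply, Pi.add_apply, smul_eq_mul]
  ring

end

theorem reflN : StReflN.{u} := by
  intro F _ _ ι _ _ Q K hKO y P hyI hyN hy2 hP hyP hKP u₁ hu₁P u₂ hu₂P hu₁ hu₂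
  classical
  have h2 := hKO.two
  let yG : ↥(Cfsg.isometryGroup F ⇑Q) := ⟨y, hyI⟩
  have hy2' : ((yG : GL ι F) : Matrix ι ι F) * ((yG : GL ι F) : Matrix ι ι F) = -1 := hy2
  have hyP' : ∀ v ∈ P, ((yG : GL ι F) : Matrix ι ι F) *ᵥ v ∈ P := hyP
  have hE1 : ((eps Q yG u₁ : ↥(Cfsg.isometryGroup F ⇑Q)) : GL ι F) ∈
      Cfsg.Geo.subalgebraNormalizer K :=
    mem_normalizer_of_commute K _
      (fun a ha => eps_comm Q h2 yG hy2' K hKO.adj P hP hyP' hKP u₁ hu₁P hu₁ a ha)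
  constructor
  · have e : ((reflG Q u₁ : ↥(Cfsg.isometryGroup F ⇑Q)) : GL ι F) * y *
        ((reflG Q u₁ : ↥(Cfsg.isometryGroup F ⇑Q)) : GL ι F)⁻¹ =
        ((reflG Q u₁ * yG * (reflG Q u₁)⁻¹ : ↥(Cfsg.isometryGroup F ⇑Q)) : GL ι F) := rfl
    rw [e, refl_conj_eq Q yG u₁]
    exact Subgroup.mul_mem _ hE1 hyN
  · have e : (((reflG Q u₁ : ↥(Cfsg.isometryGroup F ⇑Q)) : GL ι F) *
        ((reflG Q u₂ : ↥(Cfsg.isometryGroup F ⇑Q)) : GL ι F)) * y *
        (((reflG Q u₁ : ↥(Cfsg.isometryGroup F ⇑Q)) : GL ι F) *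
          ((reflG Q u₂ : ↥(Cfsg.isometryGroup F ⇑Q)) : GL ι F))⁻¹ =
        (((reflG Q u₁ * reflG Q u₂) * yG * (reflG Q u₁ * reflG Q u₂)⁻¹ :
          ↥(Cfsg.isometryGroup F ⇑Q)) : GL ι F) := rfl
    have e2 : (reflG Q u₁ * reflG Q u₂) * yG * (reflG Q u₁ * reflG Q u₂)⁻¹ = yG := by
      have e3 : (reflG Q u₁ * reflG Q u₂) * yG * (reflG Q u₁ * reflG Q u₂)⁻¹ =
          reflG Q u₁ * (reflG Q u₂ * yG * (reflG Q u₂)⁻¹) * (reflG Q u₁)⁻¹ := by
        group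
      rw [e3, refl_conj_eq Q yG u₂,
        eps_indep Q h2 yG hy2' P hP hyP' u₁ hu₁P hu₁ u₂ hu₂P hu₂]
      have e4 : reflG Q u₁ * (eps Q yG u₁ * yG) * (reflG Q u₁)⁻¹ =
          (reflG Q u₁ * eps Q yG u₁ * (reflG Q u₁)⁻¹) * (reflG Q u₁ * yG * (reflG Q u₁)⁻¹) := by
        group
      rw [e4, refl_conj_eps Q h2 yG hy2' u₁, refl_conj_eq Q yG u₁, ← mul_assoc,
        eps_mul_self Q h2 yG hy2' u₁, one_mul]
    rw [e, e2]
    exact hyN

example : StReflN.{u} := reflN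

end Cfsg.Agent.H18.Tqp
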