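import Mathlib
import Cfsg.Agent.H83.UPDefs

/-!
# S6001-COUNT: fixed points of a symplectic automorphism of `F_2^4` of odd prime order
-/

set_option autoImplicit false

namespace Cfsg.Agent.H18.UP

open Cfsg.Agent.H83.UP

/-- A self-map of prime order `r` on a finite type: the number of fixed points is congruent to
the cardinality modulo `r`. -/
theorem card_modEq_fix {T : Type*} [Finite T] (τ : T → T) (r : ℕ) (hr : r.Prime)
    (hτ : ∀ v, τ^[r] v = v) : Nat.card T ≡ Nat.card {v : T // τ v = v} [MOD r] := by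
  classical
  have : Fintype T := Fintype.ofFinite T
  have hfact : Fact r.Prime := ⟨hr⟩
  obtain ⟨f, hf⟩ : ∃ f : Function.End T, f = τ := ⟨τ, rfl⟩
  subst hf
  have h : f ^ r ^ 1 = 1 := by
    rw [pow_one]
    have h1 := hom_coe_pow (fun g : Function.End T ↦ g) rfl (fun g h ↦ rfl) f r
    funext v
    have h2 := congrFun h1 v
    exact h2.trans (hτ v)
  have h2 := Equiv.Perm.card_fixedPoints_modEq (f := f) h
  rw [← Nat.card_eq_fintype_card, ← Nat.card_eq_fintype_card] at h2
  exact h2

theorem symp_self : ∀ w : Fin 4 → ZMod 2, symp w w = 0 := by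
  intro w
  unfold symp
  have h : ∀ a b : ZMod 2, a * b + b * a = 0 := by decide
  rw [add_assoc, h, zero_add, h]

theorem symp_zero_left (w : Fin 4 → ZMod 2) : symp 0 w = 0 := by
  unfold symp
  simp

theorem card_perp : ∀ w : Fin 4 → ZMod 2, w ≠ 0 →
    Fintype.card {v : Fin 4 → ZMod 2 // symp v w = 0} = 8 := by
  decide

theorem count : Cfsg.Agent.H83.UP.StCount := by
  intro σ r hr hr2 hadd hsymp hiter
  classical
  have h0 : σ 0 = 0 := by
    have h1 := hadd 0 0
    rw [add_zero] at h1
    simpa using h1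
  -- the fixed points form a subgroup
  let H : AddSubgroup (Fin 4 → ZMod 2) :=
    { carrier := {v | σ v = v}
      add_mem' := by
        intro a b ha hb
        show σ (a + b) = a + b
        rw [hadd, ha, hb]
      zero_mem' := h0
      neg_mem' := by
        intro a ha
        show σ (-a) = -a
        have h1 := hadd (-a) a
        rw [neg_add_cancel, h0] at h1
        have ha' : σ a = a := ha
        rw [ha'] at h1
        exact eq_neg_of_add_eq_zero_left h1.symm }
  have hdvd : Nat.card H ∣ Nat.card (Fin 4 → ZMod 2) := AddSubgroup.card_addSubgroup_dvd_card H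
  have hV : Nat.card (Fin 4 → ZMod 2) = 2 ^ 4 := by
    rw [Nat.card_eq_fintype_card]
    rfl
  have hHc : Nat.card H = Nat.card {v : Fin 4 → ZMod 2 // σ v = v} := rfl
  rw [hV, hHc] at hdvd
  have hmod := card_modEq_fix σ r hr hiter
  rw [hV] at hmod
  obtain ⟨k, hk, hc⟩ := (Nat.dvd_prime_pow Nat.prime_two).mp hdvd
  have hle : Nat.card {v : Fin 4 → ZMod 2 // σ v = v} ≤ 2 ^ 4 := Nat.le_of_dvd (by norm_num) hdvd
  have hdv : r ∣ 2 ^ 4 - Nat.card {v : Fin 4 → ZMod 2 // σ v = v} :=
    (Nat.modEq_iff_dvd' hle).mp hmod.symm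
  rw [hc] at hdv
  have hr2' : ¬ r ∣ 2 := fun h => hr2 ((Nat.prime_dvd_prime_iff_eq hr Nat.prime_two).mp h)
  interval_cases k
  · -- one fixed point
    right
    have h15 : r ∣ 3 * 5 := by
      norm_num at hdv
      exact hdv
    rcases (Nat.Prime.dvd_mul hr).mp h15 with h3 | h5
    · left
      exact ⟨(Nat.prime_dvd_prime_iff_eq hr Nat.prime_three).mp h3, Or.inl (by rw [hc]; norm_num)⟩
    · right
      exact ⟨(Nat.prime_dvd_prime_iff_eq hr Nat.prime_five).mp h5, by rw [hc]; norm_num⟩
  · -- two fixed points: impossible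
    exfalso
    have h14 : r ∣ 2 * 7 := by
      norm_num at hdv
      exact hdv
    have h7 : r = 7 := by
      rcases (Nat.Prime.dvd_mul hr).mp h14 with h | h
      · exact absurd h hr2'
      · exact (Nat.prime_dvd_prime_iff_eq hr (by norm_num)).mp h
    subst h7
    have hc2 : Nat.card {v : Fin 4 → ZMod 2 // σ v = v} = 2 := by rw [hc]; norm_num
    obtain ⟨w, hwfix, hw0⟩ : ∃ w, σ w = w ∧ w ≠ 0 := by
      by_contra hcon
      push Not at hcon
      have hsub : Subsingleton {v : Fin 4 → ZMod 2 // σ v = v} :=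
        ⟨fun a b => Subtype.ext ((hcon a.1 a.2).trans (hcon b.1 b.2).symm)⟩
      have h1 := Finite.card_le_one_iff_subsingleton.mpr hsub
      omega
    -- the restriction of `σ` to `w^⊥`
    have hinv : ∀ v : Fin 4 → ZMod 2, symp v w = 0 → symp (σ v) w = 0 := by
      intro v hv
      have h1 := hsymp v w
      rw [hwfix] at h1
      rw [h1, hv]
    let τ : {v : Fin 4 → ZMod 2 // symp v w = 0} → {v : Fin 4 → ZMod 2 // symp v w = 0} :=
      fun v => ⟨σ v.1, hinv v.1 v.2⟩
    have hτit : ∀ (k : ℕ) (v : {v : Fin 4 → ZMod 2 // symp v w = 0}),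
        (τ^[k] v).1 = σ^[k] v.1 := by
      intro k
      induction k with
      | zero => intro v; rfl
      | succ k ih =>
        intro v
        rw [Function.iterate_succ_apply, Function.iterate_succ_apply, ih]
    have hτ7 : ∀ v, τ^[7] v = v := fun v => Subtype.ext ((hτit 7 v).trans (hiter v.1))
    have hmodW := card_modEq_fix τ 7 (by norm_num) hτ7
    have hWcard : Nat.card {v : Fin 4 → ZMod 2 // symp v w = 0} = 8 := by
      rw [Nat.card_eq_fintype_card]
      exact card_perp w hw0
    rw [hWcard] at hmodW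
    -- the fixed points of `τ`
    have hle2 : Nat.card {v : {v : Fin 4 → ZMod 2 // symp v w = 0} // τ v = v} ≤ 2 := by
      refine le_of_le_of_eq (Nat.card_le_card_of_injective
        (fun x : {v : {v : Fin 4 → ZMod 2 // symp v w = 0} // τ v = v} =>
          (⟨x.1.1, congrArg Subtype.val x.2⟩ : {v : Fin 4 → ZMod 2 // σ v = v})) ?_) hc2
      intro a b hab
      apply Subtype.ext
      apply Subtype.ext
      have h1 := Subtype.mk.inj hab
      exact h1
    have hge2 : 1 < Nat.card {v : {v : Fin 4 → ZMod 2 // symp v w = 0} // τ v = v} := by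
      rw [Finite.one_lt_card_iff_nontrivial]
      refine ⟨⟨⟨⟨0, symp_zero_left w⟩, Subtype.ext h0⟩, ⟨⟨w, symp_self w⟩, Subtype.ext hwfix⟩, ?_⟩⟩
      intro hab
      apply hw0
      have h1 := congrArg (fun x : {v : {v : Fin 4 → ZMod 2 // symp v w = 0} // τ v = v} =>
        x.1.1) hab
      exact h1.symm
    have hfix2 : Nat.card {v : {v : Fin 4 → ZMod 2 // symp v w = 0} // τ v = v} = 2 := by omega
    rw [hfix2] at hmodW
    exact absurd hmodW (by decide)
  · -- four fixed points
    right
    left
    have h12 : r ∣ 2 ^ 2 * 3 := by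
      norm_num at hdv
      exact hdv
    rcases (Nat.Prime.dvd_mul hr).mp h12 with h | h
    · exact absurd (hr.dvd_of_dvd_pow h) hr2'
    · exact ⟨(Nat.prime_dvd_prime_iff_eq hr Nat.prime_three).mp h, Or.inr (by rw [hc]; norm_num)⟩
  · -- eight fixed points: impossible
    exfalso
    have h8 : r ∣ 2 ^ 3 := by
      norm_num at hdv
      exact hdv
    exact hr2' (hr.dvd_of_dvd_pow h8)
  · -- everything is fixed
    left
    by_contra hcon
    push Not at hcon
    obtain ⟨v, hv⟩ := hcon
    have h1 := Fintype.card_subtype_lt (p := fun v : Fin 4 → ZMod 2 => σ v = v) hv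
    rw [← Nat.card_eq_fintype_card, ← Nat.card_eq_fintype_card, hV, hc] at h1
    omega

example : Cfsg.Agent.H83.UP.StCount := count

end Cfsg.Agent.H18.UP
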