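import Mathlib
import Cfsg.Agent.H83.UPDefs

/-!
# S6001-PERM: a matrix normalizing the Pauli group induces an additive symplectic bijection
of `F_2^4`
-/

set_option autoImplicit false

namespace Cfsg.Agent.H18.UP

open Matrix Cfsg.Agent.H83.UP

universe u

/-- Two members of a linearly independent family: `a • P a' = b • P b'` with `a' ≠ b'` forces
`a = 0`. -/
theorem li_pair {F : Type*} [Field F] {κ M : Type*} [AddCommGroup M] [Module F M] (P : κ → M)
    (hLI : LinearIndependent F P) (a' b' : κ) (hne : a' ≠ b') (a b : F)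
    (h : a • P a' = b • P b') : a = 0 := by
  have hinj : Function.Injective (![a', b'] : Fin 2 → κ) := by
    intro i j hij
    fin_cases i <;> fin_cases j
    · rfl
    · exact absurd hij hne
    · exact absurd hij.symm hne
    · rfl
  have h1 := hLI.comp _ hinj
  have h2 : (P ∘ ![a', b']) = ![P a', P b'] := by
    funext i
    fin_cases i <;> rfl
  rw [h2] at h1
  have h3 := (LinearIndependent.pair_iff.mp h1) a (-b) (by rw [h, neg_smul, add_neg_cancel])
  exact h3.1

theorem mul_right_cancel_det {F : Type*} [Field F] {A B y : Matrix (Fin 4) (Fin 4) F}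
    (hy : IsUnit y.det) (h : A * y = B * y) : A = B := by
  have h1 := congrArg (fun M => M * y⁻¹) h
  simp only [Matrix.mul_assoc, Matrix.mul_nonsing_inv y hy, Matrix.mul_one] at h1
  exact h1

theorem mul_left_cancel_det {F : Type*} [Field F] {A B y : Matrix (Fin 4) (Fin 4) F}
    (hy : IsUnit y.det) (h : y * A = y * B) : A = B := by
  have h1 := congrArg (fun M => y⁻¹ * M) h
  simp only [← Matrix.mul_assoc, Matrix.nonsing_inv_mul y hy, Matrix.one_mul] at h1
  exact h1

theorem neg_one_pow_inj {F : Type*} [Field F] (h2 : (2 : F) ≠ 0) (a b : ZMod 2)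
    (h : (-1 : F) ^ a.val = (-1) ^ b.val) : a = b := by
  fin_cases a <;> fin_cases b
  · rfl
  · exfalso
    apply h2
    have h' : (1 : F) = -1 := by simpa [ZMod.val] using h
    linear_combination h'
  · exfalso
    apply h2
    have h' : (-1 : F) = 1 := by simpa [ZMod.val] using h
    linear_combination (-1 : F) * h'
  · rfl

theorem perm (hB : StPBasic.{u}) (hLI : StPLI.{u}) : StPerm.{u} := by
  intro F _ ι y h2 hι hN
  obtain ⟨hdet, hN⟩ := hN
  obtain ⟨hP0, -, hmul, hcomm, -, -, -⟩ := hB F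
  have hli := hLI F h2
  choose j σ hjσ using hN
  have hι4 : ι ^ 4 = 1 := by
    have h1 : ι ^ 4 = (ι ^ 2) ^ 2 := by ring
    rw [h1, hι]
    norm_num
  have hc4 : ∀ v, (ι ^ j v) ^ 4 = 1 := by
    intro v
    rw [← pow_mul, mul_comm, pow_mul, hι4, one_pow]
  have hc0 : ∀ v, ι ^ j v ≠ 0 := by
    intro v h0
    have h1 := hc4 v
    rw [h0] at h1
    norm_num at h1
  have hE1 : ∀ v w, y * (pauli v * pauli w) =
      (ι ^ j v * ι ^ j w) • (pauli (σ v) * pauli (σ w) * y) := by
    intro v w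
    rw [← Matrix.mul_assoc, hjσ v, Matrix.smul_mul, Matrix.mul_assoc, hjσ w, Matrix.mul_smul,
      smul_smul, Matrix.mul_assoc]
  have hadd : ∀ v w, σ (v + w) = σ v + σ w := by
    intro v w
    by_contra hne
    obtain ⟨ε, hε, hvw⟩ := hmul v w
    obtain ⟨ε', hε', hσ⟩ := hmul (σ v) (σ w)
    have h1 := hE1 v w
    rw [hvw, Matrix.mul_smul, hjσ (v + w), smul_smul, hσ, Matrix.smul_mul, smul_smul] at h1
    have h3 : ((ε * ι ^ j (v + w)) • pauli (σ (v + w))) * y =
        ((ι ^ j v * ι ^ j w * ε') • pauli (σ v + σ w)) * y := by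
      rw [Matrix.smul_mul, Matrix.smul_mul]
      exact h1
    have h4 := mul_right_cancel_det hdet h3
    have h5 := li_pair _ hli _ _ hne _ _ h4
    rcases mul_eq_zero.mp h5 with h6 | h6
    · rcases hε with rfl | rfl <;> simp at h6
    · exact hc0 _ h6
  have hsymp : ∀ v w, symp (σ v) (σ w) = symp v w := by
    intro v w
    obtain ⟨ε, hε, hσ⟩ := hmul (σ w) (σ v)
    have hε0 : ε ≠ 0 := by
      rcases hε with rfl | rfl <;> simp
    have hS1 : (ι ^ j v * ι ^ j w) • (pauli (σ v) * pauli (σ w) * y) =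
        ((-1 : F) ^ (symp v w).val * (ι ^ j w * ι ^ j v)) • (pauli (σ w) * pauli (σ v) * y) := by
      rw [← hE1 v w, hcomm v w, Matrix.mul_smul, hE1 w v, smul_smul]
    rw [hcomm (σ v) (σ w), hσ] at hS1
    simp only [Matrix.smul_mul, smul_smul] at hS1
    have h3 : ((ι ^ j v * ι ^ j w * ((-1 : F) ^ (symp (σ v) (σ w)).val * ε)) •
          (pauli (σ w + σ v) : Matrix (Fin 4) (Fin 4) F)) * y =
        (((-1 : F) ^ (symp v w).val * (ι ^ j w * ι ^ j v) * ε) •
          (pauli (σ w + σ v) : Matrix (Fin 4) (Fin 4) F)) * y := by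
      rw [Matrix.smul_mul, Matrix.smul_mul]
      exact hS1
    have h4 := mul_right_cancel_det hdet h3
    have hP : (pauli (σ w + σ v) : Matrix (Fin 4) (Fin 4) F) ≠ 0 := hli.ne_zero _
    have h5 : ι ^ j v * ι ^ j w * ((-1 : F) ^ (symp (σ v) (σ w)).val * ε) =
        (-1 : F) ^ (symp v w).val * (ι ^ j w * ι ^ j v) * ε := by
      have h6 : (ι ^ j v * ι ^ j w * ((-1 : F) ^ (symp (σ v) (σ w)).val * ε) -
          (-1 : F) ^ (symp v w).val * (ι ^ j w * ι ^ j v) * ε) •
          (pauli (σ w + σ v) : Matrix (Fin 4) (Fin 4) F) = 0 := by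
        rw [sub_smul, h4, sub_self]
      exact sub_eq_zero.mp ((smul_eq_zero.mp h6).resolve_right hP)
    have hne : ι ^ j v * ι ^ j w * ε ≠ 0 := mul_ne_zero (mul_ne_zero (hc0 v) (hc0 w)) hε0
    have h7 : (ι ^ j v * ι ^ j w * ε) * (-1 : F) ^ (symp (σ v) (σ w)).val =
        (ι ^ j v * ι ^ j w * ε) * (-1 : F) ^ (symp v w).val := by
      linear_combination h5
    exact neg_one_pow_inj h2 _ _ (mul_left_cancel₀ hne h7)
  have hinj : Function.Injective σ := by
    intro v w hvw
    have h1 : σ (v + w) = 0 := by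
      rw [hadd, hvw]
      funext i
      exact CharTwo.add_self_eq_zero _
    have h3 := hjσ (v + w)
    rw [h1, hP0, Matrix.one_mul] at h3
    have h4 : y * pauli (v + w) = y * ((ι ^ j (v + w)) • (1 : Matrix (Fin 4) (Fin 4) F)) := by
      rw [h3, Matrix.mul_smul, Matrix.mul_one]
    have h5 := mul_left_cancel_det hdet h4
    by_contra hne
    have hvw0 : v + w ≠ 0 := by
      intro h0
      apply hne
      have h6 : v = -w := eq_neg_of_add_eq_zero_left h0
      rw [h6]
      funext i
      exact CharTwo.neg_eq _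
    have h6 : (1 : F) • (pauli (v + w) : Matrix (Fin 4) (Fin 4) F) =
        (ι ^ j (v + w)) • (pauli (0 : Fin 4 → ZMod 2) : Matrix (Fin 4) (Fin 4) F) := by
      rw [one_smul, hP0]
      exact h5
    exact one_ne_zero (li_pair _ hli _ _ hvw0 _ _ h6)
  exact ⟨σ, fun v => ι ^ j v, hjσ, hc4, hadd, hsymp, Finite.injective_iff_bijective.mp hinj⟩

example (hB : StPBasic.{u}) (hLI : StPLI.{u}) : StPerm.{u} := perm hB hLI

end Cfsg.Agent.H18.UP
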