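import Cfsg.Agent.H77.UfDefs3

/-!
# UF-SUBGRP (helper77, S2149): the elements of `SU₃(5)` whose matrix preserves the list
form a subgroup.
-/

set_option autoImplicit false

namespace Cfsg.Agent.H18.Uf

open Cfsg.Agent.H77.Uf Matrix

theorem sg_pres_one : Pres 1 := by
  intro v hv
  exact ⟨v, hv, 1, by rw [Matrix.one_mulVec, one_smul]⟩

theorem sg_pres_mul {A B : Matrix (Fin 3) (Fin 3) F25} (hA : Pres A) (hB : Pres B) :
    Pres (A * B) := by
  intro v hv
  obtain ⟨w, hw, c, hc⟩ := hB v hv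
  obtain ⟨w', hw', c', hc'⟩ := hA w hw
  exact ⟨w', hw', c * c', by rw [← Matrix.mulVec_mulVec, hc, Matrix.mulVec_smul, hc', smul_smul]⟩

theorem sg_pres_pow (z : SU35) (hz : Pres z.1.1) (n : ℕ) : Pres (z ^ n).1.1 := by
  induction n with
  | zero => exact sg_pres_one
  | succ n ih =>
    have h : (z ^ (n + 1)).1.1 = (z ^ n).1.1 * z.1.1 := by rw [pow_succ]; rfl
    rw [h]
    exact sg_pres_mul ih hz

theorem sg_pres_inv (z : SU35) (hz : Pres z.1.1) : Pres (z⁻¹).1.1 := by
  have hpos : 0 < orderOf z := orderOf_pos z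
  have h1 : z⁻¹ = z ^ (orderOf z - 1) := by
    apply inv_eq_of_mul_eq_one_right
    rw [← pow_succ']
    have : orderOf z - 1 + 1 = orderOf z := by omega
    rw [this, pow_orderOf_eq_one]
  rw [h1]
  exact sg_pres_pow z hz _

/-- **UF-SUBGRP**. -/
theorem subgrp : StSubgrp := by
  refine ⟨{ carrier := {g : SU35 | Pres g.1.1}
            mul_mem' := ?_
            one_mem' := ?_
            inv_mem' := ?_ }, fun g => Iff.rfl⟩
  · intro a b ha hb
    exact sg_pres_mul ha hb
  · exact sg_pres_one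
  · intro a ha
    exact sg_pres_inv a ha

example : Cfsg.Agent.H77.Uf.StSubgrp := Cfsg.Agent.H18.Uf.subgrp

end Cfsg.Agent.H18.Uf
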